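import Cfsg.Agent.Lib.SchurMult.TransferExtension

/-!
The monomial transfer extension for several commuting pairs at once: the map of the kernel to the coefficient
kernel sends each commutator of lifts to the constant raised to the index.
-/

set_option autoImplicit false

namespace Cfsg.Agent.Lib.SchurMult.TransferExt

open Subgroup
open scoped commutatorElement

universe u v w

/-- An element of the kernel lying in the derived group comes from the multiplier. -/
theorem exists_mult_of_central {G : Type u} [Group G] {Γ : Type v} [Group Γ] (σ : Γ →* G)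
    (hc : σ.ker ≤ center Γ) {η : UGrp (stdPres G) →* Γ}
    (hη : ∀ w, σ (η w) = proj (stdPres G) w)
    {z : Γ} (hz : σ z = 1) (hz' : z ∈ commutator Γ) : ∃ m ∈ mult (stdPres G), η m = z := by
  have hle : commutator Γ ≤ (commutator (UGrp (stdPres G))).map η := by
    rw [_root_.commutator_def, Subgroup.commutator_le]
    have dec : ∀ a : Γ, ∃ w, ∃ k ∈ center Γ, a = η w * k := fun a => by
      obtain ⟨w, hw⟩ := proj_surjective (stdPres G) (stdPres_surjective G) (σ a)
      refine ⟨w, (η w)⁻¹ * a, hc ?_, (mul_inv_cancel_left _ _).symm⟩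
      rw [MonoidHom.mem_ker, map_mul, map_inv, hη, hw, inv_mul_cancel]
    intro a _ b _
    obtain ⟨w, k, hk, rfl⟩ := dec a
    obtain ⟨w', k', hk', rfl⟩ := dec b
    rw [commutatorElement_central_mul _ _ hk hk', ← map_commutatorElement]
    exact mem_map_of_mem η (commutator_mem_commutator (mem_top _) (mem_top _))
  obtain ⟨m, hm, rfl⟩ := hle hz'
  exact ⟨m, ⟨by show proj (stdPres G) m = 1; rw [← hη]; exact hz, hm⟩, rfl⟩

variable {G : Type u} [Group G] {P : Subgroup G} {E : Type v} [Group E] {π : E →* G}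

/-- The transfer map of the multiplier to the coefficients, evaluated on commuting pairs with constant
commutators of lifts. -/
theorem exists_mult_hom_of_stable {ι : Type w} [Finite G] [Finite E] (hP : π.range = P)
    (hc : π.ker ≤ center E) (xs ys : ι → G) (cs : ι → E) (hall : ∀ j, Commute (xs j) (ys j) ∧
      π (cs j) = 1 ∧ ∀ (g : G) (a b d : ℕ) (u v : E), a ∣ orderOf (xs j) → d ∣ orderOf (ys j) → b < d →
        π u = g⁻¹ * (xs j ^ a * ys j ^ b) * g → π v = g⁻¹ * ys j ^ d * g → ⁅u, v⁆ = cs j ^ (a * d)) :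
    ∃ r : mult (stdPres G) →* E, (∀ m, r m ∈ π.ker) ∧ ∀ j, ∃ m, r m = cs j ^ P.index := by
  classical
  haveI := Fintype.ofFinite (G ⧸ P)
  letI cA : CommGroup π.ker := { (inferInstance : Group π.ker) with
    mul_comm := fun a b => Subtype.ext (mem_center_iff.1 (hc b.2) a) }
  set pr := monProj P π with hpr
  have hsurj : Function.Surjective pr := fun g => by
    obtain ⟨f, hf⟩ := exists_spec hP g
    exact ⟨⟨(g, f), hf⟩, rfl⟩
  -- entries over the identity
  have hmemk : ∀ (z : pr.ker) (i : G ⧸ P), cmp P z.1.1.2 i ∈ π.ker := fun z i => by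
    have h1 : (z.1 : G × Equiv.Perm ((G ⧸ P) × E)).1 = 1 := z.2
    rw [MonoidHom.mem_ker, (z.1.2 i).2, h1, one_smul, mul_one, inv_mul_cancel]
  let ent : pr.ker → (G ⧸ P) → π.ker := fun z i => ⟨cmp P z.1.1.2 i, hmemk z i⟩
  have ent_mul : ∀ z w i, ent (z * w) i = ent z i * ent w i := fun z w i => Subtype.ext (by
    show cmp P (z.1.1.2 * w.1.1.2) i = cmp P z.1.1.2 i * cmp P w.1.1.2 i
    rw [cmp_mul z.1.2 w.1.2, show w.1.1.1 = 1 from w.2, one_smul])
  have hconjmem : ∀ (h : ↥(Mon P π)) (z : pr.ker), h * z * h⁻¹ ∈ pr.ker := fun h z =>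
    (MonoidHom.normal_ker pr).conj_mem z.1 z.2 h
  have ent_conj : ∀ (h : ↥(Mon P π)) (z : pr.ker) i,
      ent ⟨h * z * h⁻¹, hconjmem h z⟩ i = ent z ((pr h)⁻¹ • i) := fun h z i => Subtype.ext (by
    show cmp P (h.1.2 * z.1.1.2 * (h⁻¹).1.2) i = cmp P z.1.1.2 ((pr h)⁻¹ • i)
    have e1 : (h⁻¹).1.1 = (pr h)⁻¹ := rfl
    have e2 : z.1.1.1 = 1 := z.2
    have e3 : cmp P h.1.2 ((pr h)⁻¹ • i) * cmp P (h⁻¹).1.2 i = 1 := by
      rw [← e1, ← cmp_mul h.2 (h⁻¹).2]
      show cmp P ((h * h⁻¹ : ↥(Mon P π)).1.2) i = 1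
      rw [mul_inv_cancel]
      rfl
    rw [cmp_mul (spec_mul h.2 z.1.2) (h⁻¹).2, cmp_mul h.2 z.1.2, e1, e2, one_smul,
      mul_assoc, ← mem_center_iff.1 (hc (hmemk z _)) (cmp P (h⁻¹).1.2 i), ← mul_assoc, e3, one_mul])
  let ρ : pr.ker →* π.ker := MonoidHom.mk' (fun z => ∏ i, ent z i) fun z w => by
    simp only [ent_mul, Finset.prod_mul_distrib]
  have hρconj : ∀ (h : ↥(Mon P π)) (z : pr.ker), ρ ⟨h * z * h⁻¹, hconjmem h z⟩ = ρ z := fun h z => by
    show (∏ i, _) = ∏ i, _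
    simp only [ent_conj]
    exact Fintype.prod_equiv (MulAction.toPerm (pr h)⁻¹) _ _ fun i => rfl
  have hval : ∀ j, ∃ C : pr.ker, (C : ↥(Mon P π)) ∈ commutator ↥(Mon P π) ∧
      ((ρ C : π.ker) : E) = cs j ^ P.index := by
    intro j
    obtain ⟨hxy, hcπ, hst⟩ := hall j
    set x := xs j with hxdef
    set y := ys j with hydef
    set c := cs j with hcdef
    -- the lifts
    obtain ⟨X, hX⟩ := hsurj x
    obtain ⟨Y, hY⟩ := hsurj y
    have hCk : ∀ m n : ℕ, ⁅X ^ m, Y ^ n⁆ ∈ pr.ker := fun m n => by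
      rw [MonoidHom.mem_ker, map_commutatorElement, map_pow, map_pow, hX, hY,
        commutatorElement_eq_one_iff_commute]
      exact hxy.pow_pow m n
    let C : pr.ker := ⟨⁅X, Y⁆, by simpa using hCk 1 1⟩
    -- entries of commutators of powers
    have hrow : ∀ (m : ℕ) (i : G ⧸ P),
        ent ⟨⁅X ^ m, Y⁆, by simpa using hCk m 1⟩ i = ∏ t ∈ Finset.range m, ent C (x⁻¹ ^ t • i) := by
      intro m
      induction m with
      | zero =>
        intro i
        refine Subtype.ext ?_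
        simp only [pow_zero, commutatorElement_one_left, Finset.range_zero, Finset.prod_empty]
        rfl
      | succ m ih =>
        intro i
        have hkm : ⁅X ^ m, Y⁆ ∈ pr.ker := by simpa using hCk m 1
        have : (⟨⁅X ^ (m + 1), Y⁆, by simpa using hCk (m + 1) 1⟩ : pr.ker) =
            ⟨X * ⁅X ^ m, Y⁆ * X⁻¹, hconjmem X ⟨_, hkm⟩⟩ * C := Subtype.ext (by
          show ⁅X ^ (m + 1), Y⁆ = X * ⁅X ^ m, Y⁆ * X⁻¹ * ⁅X, Y⁆
          simp only [commutatorElement_def, pow_succ']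
          group)
        have e : (pr X)⁻¹ = x⁻¹ := by rw [hX]
        rw [this, ent_mul, ent_conj X ⟨_, hkm⟩, ih, e, Finset.prod_range_succ']
        simp only [pow_zero, one_smul, pow_succ, mul_smul]
    have hgrid : ∀ (m n : ℕ) (i : G ⧸ P), ent ⟨⁅X ^ m, Y ^ n⁆, hCk m n⟩ i =
        ∏ s ∈ Finset.range n, ∏ t ∈ Finset.range m, ent C (x⁻¹ ^ t • y⁻¹ ^ s • i) := by
      intro m n
      induction n with
      | zero =>
        intro i
        refine Subtype.ext ?_
        simp only [pow_zero, commutatorElement_one_right, Finset.range_zero, Finset.prod_empty]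
        rfl
      | succ n ih =>
        intro i
        have : (⟨⁅X ^ m, Y ^ (n + 1)⁆, hCk m (n + 1)⟩ : pr.ker) =
            ⟨⁅X ^ m, Y⁆, by simpa using hCk m 1⟩ * ⟨Y * ⁅X ^ m, Y ^ n⁆ * Y⁻¹, hconjmem Y ⟨_, hCk m n⟩⟩ :=
          Subtype.ext (by
            show ⁅X ^ m, Y ^ (n + 1)⁆ = ⁅X ^ m, Y⁆ * (Y * ⁅X ^ m, Y ^ n⁆ * Y⁻¹)
            simp only [commutatorElement_def, pow_succ']
            group)
        have e : (pr Y)⁻¹ = y⁻¹ := by rw [hY]
        rw [this, ent_mul, ent_conj Y ⟨_, hCk m n⟩, ih, e, hrow, Finset.prod_range_succ']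
        simp only [pow_zero, one_smul, pow_succ, mul_smul]
        rw [mul_comm]
    -- one orbit
    set H := Subgroup.closure ({x⁻¹, y⁻¹} : Set G) with hH
    have hx' : x⁻¹ ∈ H := subset_closure (Or.inl rfl)
    have hy' : y⁻¹ ∈ H := subset_closure (Or.inr rfl)
    have hxy' : Commute x⁻¹ y⁻¹ := hxy.inv_inv
    have hord : 0 < orderOf x⁻¹ ∧ 0 < orderOf y⁻¹ := ⟨orderOf_pos _, orderOf_pos _⟩
    have hform : ∀ h ∈ H, ∃ m n : ℕ, h = x⁻¹ ^ m * y⁻¹ ^ n := by
      intro h hh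
      rw [hH, ← Subgroup.mem_toSubmonoid, Subgroup.closure_toSubmonoid_of_finite] at hh
      induction hh using Submonoid.closure_induction with
      | mem h hh =>
        rcases hh with rfl | rfl
        · exact ⟨1, 0, by simp⟩
        · exact ⟨0, 1, by simp⟩
      | one => exact ⟨0, 0, by simp⟩
      | mul h h' _ _ ih ih' =>
        obtain ⟨m, n, rfl⟩ := ih
        obtain ⟨m', n', rfl⟩ := ih'
        refine ⟨m + m', n + n', ?_⟩
        rw [pow_add, pow_add, mul_assoc (x⁻¹ ^ m), ← mul_assoc (y⁻¹ ^ n), ← (hxy'.pow_pow m' n).eq]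
        simp only [mul_assoc]
    have horbit : ∀ q : MulAction.orbitRel.Quotient H (G ⧸ P),
        ∏ j : {j // Quotient.mk'' j = q}, ent C j.1 =
          (⟨c, MonoidHom.mem_ker.2 hcπ⟩ : π.ker) ^ Fintype.card {j // Quotient.mk'' j = q} := by
      intro q
      obtain ⟨i, rfl⟩ := Quotient.mk''_surjective q
      have hex : ∃ a, 0 < a ∧ ∃ n : ℕ, x⁻¹ ^ a • i = y⁻¹ ^ n • i :=
        ⟨orderOf x⁻¹, hord.1, 0, by rw [pow_orderOf_eq_one, pow_zero]⟩
      set a := Nat.find hex with ha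
      obtain ⟨ha0, n₀, hn₀⟩ := Nat.find_spec hex
      set d := MulAction.period y⁻¹ i with hd
      have hd0 : 0 < d := MulAction.period_pos_of_orderOf_pos hord.2 i
      have hmod : ∀ n, y⁻¹ ^ n • i = y⁻¹ ^ (n % d) • i := fun n => (MulAction.pow_mod_period_smul n).symm
      have hadd : ∀ k, ∃ n : ℕ, x⁻¹ ^ (k * a) • i = y⁻¹ ^ n • i := fun k => by
        induction k with
        | zero => exact ⟨0, by simp⟩
        | succ k ih =>
          obtain ⟨n, hn⟩ := ih
          refine ⟨n + n₀, ?_⟩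
          rw [add_mul, one_mul, add_comm, pow_add, mul_smul, hn, ← mul_smul, (hxy'.pow_pow a n).eq, mul_smul,
            hn₀, ← mul_smul, ← pow_add]
      have hreduce : ∀ m n : ℕ, ∃ t < a, ∃ s < d, x⁻¹ ^ m • y⁻¹ ^ n • i = x⁻¹ ^ t • y⁻¹ ^ s • i := by
        intro m n
        obtain ⟨k, hk⟩ := hadd (m / a)
        refine ⟨m % a, Nat.mod_lt _ ha0, (n + k) % d, Nat.mod_lt _ hd0, ?_⟩
        rw [← hmod, pow_add, mul_smul, ← hk, ← mul_smul (y⁻¹ ^ n), ← (hxy'.pow_pow (m / a * a) n).eq,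
          ← mul_smul, ← mul_smul, ← mul_assoc, ← pow_add, Nat.mod_add_div', mul_smul]
      have hmin : ∀ {t t' : ℕ} {s s' : ℕ}, t < a → t' < a → t ≤ t' →
          x⁻¹ ^ t • y⁻¹ ^ s • i = x⁻¹ ^ t' • y⁻¹ ^ s' • i → t = t' := by
        intro t t' s s' ht ht' hle h
        by_contra hne
        obtain ⟨r, rfl⟩ : ∃ r, t' = t + r := ⟨t' - t, by omega⟩
        rw [pow_add, mul_smul, smul_left_cancel_iff, ← mul_smul, (hxy'.pow_pow r s').eq, mul_smul] at h
        refine Nat.find_min hex (show r < a by omega) ⟨by omega, s + s' * (orderOf y⁻¹ - 1), ?_⟩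
        have h2 := congrArg (fun j => y⁻¹ ^ (s' * (orderOf y⁻¹ - 1)) • j) h
        simp only [← mul_smul, ← pow_add] at h2
        rw [← mul_assoc, ← pow_add] at h2
        rw [add_comm, h2, show s' * (orderOf y⁻¹ - 1) + s' = orderOf y⁻¹ * s' by
          rw [← Nat.mul_succ, Nat.succ_eq_add_one, Nat.sub_add_cancel hord.2, mul_comm],
          pow_mul, pow_orderOf_eq_one, one_pow, one_mul]
      have hmemq : ∀ t s : ℕ, (Quotient.mk'' (x⁻¹ ^ t • y⁻¹ ^ s • i) : MulAction.orbitRel.Quotient H (G ⧸ P)) =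
          Quotient.mk'' i := fun t s =>
        Quotient.sound' ⟨⟨x⁻¹ ^ t * y⁻¹ ^ s, mul_mem (pow_mem hx' _) (pow_mem hy' _)⟩, by
          show (x⁻¹ ^ t * y⁻¹ ^ s) • i = _
          rw [mul_smul]⟩
      let φ : Fin d × Fin a → {j // Quotient.mk'' j = (Quotient.mk'' i : MulAction.orbitRel.Quotient H (G ⧸ P))} :=
        fun p => ⟨x⁻¹ ^ p.2.1 • y⁻¹ ^ p.1.1 • i, hmemq _ _⟩
      have hφ : Function.Bijective φ := by
        constructor
        · rintro ⟨s, t⟩ ⟨s', t'⟩ h
          have h' : x⁻¹ ^ t.1 • y⁻¹ ^ s.1 • i = x⁻¹ ^ t'.1 • y⁻¹ ^ s'.1 • i := congrArg Subtype.val h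
          have ht : t.1 = t'.1 := by
            rcases le_total t.1 t'.1 with hle | hle
            · exact hmin t.2 t'.2 hle h'
            · exact (hmin t'.2 t.2 hle h'.symm).symm
          rw [ht, smul_left_cancel_iff] at h'
          have hs : s.1 = s'.1 := by
            rcases le_total s.1 s'.1 with hle | hle
            · obtain ⟨r, hr⟩ := Nat.exists_eq_add_of_le hle
              rw [hr, pow_add, mul_smul, smul_left_cancel_iff, eq_comm, MulAction.pow_smul_eq_iff_period_dvd] at h'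
              have := Nat.eq_zero_of_dvd_of_lt h' (by omega)
              omega
            · obtain ⟨r, hr⟩ := Nat.exists_eq_add_of_le hle
              rw [hr, pow_add, mul_smul, smul_left_cancel_iff, MulAction.pow_smul_eq_iff_period_dvd] at h'
              have := Nat.eq_zero_of_dvd_of_lt h' (by omega)
              omega
          exact Prod.ext (Fin.ext hs) (Fin.ext ht)
        · rintro ⟨j, hj⟩
          obtain ⟨⟨h, hh⟩, rfl⟩ := Quotient.exact' hj
          obtain ⟨m, n, rfl⟩ := hform h hh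
          obtain ⟨t, ht, s, hs, e⟩ := hreduce m n
          exact ⟨(⟨s, hs⟩, ⟨t, ht⟩), Subtype.ext (e.symm.trans (mul_smul _ _ _).symm)⟩
      rw [← Fintype.card_of_bijective hφ, ← Fintype.prod_bijective φ hφ (fun p => ent C (φ p).1) _ fun p => rfl,
        Fintype.card_prod, Fintype.card_fin, Fintype.card_fin, Fintype.prod_prod_type,
        Fin.prod_univ_eq_prod_range (fun s => ∏ t : Fin a, ent C (x⁻¹ ^ t.1 • y⁻¹ ^ s • i)) d]
      rw [Finset.prod_congr rfl fun s _ =>
        Fin.prod_univ_eq_prod_range (fun t => ent C (x⁻¹ ^ t • y⁻¹ ^ s • i)) a]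
      rw [← hgrid a d i]
      -- the pair attached to the orbit
      set b := (d - n₀ % d) % d with hb
      have hfix : x⁻¹ ^ a • y⁻¹ ^ b • i = i := by
        rw [← mul_smul, (hxy'.pow_pow a b).eq, mul_smul, hn₀, ← mul_smul, ← pow_add]
        refine (MulAction.pow_smul_eq_iff_period_dvd).2 ?_
        rw [← hd, Nat.dvd_iff_mod_eq_zero, hb, Nat.mod_add_mod, Nat.add_mod]
        rcases Nat.eq_zero_or_pos (n₀ % d) with h0 | h0
        · simp [h0]
        · have : n₀ % d < d := Nat.mod_lt _ hd0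
          rw [Nat.mod_eq_of_lt (show d - n₀ % d < d by omega), Nat.sub_add_cancel this.le, Nat.mod_self]
      have hU : pr (X ^ a * Y ^ b) • i = i := by
        rw [map_mul, map_pow, map_pow, hX, hY]
        have h : (x ^ a * y ^ b)⁻¹ • i = i := by
          rw [mul_inv_rev, ← inv_pow, ← inv_pow, ← (hxy'.pow_pow a b).eq, mul_smul, hfix]
        rw [inv_smul_eq_iff] at h
        exact h.symm
      have hV : pr (Y ^ d) • i = i := by
        rw [map_pow, hY]
        have h : y⁻¹ ^ d • i = i := by rw [hd, MulAction.pow_period_smul]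
        rw [inv_pow, inv_smul_eq_iff] at h
        exact h.symm
      have hda : a ∣ orderOf x := by
        rw [← orderOf_inv]
        obtain ⟨k, hk⟩ := hadd (orderOf x⁻¹ / a)
        by_contra hnd
        have hr : orderOf x⁻¹ % a ≠ 0 := fun h => hnd (Nat.dvd_of_mod_eq_zero h)
        have e1 : x⁻¹ ^ (orderOf x⁻¹ % a) • y⁻¹ ^ k • i = x⁻¹ ^ 0 • y⁻¹ ^ 0 • i := by
          rw [← hk, ← mul_smul, ← pow_add, Nat.mod_add_div', pow_orderOf_eq_one]
          simp
        exact hr (hmin ha0 (Nat.mod_lt _ ha0) (Nat.zero_le _) e1.symm).symm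
      have hdd : d ∣ orderOf y := orderOf_inv y ▸ MulAction.period_dvd_orderOf y⁻¹ i
      refine Subtype.ext ?_
      rw [SubgroupClass.coe_pow]
      show cmp P ((⁅X ^ a, Y ^ d⁆ : ↥(Mon P π)).1.2) i = c ^ (d * a)
      have hUV : (⁅X ^ a, Y ^ d⁆ : ↥(Mon P π)) = ⁅X ^ a * Y ^ b, Y ^ d⁆ := by
        simp only [commutatorElement_def]
        group
      rw [hUV, cmp_commutator hU hV, mul_comm d a]
      refine hst (Cores.rep P i) a b d _ _ hda hdd (Nat.mod_lt _ hd0) ?_ ?_
      · have h := (((X ^ a * Y ^ b : ↥(Mon P π))).2 i).2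
        rw [show (X ^ a * Y ^ b : ↥(Mon P π)).1.1 = pr (X ^ a * Y ^ b) from rfl, hU, map_mul, map_pow, map_pow,
          hX, hY] at h
        exact h
      · have h := (((Y ^ d : ↥(Mon P π))).2 i).2
        rw [show (Y ^ d : ↥(Mon P π)).1.1 = pr (Y ^ d) from rfl, hV, map_pow, hY] at h
        exact h
    have hρC : ρ C = (⟨c, MonoidHom.mem_ker.2 hcπ⟩ : π.ker) ^ P.index := by
      show (∏ i, ent C i) = _
      rw [← Fintype.prod_fiberwise (fun i => (Quotient.mk'' i : MulAction.orbitRel.Quotient H (G ⧸ P))),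
        Finset.prod_congr rfl fun q _ => horbit q, Finset.prod_pow_eq_pow_sum, ← Fintype.card_sigma,
        Fintype.card_congr (Equiv.sigmaFiberEquiv _), Subgroup.index_eq_card, Nat.card_eq_fintype_card]
    refine ⟨C, commutator_mem_commutator (mem_top _) (mem_top _), ?_⟩
    rw [hρC, SubgroupClass.coe_pow]
  -- the quotient
  set N := ρ.ker.map pr.ker.subtype with hN
  haveI : N.Normal := ⟨fun z hz h => by
    obtain ⟨w, hw, rfl⟩ := hz
    exact ⟨⟨h * w * h⁻¹, hconjmem h w⟩, by rw [SetLike.mem_coe, MonoidHom.mem_ker, hρconj]; exact hw, rfl⟩⟩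
  have hNle : N ≤ pr.ker := Subgroup.map_subtype_le _
  let σ : ↥(Mon P π) ⧸ N →* G := QuotientGroup.lift N pr hNle
  have hq := QuotientGroup.mk'_surjective N
  have hσc : σ.ker ≤ center (↥(Mon P π) ⧸ N) := by
    intro w hw
    obtain ⟨z, rfl⟩ := hq w
    have hz : z ∈ pr.ker := hw
    refine mem_center_iff.2 fun g => ?_
    obtain ⟨h, rfl⟩ := hq g
    rw [← map_mul, ← map_mul, ← inv_mul_eq_one, ← map_inv, ← map_mul]
    refine (QuotientGroup.eq_one_iff _).2 ?_
    refine ⟨(⟨z, hz⟩ : pr.ker)⁻¹ * ⟨h⁻¹ * z * h⁻¹⁻¹, hconjmem h⁻¹ ⟨z, hz⟩⟩, ?_, ?_⟩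
    · rw [SetLike.mem_coe, MonoidHom.mem_ker, map_mul, hρconj h⁻¹ ⟨z, hz⟩, map_inv, inv_mul_cancel]
    · show z⁻¹ * (h⁻¹ * z * h⁻¹⁻¹) = _
      group
  obtain ⟨η, hη⟩ := exists_lift (stdPres G) (MonoidHom.id G) σ (fun g => by
      obtain ⟨z, rfl⟩ := hsurj g
      exact ⟨QuotientGroup.mk' N z, rfl⟩) hσc
  have hη' : ∀ w, σ (η w) = proj (stdPres G) w := DFunLike.congr_fun hη
  let q' : pr.ker →* σ.ker := MonoidHom.mk' (fun z => ⟨QuotientGroup.mk' N z.1, z.2⟩) fun a b =>
    Subtype.ext (map_mul (QuotientGroup.mk' N) a.1 b.1)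
  have hq' : Function.Surjective q' := fun w => by
    obtain ⟨z, hz⟩ := hq w.1
    exact ⟨⟨z, by have := w.2; rw [← hz] at this; exact this⟩, Subtype.ext hz⟩
  have hkq : q'.ker ≤ ρ.ker := fun z hz => by
    obtain ⟨w, hw, e⟩ := (QuotientGroup.eq_one_iff _).1 (congrArg Subtype.val hz)
    rwa [show z = w from Subtype.ext e.symm]
  let r₀ : σ.ker →* π.ker := q'.liftOfSurjective hq' ⟨ρ, hkq⟩
  have hmem : ∀ m : mult (stdPres G), η (m : UGrp (stdPres G)) ∈ σ.ker := fun m => by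
    rw [MonoidHom.mem_ker, hη']; exact mult_le_ker _ m.2
  let r : mult (stdPres G) →* E :=
    π.ker.subtype.comp (r₀.comp ((η.comp (mult (stdPres G)).subtype).codRestrict σ.ker hmem))
  refine ⟨r, fun m => (r₀ _).2, fun j => ?_⟩
  obtain ⟨C, hC, hρC⟩ := hval j
  obtain ⟨m, hm, e⟩ := exists_mult_of_central σ hσc hη' (z := QuotientGroup.mk' N (C : ↥(Mon P π)))
    (show σ _ = 1 from C.2) (by
      have := Subgroup.mem_map_of_mem (QuotientGroup.mk' N) hC
      rw [map_commutator_eq] at this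
      exact Subgroup.commutator_mono le_top le_top this)
  refine ⟨⟨m, hm⟩, ?_⟩
  show ((r₀ ⟨η m, hmem ⟨m, hm⟩⟩ : π.ker) : E) = _
  rw [show (⟨η m, hmem ⟨m, hm⟩⟩ : σ.ker) = q' C from Subtype.ext e, ← hρC]
  exact congrArg Subtype.val (MonoidHom.liftOfRightInverse_comp_apply _ _ _ _ C)

end Cfsg.Agent.Lib.SchurMult.TransferExt
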