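import Cfsg.Agent.Lib.SchurMult.Sylow
import Cfsg.Agent.Lib.Char.Scalar
import Cfsg.Agent.Lib.CharKernel

/-!
Schur's theorem: the square of the exponent of the multiplier divides the group order.
-/

set_option autoImplicit false

namespace Cfsg.Agent.Lib.SchurMult

open Cfsg Cfsg.Agent.Lib.Char Cfsg.Agent.Lib.CharAux Cfsg.Agent.Lib.CharKernel

universe u

theorem sq_dvd_index {Γ : Type u} [Group Γ] [Finite Γ] {p : ℕ} [hp : Fact p.Prime]
    (hΓ : IsPGroup p Γ) (Z : Subgroup Γ) (hZc : Z ≤ Subgroup.center Γ) {z : Γ} (hz : z ∈ Z)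
    (hzd : z ∈ commutator Γ) : orderOf z ^ 2 ∣ Z.index := by
  classical
  have := Fintype.ofFinite Γ
  obtain ⟨k, hk⟩ := IsPGroup.iff_orderOf.1 hΓ z
  rcases Nat.eq_zero_or_pos k with rfl | hk0
  · rw [hk, pow_zero, one_pow]
    exact one_dvd _
  set z₀ := z ^ p ^ (k - 1)
  have hz₀ : orderOf z₀ = p := by
    rw [orderOf_pow' _ (pow_ne_zero _ hp.out.ne_zero), hk,
      Nat.gcd_eq_right (pow_dvd_pow p (Nat.sub_le k 1)), Nat.pow_div (Nat.sub_le k 1) hp.out.pos,
      Nat.sub_sub_self hk0, pow_one]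
  obtain ⟨χ, hχ⟩ : ∃ χ : IrrCharacter Γ, (χ : Γ → ℂ) z₀ ≠ (χ : Γ → ℂ) 1 := by
    by_contra! h
    rw [CharKernel.eq_one_of_forall_irr h, orderOf_one] at hz₀
    exact hp.out.ne_one hz₀.symm
  obtain ⟨n, ρ, hρ, hχρ⟩ := χ.2
  haveI := hρ
  have hχc : IsCharacter Γ (χ : Γ → ℂ) := ⟨n, ρ, hχρ⟩
  have hd1 : (χ : Γ → ℂ) 1 = (n : ℂ) := by rw [← hχρ, Representation.char_one]; simp
  have hn : 0 < n := by
    by_contra! h0
    refine hχ ?_
    obtain rfl : n = 0 := by omega
    rw [← hχρ]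
    simp [Representation.character, Subsingleton.elim (ρ z₀) (ρ 1)]
  -- the scalar and the determinant
  obtain ⟨c, hc⟩ := exists_scalar_of_mem_center ρ (hZc hz)
  have hcn : c ^ n = 1 := by
    have h1 : (LinearMap.det.comp ρ).toHomUnits z = 1 :=
      Abelianization.commutator_subset_ker _ hzd
    have h2 : LinearMap.det (ρ z) = 1 := congrArg Units.val h1
    rwa [hc, LinearMap.det_smul, map_one, mul_one, Module.finrank_fintype_fun_eq_card,
      Fintype.card_fin] at h2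
  have hzn : z ^ n ∈ kerChar hχc := by
    rw [mem_kerChar, ← hχρ]
    simp only [Representation.character, map_pow, hc, smul_pow, one_pow, hcn, one_smul, map_one]
  -- `orderOf z` divides the degree
  obtain ⟨j, hj⟩ : p ^ k ∣ n := by
    by_contra hnd
    refine hχ ?_
    have hg : Nat.gcd (p ^ k) n ∣ p ^ (k - 1) := by
      obtain ⟨i, hi, hge⟩ := (Nat.dvd_prime_pow hp.out).1 (Nat.gcd_dvd_left (p ^ k) n)
      rw [hge]
      refine pow_dvd_pow p ?_
      by_contra! hik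
      exact hnd ((show i = k by omega) ▸ hge ▸ Nat.gcd_dvd_right (p ^ k) n)
    obtain ⟨t, ht⟩ := hg
    have : z₀ = (z ^ n) ^ (Int.toNat (Nat.gcdB (p ^ k) n % (p ^ k : ℕ)) * t) := by
      rw [← pow_mul]
      show z ^ p ^ (k - 1) = _
      rw [pow_eq_pow_iff_modEq, hk, ht, ← mul_assoc]
      refine Nat.ModEq.mul_right t ?_
      rw [← Int.natCast_modEq_iff]
      have hb := Nat.gcd_eq_gcd_ab (p ^ k) n
      rw [hb, Nat.cast_mul, Int.toNat_of_nonneg
        (Int.emod_nonneg _ (by exact_mod_cast pow_ne_zero k hp.out.ne_zero))]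
      refine Int.ModEq.trans ?_ ((Int.mod_modEq _ _).symm.mul_left (n : ℤ))
      rw [Int.modEq_iff_dvd]
      exact ⟨-Nat.gcdA (p ^ k) n, by push_cast; ring⟩
    rw [← mem_kerChar hχc, this]
    exact pow_mem hzn _
  -- the degree squared is at most the index
  have hsq : n ^ 2 ≤ Z.index := by
    have h1 := sum_normSq_irr χ.2
    have h2 : ∑ g ∈ (Finset.univ : Finset Γ).filter (· ∈ Z), Complex.normSq ((χ : Γ → ℂ) g) =
        (Nat.card Z : ℝ) * (n : ℝ) ^ 2 := by
      rw [Finset.sum_congr rfl (g := fun _ => (n : ℝ) ^ 2) (fun g hg => ?_)]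
      · rw [Finset.sum_const, nsmul_eq_mul, Nat.card_eq_fintype_card,
          Fintype.card_subtype (fun g => g ∈ Z)]
      · rw [Complex.normSq_eq_norm_sq, norm_char_of_mem_center χ.2 (hZc (Finset.mem_filter.1 hg).2),
          hd1, Complex.norm_natCast]
    have h3 : (Nat.card Z : ℝ) * (n : ℝ) ^ 2 ≤ (Nat.card Z : ℝ) * (Z.index : ℝ) := by
      rw [← h2, ← Nat.cast_mul, Z.card_mul_index, ← h1]
      exact Finset.sum_le_sum_of_subset_of_nonneg (Finset.filter_subset _ _)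
        fun g _ _ => Complex.normSq_nonneg _
    have h4 := le_of_mul_le_mul_left h3 (by exact_mod_cast Nat.card_pos)
    exact_mod_cast h4
  obtain ⟨m, hm⟩ := hΓ.index Z
  rw [hm, hk, ← pow_mul]
  refine pow_dvd_pow p ((Nat.pow_le_pow_iff_right hp.out.one_lt).1 ?_)
  rw [← hm, pow_mul]
  refine le_trans (Nat.pow_le_pow_left ?_ 2) hsq
  exact Nat.le_of_dvd hn ⟨j, hj⟩

theorem exponent_sq_dvd {Γ : Type u} [Group Γ] [Finite Γ] {Q : Type*} [Group Q] [Finite Q]
    {σ : Γ →* Q} (hσ : Cfsg.IsStemExtension σ) :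
    Monoid.exponent σ.ker ^ 2 ∣ Nat.card Q := by
  have hexp : Monoid.exponent σ.ker ≠ 0 := Monoid.exponent_ne_zero_of_finite
  rw [Nat.dvd_iff_prime_pow_dvd_dvd]
  intro p k hp hdvd
  haveI := Fact.mk hp
  obtain ⟨P₀⟩ := (inferInstance : Nonempty (Sylow p Γ))
  set v := (Monoid.exponent σ.ker).factorization p
  -- an element of order `p ^ v`
  obtain ⟨z, hz⟩ : ∃ z : σ.ker, orderOf z = p ^ v := hp.exists_orderOf_eq_pow_factorization_exponent σ.ker
  obtain ⟨P, hP⟩ := (IsPGroup.of_card (p := p) (n := v) (G := Subgroup.zpowers (z : Γ)) (by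
    rw [Nat.card_zpowers, Subgroup.orderOf_coe, hz])).exists_le_sylow
  have hzP : (z : Γ) ∈ (P : Subgroup Γ) := hP (Subgroup.mem_zpowers _)
  have hs := stem_restrict_sylow hσ P
  set τ := σ.subgroupMap (P : Subgroup Γ)
  have hzker : (⟨(z : Γ), hzP⟩ : (P : Subgroup Γ)) ∈ τ.ker := Subtype.ext z.2
  have h1 := sq_dvd_index P.2 τ.ker hs.2.1 hzker (hs.2.2 hzker)
  rw [Subgroup.orderOf_mk, Subgroup.orderOf_coe, hz, Subgroup.index_ker, MonoidHom.range_eq_top.2 hs.1,
    Subgroup.card_top] at h1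
  refine dvd_trans ?_ (h1.trans (Subgroup.card_subgroup_dvd_card _))
  have h2 : k ≤ v * 2 := by
    have := (Nat.factorization_le_iff_dvd (pow_ne_zero k hp.ne_zero) (pow_ne_zero 2 hexp)).2 hdvd p
    simp only [hp.factorization_pow, Finsupp.single_eq_same, Nat.factorization_pow,
      Finsupp.smul_apply, smul_eq_mul] at this
    omega
  rw [← pow_mul]
  exact pow_dvd_pow p h2

end Cfsg.Agent.Lib.SchurMult
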