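import Cfsg.Agent.Lib.SchurMult.Basic

/-!
A perfect stem cover with trivial multiplier determines the multiplier.
-/

set_option autoImplicit false

namespace Cfsg.Agent.Lib.SchurMult

open scoped commutatorElement

universe u v

/-- finite central extensions of a perfect group with trivial multiplier split -/
theorem exists_section_of_trivial {Γ : Type u} [Group Γ] [Finite Γ] (hperf : commutator Γ = ⊤)
    (h : Cfsg.HasCyclicSchurMultiplier Γ 1) {P : Type v} [Group P] [Finite P] (f : P →* Γ)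
    (hs : Function.Surjective f) (hc : f.ker ≤ Subgroup.center P) :
    ∃ τ : Γ →* P, f.comp τ = MonoidHom.id Γ := by
  let f' : ↥(commutator P) →* Γ := f.comp (commutator P).subtype
  have hmap : (commutator P).map f = ⊤ := by
    rw [map_commutator_eq _ f, MonoidHom.range_eq_top.2 hs, ← commutator_def, hperf]
  have hs' : Function.Surjective f' := fun g => by
    obtain ⟨p, hp, rfl⟩ : g ∈ (commutator P).map f := by rw [hmap]; exact Subgroup.mem_top g
    exact ⟨⟨p, hp⟩, rfl⟩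
  have hc' : f'.ker ≤ Subgroup.center ↥(commutator P) := fun z hz => Subgroup.mem_center_iff.2 fun y =>
    Subtype.ext (Subgroup.mem_center_iff.1 (hc (show f z.1 = 1 from hz)) y.1)
  have hperf' : commutator ↥(commutator P) = ⊤ := by
    rw [eq_top_iff]
    rintro ⟨x, hx⟩ -
    have hle : commutator P ≤ (commutator ↥(commutator P)).map (commutator P).subtype := by
      conv_lhs => rw [commutator_eq_closure]
      rw [Subgroup.closure_le]
      rintro _ ⟨a, b, rfl⟩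
      obtain ⟨p, hp⟩ := hs' (f a)
      obtain ⟨q, hq⟩ := hs' (f b)
      refine ⟨p * q * p⁻¹ * q⁻¹, ?_, ?_⟩
      · rw [← commutatorElement_def]
        exact Subgroup.commutator_mem_commutator (Subgroup.mem_top _) (Subgroup.mem_top _)
      obtain ⟨z, hz, rfl⟩ : ∃ z ∈ Subgroup.center P, a = p.1 * z :=
        ⟨p.1⁻¹ * a, hc (by
          rw [MonoidHom.mem_ker, map_mul, map_inv, show f p.1 = f a from hp, inv_mul_cancel]), by group⟩
      obtain ⟨w, hw, rfl⟩ : ∃ w ∈ Subgroup.center P, b = q.1 * w :=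
        ⟨q.1⁻¹ * b, hc (by
          rw [MonoidHom.mem_ker, map_mul, map_inv, show f q.1 = f b from hq, inv_mul_cancel]), by group⟩
      have hz' := fun y => Subgroup.mem_center_iff.1 hz y
      have hw' := fun y => Subgroup.mem_center_iff.1 hw y
      show (p * q * p⁻¹ * q⁻¹ : ↥(commutator P)).1 = ⁅p.1 * z, q.1 * w⁆
      rw [commutatorElement_def]
      push_cast
      symm
      calc p.1 * z * (q.1 * w) * (p.1 * z)⁻¹ * (q.1 * w)⁻¹
          = p.1 * (z * (q.1 * w) * z⁻¹) * p.1⁻¹ * w⁻¹ * q.1⁻¹ := by group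
        _ = p.1 * (q.1 * w) * p.1⁻¹ * w⁻¹ * q.1⁻¹ := by rw [← hz' (q.1 * w)]; group
        _ = p.1 * q.1 * (w * p.1⁻¹) * w⁻¹ * q.1⁻¹ := by group
        _ = p.1 * q.1 * p.1⁻¹ * q.1⁻¹ := by rw [← hw' p.1⁻¹]; group
    obtain ⟨y, hy, e⟩ := hle hx
    rwa [show (⟨x, hx⟩ : ↥(commutator P)) = y from Subtype.ext e.symm]
  have hker : f'.ker = ⊥ := stem_ker_eq_bot h ⟨hs', hc', by rw [hperf']; exact le_top⟩
  let e := MulEquiv.ofBijective f' ⟨(MonoidHom.ker_eq_bot_iff f').1 hker, hs'⟩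
  exact ⟨(commutator P).subtype.comp e.symm.toMonoidHom, MonoidHom.ext fun g => e.apply_symm_apply g⟩

/-- the kernel of a perfect stem cover with trivial multiplier is the multiplier -/
theorem hasSchurMultiplier_of_universal {G : Type u} [Group G] [Finite G] {Γ : Type u} [Group Γ] [Finite Γ]
    (σ : Γ →* G) (hσ : Cfsg.IsStemExtension σ) (hperf : commutator Γ = ⊤)
    (h : Cfsg.HasCyclicSchurMultiplier Γ 1) {A : Type v} [CommGroup A] (e : σ.ker ≃* A) :
    Cfsg.HasSchurMultiplier G A := by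
  refine ⟨⟨Γ, inferInstance, inferInstance, σ, hσ, ⟨e⟩⟩, ?_⟩
  intro Δ _ _ σ' hσ'
  obtain ⟨hs', hc', hd'⟩ := hσ'
  let P := (σ.comp (MonoidHom.fst Γ Δ)).eqLocus (σ'.comp (MonoidHom.snd Γ Δ))
  let f : ↥P →* Γ := (MonoidHom.fst Γ Δ).comp P.subtype
  have hf : Function.Surjective f := fun γ => by
    obtain ⟨δ, hδ⟩ := hs' (σ γ)
    exact ⟨⟨(γ, δ), hδ.symm⟩, rfl⟩
  have hfc : f.ker ≤ Subgroup.center ↥P := fun z hz => by
    rw [Subgroup.mem_center_iff]
    intro y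
    have h1 : z.1.1 = 1 := hz
    have h2 : σ' z.1.2 = 1 := by
      have : σ z.1.1 = σ' z.1.2 := z.2
      rw [← this, h1, map_one]
    refine Subtype.ext (Prod.ext ?_ (Subgroup.mem_center_iff.1 (hc' h2) _))
    show y.1.1 * z.1.1 = z.1.1 * y.1.1
    rw [h1, mul_one, one_mul]
  obtain ⟨τ, hτ⟩ := exists_section_of_trivial hperf h f hf hfc
  let t : Γ →* Δ := (MonoidHom.snd Γ Δ).comp (P.subtype.comp τ)
  have ht : ∀ γ, σ' (t γ) = σ γ := fun γ => by
    have h1 : σ (τ γ).1.1 = σ' (τ γ).1.2 := (τ γ).2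
    have h2 : (τ γ).1.1 = γ := DFunLike.congr_fun hτ γ
    rw [h2] at h1
    exact h1.symm
  have hle : commutator Δ ≤ t.range := by
    rw [commutator_eq_closure, Subgroup.closure_le]
    rintro _ ⟨a, b, rfl⟩
    obtain ⟨a', ha'⟩ := hσ.1 (σ' a)
    obtain ⟨b', hb'⟩ := hσ.1 (σ' b)
    obtain ⟨z, hz, rfl⟩ : ∃ z ∈ Subgroup.center Δ, a = t a' * z :=
      ⟨(t a')⁻¹ * a, hc' (by rw [MonoidHom.mem_ker, map_mul, map_inv, ht, ha', inv_mul_cancel]), by group⟩
    obtain ⟨w, hw, rfl⟩ : ∃ w ∈ Subgroup.center Δ, b = t b' * w :=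
      ⟨(t b')⁻¹ * b, hc' (by rw [MonoidHom.mem_ker, map_mul, map_inv, ht, hb', inv_mul_cancel]), by group⟩
    refine ⟨a' * b' * a'⁻¹ * b'⁻¹, ?_⟩
    rw [map_mul, map_mul, map_mul, map_inv, map_inv, commutatorElement_def]
    have hz' := fun y => Subgroup.mem_center_iff.1 hz y
    have hw' := fun y => Subgroup.mem_center_iff.1 hw y
    symm
    calc t a' * z * (t b' * w) * (t a' * z)⁻¹ * (t b' * w)⁻¹
        = t a' * (z * (t b' * w) * z⁻¹) * (t a')⁻¹ * w⁻¹ * (t b')⁻¹ := by group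
      _ = t a' * (t b' * w) * (t a')⁻¹ * w⁻¹ * (t b')⁻¹ := by rw [← hz' (t b' * w)]; group
      _ = t a' * t b' * (w * (t a')⁻¹) * w⁻¹ * (t b')⁻¹ := by group
      _ = t a' * t b' * (t a')⁻¹ * (t b')⁻¹ := by rw [← hw' (t a')⁻¹]; group
  let π₀ : ↥σ.ker →* ↥σ'.ker := (t.comp σ.ker.subtype).codRestrict σ'.ker fun z => by
    rw [MonoidHom.mem_ker, MonoidHom.comp_apply, ht]; exact z.2
  refine ⟨π₀.comp e.symm.toMonoidHom, fun z => ?_⟩
  obtain ⟨γ, hγ⟩ := hle (hd' z.2)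
  have hγ1 : σ γ = 1 := by rw [← ht, hγ]; exact z.2
  refine ⟨e ⟨γ, hγ1⟩, Subtype.ext ?_⟩
  show t (e.symm (e ⟨γ, hγ1⟩)).1 = z.1
  rw [e.symm_apply_apply]
  exact hγ

end Cfsg.Agent.Lib.SchurMult
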