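import Cfsg.Agent.Lib.SchurMult.UnivCover
import Cfsg.Agent.Lib.SteinbergPres.SLnLift
import Cfsg.Agent.Lib.SteinbergPres.Cover.Mult
import Cfsg.Agent.Lib.Classical.Simple
import Cfsg.Agent.S2401

/-!
The multiplier of `SL_n` over a finite field is trivial, apart from the exceptions.
-/

set_option autoImplicit false

namespace Cfsg.Agent.Lib.SchurMult.SLn

open Cfsg.Agent.Lib.SteinbergPres

universe u

theorem hasTrivial {F : Type u} [Field F] [Fintype F] {n : ℕ} (hn : 3 ≤ n)
    (h3 : n = 3 → Fintype.card F ≠ 2 ∧ Fintype.card F ≠ 4) (h4 : n = 4 → Fintype.card F ≠ 2) :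
    Cfsg.HasCyclicSchurMultiplier (Matrix.SpecialLinearGroup (Fin n) F) 1 := by
  classical
  obtain ⟨e, he⟩ := Cfsg.Agent.S2401.result (K := F) n hn
  refine Cover.hasCyclic_one_of_section fun Γ _ _ σ hs hc => ?_
  let X : Steinberg (Fin n) F (Matrix.SpecialLinearGroup (Fin n) F) :=
    { x := fun i j t => if h : i ≠ j then e (PresentedGroup.of (⟨(i, j), h⟩, t)) else 1
      add := fun {i j} hij t u => by
        simp only [dif_pos hij]
        refine Subtype.ext ?_
        rw [Matrix.SpecialLinearGroup.coe_mul, he, he, he]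
        exact Matrix.transvection_mul_transvection_same _ _ hij t u
      comm := fun {i j k l} hij hkl hil hjk t u => by
        simp only [dif_pos hij, dif_pos hkl]
        refine Subtype.ext ?_
        rw [Matrix.SpecialLinearGroup.coe_mul, Matrix.SpecialLinearGroup.coe_mul, he, he]
        simp [Matrix.transvection, add_mul, mul_add, hjk, hil.symm]
        abel
      chain := fun {i j l} hij hjl hil t u => by
        simp only [dif_pos hij, dif_pos hjl, dif_pos hil]
        rw [mul_inv_eq_iff_eq_mul, mul_inv_eq_iff_eq_mul]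
        refine Subtype.ext ?_
        rw [Matrix.SpecialLinearGroup.coe_mul, Matrix.SpecialLinearGroup.coe_mul,
          Matrix.SpecialLinearGroup.coe_mul, he, he, he]
        simp [Matrix.transvection, add_mul, mul_add, hij.symm, hjl.symm, hil.symm]
        abel
      three := fun i j => by
        by_contra hc
        push Not at hc
        have hsub : (Finset.univ : Finset (Fin n)) ⊆ {i, j} := fun k _ => by
          simp only [Finset.mem_insert, Finset.mem_singleton]
          by_cases hk : k = i
          · exact Or.inl hk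
          · exact Or.inr (hc k hk)
        have := (Finset.card_le_card hsub).trans Finset.card_le_two
        rw [Finset.card_univ, Fintype.card_fin] at this
        omega }
  obtain ⟨Y, hY⟩ := X.exists_lift hs hc (by rwa [Fintype.card_fin]) (by rwa [Fintype.card_fin])
  let f : {ij : Fin n × Fin n // ij.1 ≠ ij.2} × F → Γ := fun p => Y.x p.1.1.1 p.1.1.2 p.2
  refine Cover.exists_section_of_bijective e.toMonoidHom e.bijective σ (PresentedGroup.toGroup (f := f) ?_)
    (PresentedGroup.ext fun p => ?_)
  · rintro r ((⟨a, t, u, rfl⟩ | ⟨a, b, t, u, h1, h2, rfl⟩) | ⟨a, b, h, t, u, hab, rfl⟩)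
    · simp only [map_mul, map_inv, FreeGroup.lift_apply_of, f]
      rw [Y.add a.2, mul_inv_cancel]
    · simp only [map_mul, map_inv, FreeGroup.lift_apply_of, f]
      rw [Y.comm a.2 b.2 h1 h2, mul_inv_cancel_right, mul_inv_cancel]
    · simp only [map_mul, map_inv, FreeGroup.lift_apply_of, f]
      obtain ⟨⟨i, j⟩, hij⟩ := a
      obtain ⟨⟨k, l⟩, hkl⟩ := b
      simp only at hab h hij hkl ⊢
      subst hab
      rw [Y.chain hij hkl h, mul_inv_cancel]
  · rw [MonoidHom.comp_apply, PresentedGroup.toGroup.of, MulEquiv.coe_toMonoidHom]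
    refine (hY _ _ p.1.2 p.2).trans ?_
    exact dif_pos p.1.2

end Cfsg.Agent.Lib.SchurMult.SLn
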