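import Cfsg.Agent.Lib.SchurMult.Comm
import Cfsg.Prelude.Def_KGroupFacts

/-! Central extensions of abelian groups given by bilinear cocycles. -/

set_option autoImplicit false

namespace Cfsg.Agent.Lib.SchurMult

universe u v

variable {G : Type u} {C : Type v} [CommGroup G] [CommGroup C]

/-- The central extension of `G` by `C` with bilinear cocycle `β`. -/
@[ext]
structure BExt (β : G →* (G →* C)) : Type (max u v) where
  base : G
  fib : C

variable (β : G →* (G →* C))

instance : Mul (BExt β) := ⟨fun p q => ⟨p.base * q.base, p.fib * q.fib * β p.base q.base⟩⟩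
instance : One (BExt β) := ⟨⟨1, 1⟩⟩
instance : Inv (BExt β) := ⟨fun p => ⟨p.base⁻¹, p.fib⁻¹ * β p.base p.base⟩⟩

variable {β}

@[simp] theorem BExt.mul_base (p q : BExt β) : (p * q).base = p.base * q.base := rfl
@[simp] theorem BExt.mul_fib (p q : BExt β) : (p * q).fib = p.fib * q.fib * β p.base q.base := rfl
@[simp] theorem BExt.one_base : (1 : BExt β).base = 1 := rfl
@[simp] theorem BExt.one_fib : (1 : BExt β).fib = 1 := rfl
@[simp] theorem BExt.inv_base (p : BExt β) : p⁻¹.base = p.base⁻¹ := rfl
@[simp] theorem BExt.inv_fib (p : BExt β) : p⁻¹.fib = p.fib⁻¹ * β p.base p.base := rfl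

instance : Group (BExt β) :=
  Group.ofLeftAxioms
    (fun a b c => by
      ext <;> simp only [BExt.mul_base, BExt.mul_fib, map_mul, MonoidHom.mul_apply, mul_assoc]
      simp only [mul_comm, mul_left_comm])
    (fun a => by ext <;> simp)
    (fun a => by
      ext
      · simp
      · simp only [BExt.mul_fib, BExt.inv_fib, BExt.inv_base, BExt.one_fib, map_inv,
          MonoidHom.inv_apply]
        rw [mul_right_comm a.fib⁻¹, inv_mul_cancel, one_mul, mul_inv_cancel])

instance [Finite G] [Finite C] : Finite (BExt β) :=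
  Finite.of_injective (fun p => (p.base, p.fib)) fun p q h =>
    BExt.ext (congrArg Prod.fst h) (congrArg Prod.snd h)

variable (β)

/-- The projection to `G`. -/
def bProj : BExt β →* G where
  toFun := BExt.base
  map_one' := rfl
  map_mul' _ _ := rfl

/-- The inclusion of `C`. -/
def bIncl : C →* BExt β where
  toFun c := ⟨1, c⟩
  map_one' := rfl
  map_mul' a b := by ext <;> simp

theorem bIncl_injective : Function.Injective (bIncl β) := fun _ _ h => congrArg BExt.fib h

theorem bProj_surjective : Function.Surjective (bProj β) := fun g => ⟨⟨g, 1⟩, rfl⟩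

theorem ker_bProj : (bProj β).ker = (bIncl β).range := by
  ext p
  refine ⟨fun hp => ⟨p.fib, BExt.ext (MonoidHom.mem_ker.mp hp).symm rfl⟩, ?_⟩
  rintro ⟨c, rfl⟩
  rfl

theorem bIncl_range_le_center : (bIncl β).range ≤ Subgroup.center (BExt β) := by
  rintro _ ⟨c, rfl⟩
  rw [Subgroup.mem_center_iff]
  intro p
  ext <;> simp [bIncl, mul_comm c]

open scoped commutatorElement in
theorem bIncl_commutator (x y : G) (a b : C) :
    ⁅(⟨x, a⟩ : BExt β), ⟨y, b⟩⁆ = bIncl β (β x y * (β y x)⁻¹) := by
  rw [commutatorElement_def, mul_inv_eq_iff_eq_mul, mul_inv_eq_iff_eq_mul]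
  ext
  · simp [bIncl, mul_comm x y]
  · simp only [BExt.mul_fib, BExt.mul_base, bIncl, MonoidHom.coe_mk, OneHom.coe_mk, map_one,
      MonoidHom.one_apply, one_mul, mul_one]
    rw [show β x y * (β y x)⁻¹ * b * a * β y x = a * b * β x y * ((β y x)⁻¹ * β y x) by
      simp only [mul_assoc]; ac_rfl, inv_mul_cancel, mul_one]

open scoped commutatorElement in
/-- The extension is stem once the commutator pairing generates `C`. -/
theorem bExt_stem (h : ∀ c : C, c ∈ Subgroup.closure (Set.range fun p : G × G =>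
    β p.1 p.2 * (β p.2 p.1)⁻¹)) :
    Cfsg.IsStemExtension (bProj β) ∧ Nonempty ((bProj β).ker ≃* C) := by
  refine ⟨⟨bProj_surjective β, (ker_bProj β).le.trans (bIncl_range_le_center β), ?_⟩,
    ⟨(MulEquiv.subgroupCongr (ker_bProj β)).trans
      (MonoidHom.ofInjective (bIncl_injective β)).symm⟩⟩
  rw [ker_bProj]
  rintro _ ⟨c, rfl⟩
  have hle : Subgroup.closure (Set.range fun p : G × G => β p.1 p.2 * (β p.2 p.1)⁻¹) ≤
      (commutator (BExt β)).comap (bIncl β) := by
    rw [Subgroup.closure_le]
    rintro _ ⟨⟨x, y⟩, rfl⟩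
    show bIncl β _ ∈ commutator (BExt β)
    rw [← bIncl_commutator β x y 1 1]
    exact Subgroup.commutator_mem_commutator (Subgroup.mem_top _) (Subgroup.mem_top _)
  exact hle (h c)

end Cfsg.Agent.Lib.SchurMult
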