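import Cfsg.Agent.Lib.SchurMult.Basic

/-!
Restriction and corestriction between the multipliers of a group and of a subgroup.
-/

set_option autoImplicit false

namespace Cfsg.Agent.Lib.SchurMult

universe u

open Subgroup
open scoped commutatorElement

namespace Cores

variable {G : Type u} [Group G] [Finite G] (H : Subgroup G)

/-- The chosen coset representative. -/
noncomputable def rep (i : G ⧸ H) : G := i.out

omit [Finite G] in
theorem rep_spec (x : G) (i : G ⧸ H) : (rep H (x • i))⁻¹ * x * rep H i ∈ H := by
  rw [mul_assoc, ← QuotientGroup.eq]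
  simp only [rep, QuotientGroup.out_eq', ← smul_eq_mul]
  rw [MulAction.Quotient.coe_smul_out]

/-- A lift of the Schreier element. -/
noncomputable def gen (x : G) (i : G ⧸ H) : UGrp (stdPres H) :=
  (proj_surjective (stdPres H) (stdPres_surjective H) ⟨_, rep_spec H x i⟩).choose

omit [Finite G] in
theorem proj_gen (x : G) (i : G ⧸ H) :
    (proj (stdPres H) (gen H x i) : G) = (rep H (x • i))⁻¹ * x * rep H i :=
  congrArg Subtype.val
    (proj_surjective (stdPres H) (stdPres_surjective H) ⟨_, rep_spec H x i⟩).choose_spec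

/-- The monomial action of a generator. -/
noncomputable def genPerm (x : G) : Equiv.Perm ((G ⧸ H) × UGrp (stdPres H)) where
  toFun q := (x • q.1, gen H x q.1 * q.2)
  invFun q := (x⁻¹ • q.1, (gen H x (x⁻¹ • q.1))⁻¹ * q.2)
  left_inv q := by simp
  right_inv q := by simp

/-- The monomial representation of the free group. -/
noncomputable def mono : FreeGroup G →* Equiv.Perm ((G ⧸ H) × UGrp (stdPres H)) :=
  FreeGroup.lift (genPerm H)

/-- The components of the monomial representation. -/
noncomputable def comp (w : FreeGroup G) (i : G ⧸ H) : UGrp (stdPres H) := (mono H w (i, 1)).2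

omit [Finite G] in
theorem stdPres_of (x : G) : stdPres G (FreeGroup.of x) = x := FreeGroup.lift_apply_of

omit [Finite G] in
theorem mono_of (x : G) : mono H (FreeGroup.of x) = genPerm H x := FreeGroup.lift_apply_of

omit [Finite G] in
theorem mono_apply (w : FreeGroup G) : ∀ (i : G ⧸ H) (u : UGrp (stdPres H)),
    mono H w (i, u) = (stdPres G w • i, comp H w i * u) := by
  induction w using FreeGroup.induction_on with
  | C1 => intro i u; simp [comp]
  | of x =>
    intro i u
    simp only [comp, mono_of, stdPres_of]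
    simp [genPerm]
  | inv_of x _ =>
    intro i u
    simp only [comp, map_inv, mono_of, stdPres_of]
    simp [genPerm, Equiv.Perm.inv_def]
  | mul v w hv hw =>
    intro i u
    rw [comp, map_mul, map_mul, Equiv.Perm.mul_apply, Equiv.Perm.mul_apply, hw, hw i 1, hv, hv,
      mul_smul, mul_one, mul_assoc]

omit [Finite G] in
theorem comp_mul (v w : FreeGroup G) (i : G ⧸ H) :
    comp H (v * w) i = comp H v (stdPres G w • i) * comp H w i := by
  rw [comp, map_mul, Equiv.Perm.mul_apply, mono_apply H w, mono_apply H v, mul_one]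

omit [Finite G] in
theorem comp_one (i : G ⧸ H) : comp H 1 i = 1 := by simp [comp]

omit [Finite G] in
theorem comp_inv (w : FreeGroup G) (i : G ⧸ H) :
    comp H w⁻¹ i = (comp H w ((stdPres G w)⁻¹ • i))⁻¹ := by
  refine eq_inv_of_mul_eq_one_right ?_
  rw [← map_inv, ← comp_mul, mul_inv_cancel, comp_one]

omit [Finite G] in
theorem proj_comp (w : FreeGroup G) : ∀ i : G ⧸ H,
    (proj (stdPres H) (comp H w i) : G) = (rep H (stdPres G w • i))⁻¹ * stdPres G w * rep H i := by
  induction w using FreeGroup.induction_on with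
  | C1 => intro i; simp [comp_one]
  | of x =>
    intro i
    have : comp H (FreeGroup.of x) i = gen H x i := by simp [comp, mono_of, genPerm]
    rw [this, proj_gen]
    simp [stdPres_of]
  | inv_of x hx =>
    intro i
    rw [comp_inv, map_inv, Subgroup.coe_inv, hx, smul_inv_smul, map_inv]
    group
  | mul v w hv hw =>
    intro i
    rw [comp_mul, map_mul, Subgroup.coe_mul, hv, hw, map_mul, mul_smul]
    group

omit [Finite G] in
theorem comp_ker {r : FreeGroup G} (hr : r ∈ (stdPres G).ker) (i : G ⧸ H) :
    comp H r i ∈ (proj (stdPres H)).ker := by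
  rw [MonoidHom.mem_ker]
  refine Subtype.ext ?_
  rw [proj_comp, MonoidHom.mem_ker.1 hr, one_smul, mul_one, inv_mul_cancel, Subgroup.coe_one]

end Cores

open Cores in
/-- Restriction followed by corestriction is the index power. -/
theorem exists_res_cor {G : Type u} [Group G] [Finite G] (H : Subgroup G) :
    ∃ (res : mult (stdPres G) →* mult (stdPres H)) (cor : mult (stdPres H) →* mult (stdPres G)),
      ∀ m, cor (res m) = m ^ H.index := by
  classical
  haveI := Fintype.ofFinite (G ⧸ H)
  letI cH : CommGroup (proj (stdPres H)).ker := { (inferInstance : Group (proj (stdPres H)).ker) with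
    mul_comm := fun a b => Subtype.ext (mem_center_iff.1 (ker_proj_le_center _ b.2) a) }
  letI cG : CommGroup (proj (stdPres G)).ker := { (inferInstance : Group (proj (stdPres G)).ker) with
    mul_comm := fun a b => Subtype.ext (mem_center_iff.1 (ker_proj_le_center _ b.2) a) }
  obtain ⟨ι, hι⟩ := exists_lift (stdPres H) H.subtype (proj (stdPres G))
    (proj_surjective _ (stdPres_surjective G)) (ker_proj_le_center _)
  have hι' : ∀ x, proj (stdPres G) (ι x) = (proj (stdPres H) x : G) := DFunLike.congr_fun hι
  -- the transfer of components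
  let θ : (stdPres G).ker →* (proj (stdPres H)).ker :=
    MonoidHom.mk' (fun r => ∏ i, ⟨comp H r i, comp_ker H r.2 i⟩) fun a b => by
      rw [← Finset.prod_mul_distrib]
      refine Finset.prod_congr rfl fun i _ => Subtype.ext ?_
      show comp H ((a : FreeGroup G) * b) i = comp H a i * comp H b i
      rw [comp_mul, MonoidHom.mem_ker.1 b.2, one_smul]
  have hconj : ∀ (g : FreeGroup G) (r : (stdPres G).ker),
      θ ⟨g * r * g⁻¹, (MonoidHom.normal_ker (stdPres G)).conj_mem (r : FreeGroup G) r.2 g⟩ = θ r := by
    intro g r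
    show (∏ i : G ⧸ H, (⟨comp H (g * r * g⁻¹) i,
        comp_ker H ((MonoidHom.normal_ker (stdPres G)).conj_mem (r : FreeGroup G) r.2 g) i⟩ :
          (proj (stdPres H)).ker)) = ∏ i : G ⧸ H, ⟨comp H r i, comp_ker H r.2 i⟩
    refine (Fintype.prod_equiv (MulAction.toPerm (stdPres G g)) _ _ fun i => Subtype.ext ?_).symm
    show comp H r i = comp H (g * r * g⁻¹) (stdPres G g • i)
    have hc := mem_center_iff.1 (ker_proj_le_center _ (comp_ker H r.2 i)) (comp H g i)
    rw [comp_mul, comp_mul, comp_inv, map_inv, inv_smul_smul, MonoidHom.mem_ker.1 r.2, one_smul, hc,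
      mul_inv_cancel_right]
  have hrel : ∀ r : (stdPres G).ker, (r : FreeGroup G) ∈ relCore (stdPres G) → θ r = 1 := by
    have hle : relCore (stdPres G) ≤ θ.ker.map (stdPres G).ker.subtype := by
      rw [relCore, Subgroup.commutator_le]
      intro g _ r hr
      refine ⟨⟨g * r * g⁻¹, (MonoidHom.normal_ker (stdPres G)).conj_mem r hr g⟩ * ⟨r, hr⟩⁻¹, ?_, ?_⟩
      · rw [SetLike.mem_coe, MonoidHom.mem_ker, map_mul, map_inv, hconj g ⟨r, hr⟩, mul_inv_cancel]
      · simp [commutatorElement_def]
    intro r hr
    obtain ⟨s, hs, hsr⟩ := hle hr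
    rw [← Subtype.ext hsr]
    exact hs
  -- abelianised components vanish on commutators
  let A : FreeGroup G →* Multiplicative (H →₀ ℤ) :=
    MonoidHom.mk' (fun w => ∏ i, ab (stdPres H) (comp H w i)) fun v w => by
      simp only [comp_mul, map_mul, Finset.prod_mul_distrib]
      congr 1
      exact Fintype.prod_equiv (MulAction.toPerm (stdPres G w)) _ _ fun i => rfl
  -- the discrepancy of `ι`
  choose L hL using fun i : G ⧸ H => proj_surjective _ (stdPres_surjective G) (rep H i)
  let z : FreeGroup G → (G ⧸ H) → UGrp (stdPres G) := fun w i =>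
    ι (comp H w i) * (L i)⁻¹ * (QuotientGroup.mk' (relCore (stdPres G)) w)⁻¹ * L (stdPres G w • i)
  have hz : ∀ w i, z w i ∈ (proj (stdPres G)).ker := fun w i => by
    simp only [z, MonoidHom.mem_ker, map_mul, map_inv, hι', proj_comp, hL, proj_mk]
    group
  have hzmul : ∀ v w i, z (v * w) i = z v (stdPres G w • i) * z w i := fun v w i => by
    have hc := mem_center_iff.1 (ker_proj_le_center _ (hz w i))
    show ι (comp H (v * w) i) * (L i)⁻¹ * (QuotientGroup.mk' _ (v * w))⁻¹ *
      L (stdPres G (v * w) • i) = _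
    rw [show z v (stdPres G w • i) * z w i = ι (comp H v (stdPres G w • i)) * z w i *
      ((L (stdPres G w • i))⁻¹ * (QuotientGroup.mk' _ v)⁻¹ * L (stdPres G v • stdPres G w • i)) by
        rw [mul_assoc (ι (comp H v (stdPres G w • i))), ← hc]
        show (ι (comp H v (stdPres G w • i)) * (L (stdPres G w • i))⁻¹ *
          (QuotientGroup.mk' (relCore (stdPres G)) v)⁻¹ * L (stdPres G v • stdPres G w • i)) * z w i = _
        simp only [mul_assoc]]
    simp only [z]
    rw [comp_mul, map_mul, map_mul, map_mul, mul_smul]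
    group
  let Z : FreeGroup G →* (proj (stdPres G)).ker :=
    MonoidHom.mk' (fun w => ∏ i, ⟨z w i, hz w i⟩) fun v w => by
      rw [show (∏ i, (⟨z (v * w) i, hz _ i⟩ : (proj (stdPres G)).ker)) =
        ∏ i, ⟨z v (stdPres G w • i), hz _ _⟩ * ⟨z w i, hz w i⟩ from
          Finset.prod_congr rfl fun i _ => Subtype.ext (hzmul v w i), Finset.prod_mul_distrib]
      congr 1
      exact Fintype.prod_equiv (MulAction.toPerm (stdPres G w)) _ _ fun i => rfl
  let ι' : (proj (stdPres H)).ker →* (proj (stdPres G)).ker :=
    (ι.comp (proj (stdPres H)).ker.subtype).codRestrict _ fun x => by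
      rw [MonoidHom.mem_ker]
      show proj (stdPres G) (ι x) = 1
      rw [hι', MonoidHom.mem_ker.1 x.2, Subgroup.coe_one]
  have hιθ : ∀ r : (stdPres G).ker, ι' (θ r) = Z r *
      ⟨QuotientGroup.mk' (relCore (stdPres G)) r, r.2⟩ ^ H.index := by
    intro r
    rw [Subgroup.index_eq_card, Nat.card_eq_fintype_card, ← Finset.card_univ, ← Finset.prod_const]
    show ι' (∏ i, _) = (∏ i, _) * ∏ _i, _
    rw [map_prod, ← Finset.prod_mul_distrib]
    refine Finset.prod_congr rfl fun i _ => Subtype.ext ?_
    show ι (comp H r i) = z r i * QuotientGroup.mk' (relCore (stdPres G)) r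
    have hc := mem_center_iff.1 (ker_proj_le_center _
      (show QuotientGroup.mk' (relCore (stdPres G)) (r : FreeGroup G) ∈ (proj (stdPres G)).ker
        from r.2)) (L i)
    simp only [z, MonoidHom.mem_ker.1 r.2, one_smul]
    rw [mul_assoc, mul_assoc, mul_assoc, hc]
    group
  -- representatives in the derived group
  have hex : ∀ m : mult (stdPres G), ∃ w : (stdPres G).ker, (w : FreeGroup G) ∈ commutator (FreeGroup G) ∧
      QuotientGroup.mk' (relCore (stdPres G)) w = m := by
    intro m
    have h2 : commutator (UGrp (stdPres G)) =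
        (commutator (FreeGroup G)).map (QuotientGroup.mk' (relCore (stdPres G))) := by
      rw [_root_.commutator_def, _root_.commutator_def, map_commutator,
        map_top_of_surjective _ (QuotientGroup.mk'_surjective _)]
    obtain ⟨w, hw, hwm⟩ := (h2 ▸ m.2.2 : (m : UGrp (stdPres G)) ∈ _)
    refine ⟨⟨w, ?_⟩, hw, hwm⟩
    rw [MonoidHom.mem_ker, ← proj_mk, hwm]
    exact m.2.1
  choose W hW hWm using hex
  have hwell : ∀ a b : (stdPres G).ker, QuotientGroup.mk' (relCore (stdPres G)) (a : FreeGroup G) =
      QuotientGroup.mk' (relCore (stdPres G)) b → θ a = θ b := by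
    intro a b hab
    have h1 := hrel (a⁻¹ * b) (QuotientGroup.eq.1 hab)
    rwa [map_mul, map_inv, inv_mul_eq_one] at h1
  have hmem : ∀ m, (θ (W m) : UGrp (stdPres H)) ∈ mult (stdPres H) := by
    intro m
    rw [mem_mult_iff]
    refine ⟨(θ (W m)).2, ?_⟩
    have h1 : A (W m) = 1 := Abelianization.commutator_subset_ker A (hW m)
    rw [← h1]
    show ((ab (stdPres H)).comp (proj (stdPres H)).ker.subtype) (∏ i, _) = _
    rw [map_prod]
    rfl
  let res : mult (stdPres G) →* mult (stdPres H) :=
    MonoidHom.mk' (fun m => ⟨θ (W m), hmem m⟩) fun a b => Subtype.ext (by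
      show (θ (W (a * b)) : UGrp (stdPres H)) = θ (W a) * θ (W b)
      rw [hwell (W (a * b)) (W a * W b) (by rw [Subgroup.coe_mul, map_mul, hWm, hWm, hWm, Subgroup.coe_mul]), map_mul, Subgroup.coe_mul])
  let cor : mult (stdPres H) →* mult (stdPres G) :=
    (ι.comp (mult (stdPres H)).subtype).codRestrict _ fun x => by
      refine ⟨?_, ?_⟩
      · show proj (stdPres G) (ι x) = 1
        rw [hι', MonoidHom.mem_ker.1 x.2.1, Subgroup.coe_one]
      · exact commutator_mono le_rfl le_rfl (show ι x ∈ commutator (UGrp (stdPres G)) from by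
          have := mem_map_of_mem ι x.2.2
          rw [_root_.commutator_def, map_commutator] at this
          exact commutator_mono le_top le_top this)
  refine ⟨res, cor, fun m => Subtype.ext ?_⟩
  show ι (θ (W m) : UGrp (stdPres H)) = ((m ^ H.index : mult (stdPres G)) : UGrp (stdPres G))
  have h1 := congrArg Subtype.val (hιθ (W m))
  have hZ : Z (W m) = 1 := Abelianization.commutator_subset_ker Z (hW m)
  rw [hZ, one_mul] at h1
  refine h1.trans ?_
  rw [Subgroup.coe_pow, Subgroup.coe_pow, ← hWm m]

end Cfsg.Agent.Lib.SchurMult
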