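import Cfsg.Agent.Lib.SchurMult.CyclicBound

/-!
A bound on stem kernels and kernel elements of large order determine a cyclic multiplier.
-/

set_option autoImplicit false

namespace Cfsg.Agent.Lib.SchurMult

universe u v w

open Subgroup

/-- The bound `n` and stem kernel elements with orders divisible by the prime power parts of `n`. -/
theorem hasCyclic_of_elements {Q : Type u} [Group Q] [Finite Q] {n : ℕ} [NeZero n]
    (hbound : ∀ (Δ : Type u) [Group Δ] [Finite Δ] (τ : Δ →* Q), Cfsg.IsStemExtension τ → Nat.card τ.ker ∣ n)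
    (helem : ∀ p k : ℕ, p.Prime → p ^ k ∣ n →
      ∃ (Δ : Type u) (_ : Group Δ) (_ : Finite Δ) (τ : Δ →* Q),
        Cfsg.IsStemExtension τ ∧ ∃ x ∈ τ.ker, p ^ k ∣ orderOf x) :
    Cfsg.HasCyclicSchurMultiplier Q n := by
  have hφ := stdPres_surjective Q
  obtain ⟨L, hL⟩ := exists_compl_ker (stdPres Q)
  haveI := hL.normal
  obtain ⟨hfin, hst, ⟨e'⟩⟩ := cover_of_compl (stdPres Q) hφ hL
  haveI := hfin
  haveI := finite_mult (stdPres Q)
  have h2 : Nat.card (mult (stdPres Q)) ∣ n := (Nat.card_congr e'.toEquiv) ▸ hbound _ _ hst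
  have h1 : n ∣ Monoid.exponent (mult (stdPres Q)) := by
    refine (Nat.dvd_iff_prime_pow_dvd_dvd _ _).2 fun p k hp hk => ?_
    obtain ⟨Δ, _, _, τ, hτ, x, hx, hd⟩ := helem p k hp hk
    obtain ⟨η, hη⟩ := exists_stem_lift (stdPres Q) hτ
    obtain ⟨f, hf, -⟩ := exists_surj_mult (stdPres Q) hφ hτ hη
    obtain ⟨m, hm⟩ := hf ⟨x, hx⟩
    refine hd.trans ((?_ : orderOf x ∣ orderOf m).trans (Monoid.order_dvd_exponent m))
    rw [← Subgroup.orderOf_mk x hx, ← hm]
    exact orderOf_map_dvd f m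
  have h3 : Nat.card (mult (stdPres Q)) = n :=
    Nat.dvd_antisymm h2 (h1.trans Group.exponent_dvd_nat_card)
  letI : CommGroup (mult (stdPres Q)) := { (inferInstance : Group (mult (stdPres Q))) with
    mul_comm := fun a b => Subtype.ext (mem_center_iff.1 (mult_le_center _ b.2) a) }
  haveI : IsCyclic (mult (stdPres Q)) := IsCyclic.iff_exponent_eq_card.2
    (Nat.dvd_antisymm Group.exponent_dvd_nat_card (h3.symm ▸ h1))
  refine hasSchurMultiplier_mult (stdPres Q) hφ (mulEquivOfCyclicCardEq ?_)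
  rw [h3, Nat.card_congr Multiplicative.toAdd, Nat.card_zmod]

end Cfsg.Agent.Lib.SchurMult
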