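import Cfsg.Agent.Lib.SchurMult.Engine

/-!
The bound of a certificate under the weaker hypothesis that each recorded pair of commutators of lifts
agrees in the extension.
-/

set_option autoImplicit false

namespace Cfsg.Agent.Lib.SchurMult.Engine

open Subgroup
open scoped commutatorElement IsMulCommutative

variable (D : Data)

/-- The commutators of lifts named by an equation agree. -/
def Eqn.Agrees {G Γ : Type*} [Group G] [Group Γ] (σ : Γ →* G) (g : ℕ → G) : Eqn → Prop
  | .cons _ _ => True
  | .fus _ x y x' y' => ∀ a b a' b' : Γ, σ a = Data.ev g x → σ b = Data.ev g y → σ a' = Data.ev g x' →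
      σ b' = Data.ev g y' → ⁅a, b⁆ = ⁅a', b'⁆

theorem agrees_of_holds {G Γ : Type*} [Group G] [Group Γ] {σ : Γ →* G} (hσ : Cfsg.IsStemExtension σ)
    {g γ : ℕ → G} {j : ℕ} {x y x' y' : List ℕ} (h : (Eqn.fus j x y x' y').Holds g γ)
    (hc : Commute (Data.ev g x) (Data.ev g y)) : (Eqn.fus j x y x' y').Agrees σ g := by
  intro a b a' b' ha hb ha' hb'
  obtain ⟨hx, hy⟩ := h
  obtain ⟨c, hcj⟩ := hσ.1 (γ j)
  have hm : ⁅a, b⁆ ∈ center Γ := hσ.2.1 (by
    rw [MonoidHom.mem_ker, map_commutatorElement, ha, hb]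
    exact commutatorElement_eq_one_iff_commute.2 hc)
  have hz : ∀ u u' : Γ, γ j * σ u = σ u' * γ j → ∃ z ∈ center Γ, c * u * c⁻¹ = u' * z := by
    intro u u' huu
    refine ⟨u'⁻¹ * (c * u * c⁻¹), hσ.2.1 ?_, by rw [mul_inv_cancel_left]⟩
    rw [MonoidHom.mem_ker, map_mul, map_inv, map_mul, map_mul, map_inv, hcj, huu, mul_inv_cancel_right,
      inv_mul_cancel]
  obtain ⟨zx, hzx, ex⟩ := hz a a' (by rw [ha, ha']; exact hx)
  obtain ⟨zy, hzy, ey⟩ := hz b b' (by rw [hb, hb']; exact hy)
  calc ⁅a, b⁆ = c * ⁅a, b⁆ * c⁻¹ := by rw [mem_center_iff.1 hm c, mul_inv_cancel_right]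
    _ = ⁅c * a * c⁻¹, c * b * c⁻¹⁆ := by simp only [commutatorElement_def]; group
    _ = ⁅a', b'⁆ := by rw [ex, ey, commutatorElement_central_mul _ _ hzx hzy]

theorem bound_agrees {G Γ : Type*} [Group G] [Finite G] [Group Γ] [Finite Γ] {σ : Γ →* G}
    (hσ : Cfsg.IsStemExtension σ) {p : ℕ} [Fact p.Prime] (hp : D.p = p) (hall : D.allOK = true)
    (g : ℕ → G)
    (hrel : ∀ k < D.nv, Data.ev g (D.lhsAt k) = Data.ev g (D.rhsAt k))
    (hinj : ∀ k < D.p ^ D.n, ∀ l < D.p ^ D.n,
      Data.ev g (D.word k) = Data.ev g (D.word l) → k = l)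
    (heq : ∀ e ∈ D.eqs, e.Agrees σ g)
    (hcard : (Nat.card G).factorization p = D.n) {k : ℕ} (hk : p ^ k ∣ Nat.card σ.ker) :
    p ^ k ∣ D.bound := by
  simp only [Data.allOK, Bool.and_eq_true, List.all_eq_true] at hall
  obtain ⟨⟨⟨hc, ho⟩, hok⟩, hlin⟩ := hall
  have hp0 : 0 < D.p := hp ▸ (Fact.out : p.Prime).pos
  set E := Subgroup.closure (g '' {i | i < D.n}) with hE
  -- the order of `E`
  have hG0 : D.Lifts g (fun _ => (0 : Additive (center G))) := ⟨fun k hk => by
    rw [hrel k hk]; simp⟩
  have hword : ∀ j, ∀ i ∈ D.word j, i < D.n := fun j i hi => by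
    simp only [Data.word, List.mem_flatMap, List.mem_range] at hi
    obtain ⟨a, ha, hi⟩ := hi
    rw [List.eq_of_mem_replicate hi]; exact ha
  have hevmem : ∀ j, Data.ev g (D.word j) ∈ E := fun j => by
    refine list_prod_mem fun y hy => ?_
    obtain ⟨i, hi, rfl⟩ := List.mem_map.1 hy
    exact subset_closure ⟨i, hword j i hi, rfl⟩
  have hEcard : Nat.card E = p ^ (Nat.card G).factorization p := by
    rw [hcard, ← hp]
    have hbij : Function.Bijective
        (fun j : Fin (D.p ^ D.n) => (⟨Data.ev g (D.word j), hevmem j⟩ : E)) := by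
      refine ⟨fun a b hab => Fin.ext (hinj a a.2 b b.2 (congrArg Subtype.val hab)), fun y => ?_⟩
      obtain ⟨j, hj, d, hd⟩ := D.exists_word_of_mem hG0 hc ho hp0 y.2
      refine ⟨⟨j, hj⟩, Subtype.ext ?_⟩
      rw [hd]
      simp [Data.tail, Data.val]
    rw [← Nat.card_eq_of_bijective _ hbij, Nat.card_fin]
  -- lifts
  choose A hA using fun i => hσ.1 (g i)
  have hAev : ∀ w, σ (Data.ev A w) = Data.ev g w := fun w => by rw [ev_map]; simp only [hA]
  have htk : ∀ j, ∃ t : center Γ, j < D.nv →
      Data.ev A (D.lhsAt j) = Data.ev A (D.rhsAt j) * t := by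
    intro j
    by_cases hj : j < D.nv
    · refine ⟨⟨(Data.ev A (D.rhsAt j))⁻¹ * Data.ev A (D.lhsAt j), hσ.2.1 ?_⟩, fun _ => ?_⟩
      · rw [MonoidHom.mem_ker, map_mul, map_inv, hAev, hAev, hrel j hj, inv_mul_cancel]
      · rw [mul_inv_cancel_left]
    · exact ⟨1, fun h => absurd h hj⟩
  choose t ht using htk
  let T : ℕ → Additive (center Γ) := fun j => Additive.ofMul (t j)
  have hLift : D.Lifts A T := ⟨fun j hj => ht j hj⟩
  -- the equations vanish
  have hzero : ∀ e ∈ D.eqs, D.val T (D.eqVec e) = 0 := by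
    intro e he
    have h1 : D.tail T (D.eqVec e) = 1 := by
      rcases e with ⟨u, v⟩ | ⟨j, x, y, x', y'⟩
      · exact D.cons_sound hLift (hok _ he)
      · have ho' := hok _ he
        simp only [Data.eqOK, Bool.and_eq_true, beq_iff_eq] at ho'
        have hcx := D.comm_sound hLift ho'.1
        have hcy := D.comm_sound hLift ho'.2
        have hconj : ⁅Data.ev A x, Data.ev A y⁆ = ⁅Data.ev A x', Data.ev A y'⁆ :=
          heq _ he _ _ _ _ (hAev x) (hAev y) (hAev x') (hAev y')
        rw [hcx, hcy] at hconj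
        exact D.tail_cancel hconj
    exact Additive.toMul.injective (Subtype.ext (by simpa [Data.tail] using h1))
  simp only [Data.linOK, Bool.and_eq_true, decide_eq_true_eq, List.all_eq_true, List.mem_range,
    beq_iff_eq] at hlin
  obtain ⟨⟨⟨hscale, hcoord⟩, hexp⟩, hbound⟩ := hlin
  -- the table of equations
  have hlen : D.table.length = D.eqs.length := by simp [Data.table]
  have htab : ∀ e < D.table.length, D.val T (fun t => (D.table.getD e []).getD t 0) = 0 := by
    intro e he
    have he' : e < D.eqs.length := hlen ▸ he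
    rw [← hzero (D.eqs[e]) (List.getElem_mem he')]
    refine Finset.sum_congr rfl fun t ht => ?_
    have ht' : t < D.nv := Finset.mem_range.1 ht
    congr 1
    simp [Data.table, he', ht', List.getD_eq_getElem?_getD]
  -- linear combinations of equations vanish
  have hlam : ∀ c : ℕ → ℤ, D.val T (fun t =>
      ((List.range D.table.length).map fun e => c e * (D.table.getD e []).getD t 0).sum) = 0 := by
    intro c
    have hs : ∀ t, ((List.range D.table.length).map fun e => c e * (D.table.getD e []).getD t 0).sum =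
        ∑ e ∈ Finset.range D.table.length, c e * (D.table.getD e []).getD t 0 := fun t =>
      (List.sum_toFinset _ (List.nodup_range)).symm.trans (by rw [List.toFinset_range])
    simp only [Data.val, hs, Finset.sum_smul, mul_zsmul]
    rw [Finset.sum_comm]
    refine Finset.sum_eq_zero fun e he => ?_
    rw [← Finset.smul_sum]
    exact (congrArg _ (htab e (Finset.mem_range.1 he))).trans (zsmul_zero _)
  set Z := D.val T (fun t => D.zeta.getD t 0) with hZ
  have hζ : ((Additive.toMul Z : center Γ) : Γ) ^ D.bound = 1 := by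
    rw [← SubmonoidClass.coe_pow, ← toMul_nsmul]
    suffices (D.bound : ℕ) • Z = 0 by simp [this]
    rw [← natCast_zsmul, hZ, Data.val, Finset.smul_sum]
    refine Eq.trans (Finset.sum_congr rfl fun t ht => ?_) (hlam fun e => D.lamz.getD e 0)
    rw [smul_smul, hbound t (Finset.mem_range.1 ht)]
  refine pow_dvd_of_preimage hσ E hEcard _ hζ (fun z hzk hzc => ?_) hk
  -- the extended group
  let U := Multiplicative (Fin D.n → ℤ)
  let e1 : ℕ → U := fun j => Multiplicative.ofAdd (fun t : Fin D.n => if (t : ℕ) = j then (1 : ℤ) else 0)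
  let X : ℕ → Γ × U := fun i => (A i, e1 i)
  let T' : ℕ → Additive (center (Γ × U)) := fun j => Additive.ofMul
    ⟨((t j : Γ), Multiplicative.ofAdd (fun i : Fin D.n => D.chi j i)), mem_center_iff.2 fun y =>
      Prod.ext (mem_center_iff.1 (t j).2 y.1) (mul_comm _ _)⟩
  have hX1 : ∀ w, (Data.ev X w).1 = Data.ev A w := fun w => ev_map (MonoidHom.fst Γ U) X w
  have hX2 : ∀ w, (Data.ev X w).2 = Data.ev e1 w := fun w => ev_map (MonoidHom.snd Γ U) X w
  have hLift' : D.Lifts X T' := ⟨fun j hj => by
    refine Prod.ext ?_ ?_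
    · rw [Prod.fst_mul, hX1, hX1]; exact ht j hj
    · rw [Prod.snd_mul, hX2, hX2]
      refine Multiplicative.toAdd.injective (funext fun i => ?_)
      rw [toAdd_mul, Pi.add_apply, ev_single, ev_single]
      simp [T', Data.chi]⟩
  let c1 : center (Γ × U) →* center Γ :=
    ((MonoidHom.fst Γ U).comp (center (Γ × U)).subtype).codRestrict (center Γ) fun y =>
      mem_center_iff.2 fun r => congrArg Prod.fst (mem_center_iff.1 y.2 (r, 1))
  let f1 : Additive (center (Γ × U)) →+ Additive (center Γ) := MonoidHom.toAdditive c1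
  let f2 : Additive (center (Γ × U)) →+ Additive U :=
    MonoidHom.toAdditive ((MonoidHom.snd Γ U).comp (center (Γ × U)).subtype)
  -- `z` comes from the derived subgroup of the extended group
  set W := (Subgroup.closure (X '' {i | i < D.n}) ⊓ (MonoidHom.snd Γ U).ker).map (MonoidHom.fst Γ U)
    with hW
  have hle : ⁅E.comap σ, E.comap σ⁆ ≤ W := by
    have hcom : E.comap σ = Subgroup.closure (A '' {i | i < D.n}) ⊔ σ.ker := by
      rw [← comap_closure hσ.1, Set.image_image]; simp only [hA]; rfl
    rw [hcom, Subgroup.commutator_le]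
    intro a ha b hb
    have dec : ∀ a ∈ Subgroup.closure (A '' {i | i < D.n}) ⊔ σ.ker, ∃ x ∈ Subgroup.closure
        (X '' {i | i < D.n}), ∃ c ∈ center Γ, a = x.1 * c := by
      intro a ha
      haveI : σ.ker.Normal := MonoidHom.normal_ker σ
      obtain ⟨u, hu, c, hc, rfl⟩ := Subgroup.mem_sup_of_normal_right.1 ha
      have hmap : (Subgroup.closure (X '' {i | i < D.n})).map (MonoidHom.fst Γ U) =
          Subgroup.closure (A '' {i | i < D.n}) := by
        rw [MonoidHom.map_closure, Set.image_image]; rfl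
      rw [← hmap] at hu
      obtain ⟨x, hx, rfl⟩ := hu
      exact ⟨x, hx, c, hσ.2.1 hc, rfl⟩
    obtain ⟨x, hx, c, hcc, rfl⟩ := dec a ha
    obtain ⟨y, hy, c', hcc', rfl⟩ := dec b hb
    rw [commutatorElement_central_mul _ _ hcc hcc']
    refine ⟨⁅x, y⁆, ⟨Subgroup.mul_mem _ (Subgroup.mul_mem _ (Subgroup.mul_mem _ hx hy) (Subgroup.inv_mem _ hx)) (Subgroup.inv_mem _ hy), ?_⟩, ?_⟩
    · show (MonoidHom.snd Γ U) ⁅x, y⁆ = 1
      rw [map_commutatorElement]
      exact commutatorElement_eq_one_iff_mul_comm.2 (mul_comm _ _)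
    · exact map_commutatorElement _ _ _
  obtain ⟨x, ⟨hxX, hx2⟩, rfl⟩ := hle hzc
  obtain ⟨j, hj, d, rfl⟩ := D.exists_word_of_mem hLift' hc ho hp0 hxX
  have hσx : σ (Data.ev X (D.word j) * D.tail T' d).1 = Data.ev g (D.word j) := by
    rw [Prod.fst_mul, map_mul, hX1, hAev]
    suffices σ (D.tail T' d).1 = 1 by rw [this, mul_one]
    have hmem : f1 (D.val T' d) ∈ (σ.comp (center Γ).subtype).ker.toAddSubgroup := by
      rw [Data.val, map_sum]
      refine sum_mem fun s hs => ?_
      rw [map_zsmul]
      refine zsmul_mem ?_ _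
      show σ (t s : Γ) = 1
      have := congrArg σ (ht s (Finset.mem_range.1 hs))
      rw [map_mul, hAev, hAev, hrel s (Finset.mem_range.1 hs)] at this
      exact mul_eq_left.1 this.symm
    exact hmem
  have hj0 : j = 0 := by
    refine hinj j hj 0 (pow_pos hp0 _) ?_
    rw [← hσx]
    have hw : D.word 0 = [] := List.flatMap_eq_nil_iff.2 fun i _ => by simp
    rw [hw]
    exact MonoidHom.mem_ker.1 hzk
  subst hj0
  have hw : D.word 0 = [] := List.flatMap_eq_nil_iff.2 fun i _ => by simp
  rw [hw] at hx2 ⊢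
  simp only [Data.ev, List.map_nil, List.prod_nil, one_mul] at hx2 ⊢
  -- the exponent sums vanish
  have hchi : ∀ i : Fin D.n, ∑ s ∈ Finset.range D.nv, d s * D.chi s i = 0 := by
    intro i
    have h2 : Additive.ofMul (D.tail T' d).2 = ∑ s ∈ Finset.range D.nv, d s • f2 (T' s) := by
      rw [show Additive.ofMul (D.tail T' d).2 = f2 (D.val T' d) from rfl, Data.val, map_sum]
      simp only [map_zsmul]
    rw [show (D.tail T' d).2 = 1 from hx2] at h2
    have h3 := congrArg (fun u : Additive U => Multiplicative.toAdd (Additive.toMul u) i) h2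
    simp only [toMul_sum, toAdd_prod, Finset.sum_apply, toMul_zsmul, toAdd_zpow, Pi.smul_apply,
      smul_eq_mul] at h3
    rw [show Multiplicative.toAdd (Additive.toMul (Additive.ofMul (1 : U))) i = 0 from rfl] at h3
    exact h3.symm
  -- the value
  have hval : ((MonoidHom.fst Γ U) (D.tail T' d)) = ((Additive.toMul (D.val T d) : center Γ) : Γ) := by
    have h1 : f1 (D.val T' d) = D.val T d := by
      simp only [Data.val, map_sum, map_zsmul]
      rfl
    rw [← h1]
    rfl
  rw [hval]
  have hfin : D.val T d = (∑ s ∈ Finset.range D.nv, d s * D.mu.getD s 0) • Z := by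
    have hs : ∀ (m : ℕ) (f : ℕ → ℤ), ((List.range m).map f).sum = ∑ i ∈ Finset.range m, f i :=
      fun m f => (List.sum_toFinset _ (List.nodup_range)).symm.trans (by rw [List.toFinset_range])
    have hexpand : ∀ s < D.nv, T s =
        ∑ i ∈ Finset.range D.n, (D.coord.getD s []).getD i 0 • D.val T (fun u => (D.comp.getD i []).getD u 0) +
          D.mu.getD s 0 • Z := by
      intro s hsn
      have h0 : T s = D.val T (fun u => if u = s then (1 : ℤ) else 0) := by
        simp [Data.val, ite_smul, Finset.sum_ite_eq', hsn]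
      rw [h0]
      rw [show D.val T (fun u => if u = s then (1 : ℤ) else 0) = D.val T (fun u =>
          (((List.range D.n).map fun i => (D.coord.getD s []).getD i 0 * (D.comp.getD i []).getD u 0).sum +
            D.mu.getD s 0 * D.zeta.getD u 0) +
          ((List.range D.table.length).map fun e => (D.lam.getD s []).getD e 0 * (D.table.getD e []).getD u 0).sum) from
        Finset.sum_congr rfl fun u hu => by
          beta_reduce
          rw [hexp s hsn u (Finset.mem_range.1 hu), add_right_comm]]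
      rw [Data.val_add, hlam, add_zero, Data.val_add]
      congr 1
      · simp only [Data.val, hs, Finset.sum_smul, mul_zsmul]
        rw [Finset.sum_comm]
        simp only [Finset.smul_sum]
      · simp only [hZ, Data.val, Finset.smul_sum, smul_smul]
    rw [Data.val, Finset.sum_congr rfl fun s hs' => by rw [hexpand s (Finset.mem_range.1 hs')]]
    simp only [zsmul_add, Finset.smul_sum, Finset.sum_add_distrib, smul_smul]
    rw [← Finset.sum_smul, Finset.sum_comm, add_eq_right]
    refine Finset.sum_eq_zero fun i hi => ?_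
    rw [← Finset.sum_smul]
    suffices (∑ s ∈ Finset.range D.nv, d s * (D.coord.getD s []).getD i 0) = 0 by
      rw [this, zero_zsmul]
    refine (mul_eq_zero.1 ?_).resolve_left hscale
    rw [Finset.mul_sum, Finset.sum_congr rfl fun s hs' => by
      rw [mul_left_comm, hcoord s (Finset.mem_range.1 hs') i (Finset.mem_range.1 hi), hs, Finset.mul_sum]]
    rw [Finset.sum_comm]
    refine Finset.sum_eq_zero fun u hu => ?_
    simp only [← mul_assoc]
    rw [← Finset.sum_mul]
    have := hchi ⟨u, Finset.mem_range.1 hu⟩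
    rw [this, zero_mul]
  rw [hfin, toMul_zsmul, SubgroupClass.coe_zpow]
  exact zpow_mem (mem_zpowers _) _

end Cfsg.Agent.Lib.SchurMult.Engine
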