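import Cfsg.Agent.Lib.SchurMult.Engine

/-!
A cheaper evaluation of the closure check of a certificate for the prime two.
-/

set_option autoImplicit false

namespace Cfsg.Agent.Lib.SchurMult.Engine.Data

variable (D : Data)

/-- An entry of a table. -/
def tabAt (R : List (List (List ℕ))) (a b : ℕ) : List ℕ := (R.getD a []).getD b []

/-- One rewriting step read from a table. -/
def step₂ (n : ℕ) (R : List (List (List ℕ))) : List ℕ → Option (List ℕ)
  | [] => none
  | a :: w =>
    match w with
    | [] => none
    | b :: r =>
      bif Nat.blt a n && (Nat.blt b a || Nat.beq b a) then some (tabAt R a b ++ r)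
      else (step₂ n R (b :: r)).map (List.cons a)

/-- Repeated rewriting. -/
def collect₂ (n : ℕ) (R : List (List (List ℕ))) : ℕ → List ℕ → List ℕ
  | 0, w => w
  | f + 1, w =>
    match step₂ n R w with
    | none => w
    | some w' => collect₂ n R f w'

/-- The table agrees with the relations, whose left-hand sides are the descents and the squares. -/
def tabOK (R : List (List (List ℕ))) : Bool :=
  Nat.beq D.p 2 &&
  ((List.range D.nv).all fun k => (D.lhsAt k).length == 2 && (D.lhsAt k).all fun x => Nat.blt x D.n) &&
  D.lhs.length == D.nv &&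
  (List.range D.n).all fun a => (List.range (a + 1)).all fun b =>
    D.lhsAt (D.idx a b) == [a, b] && D.rhsAt (D.idx a b) == tabAt R a b

variable {D} {R : List (List (List ℕ))}

theorem step_eq (h : D.tabOK R = true) :
    ∀ w, (D.step w).map Prod.fst = step₂ D.n R w := by
  simp only [tabOK, Bool.and_eq_true, List.all_eq_true, List.mem_range, beq_iff_eq, Nat.blt_eq, Nat.beq_eq] at h
  obtain ⟨⟨⟨hp, hlt⟩, hlen⟩, htab⟩ := h
  have hne : ∀ k (l : List ℕ), D.lhsAt k = l → l ≠ [] → l.length = 2 ∧ ∀ x ∈ l, x < D.n := by
    intro k l e hl
    by_cases hk : k < D.nv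
    · subst e; exact hlt k hk
    · exact absurd (e.symm.trans (List.getD_eq_default _ _ (by omega))) hl
  intro w
  induction w with
  | nil => rfl
  | cons a w ih =>
    cases w with
    | nil =>
      rw [step, step₂, if_neg]
      · rfl
      · intro e
        rw [beq_iff_eq] at e
        exact absurd (hne _ [a] e.symm (List.cons_ne_nil _ _)).1 (by simp)
    | cons b r =>
      rw [step, step₂, hp]
      have htake : (a :: b :: r).take 2 = [a, b] := rfl
      have hdrop : (a :: b :: r).drop 2 = r := rfl
      rw [htake, hdrop]
      have hblt : ∀ x y : ℕ, Nat.blt x y = decide (x < y) := fun x y => by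
        rw [Bool.eq_iff_iff, decide_eq_true_iff]; exact Iff.of_eq Nat.blt_eq
      by_cases hc : a < D.n ∧ b ≤ a
      · obtain ⟨ha, hb⟩ := hc
        obtain ⟨e1, e2⟩ := htab a ha b (by omega)
        rcases Nat.lt_or_ge b a with h' | h'
        · rw [if_pos (by simp [h', e1]), hblt, hblt, decide_eq_true ha, decide_eq_true h']
          simp [e2]
        · obtain rfl : b = a := by omega
          rw [if_neg (by simp), if_pos (by simp [e1]), hblt, decide_eq_true ha, Nat.beq_refl]
          simp [e2]
      · have hcond : (Nat.blt a D.n && (Nat.blt b a || Nat.beq b a)) = false := by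
          rw [Bool.eq_false_iff]
          intro h
          simp only [Bool.and_eq_true, Bool.or_eq_true, Nat.blt_eq, Nat.beq_eq] at h
          exact hc ⟨h.1, by omega⟩
        rw [hcond, cond_false, if_neg, if_neg, ← ih]
        · cases D.step (b :: r) <;> rfl
        · simp only [Bool.and_eq_true, beq_iff_eq, not_and]
          intro e _
          refine hc ?_
          have h2 := (hne _ [a, b] e.symm (List.cons_ne_nil _ _)).2
          have ha : a < D.n := h2 a (by simp)
          obtain ⟨e1, -⟩ := htab a ha a (by omega)
          rw [e1] at e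
          simp at e
          exact ⟨ha, by omega⟩
        · simp only [Bool.and_eq_true, beq_iff_eq, not_and, decide_eq_true_eq]
          intro hb e
          exact hc ⟨(hne _ [a, b] e.symm (List.cons_ne_nil _ _)).2 a (by simp), hb.le⟩

theorem collect_eq (h : D.tabOK R = true) : ∀ f w, (D.collect f w).1 = collect₂ D.n R f w := by
  intro f
  induction f with
  | zero => intro w; rfl
  | succ f ih =>
    intro w
    have hs := step_eq h w
    rw [collect, collect₂, ← hs]
    cases D.step w with
    | none => rfl
    | some p => exact ih p.1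

/-- The closure check through the table on a range of codes. -/
def closed₂ (n : ℕ) (R : List (List (List ℕ))) (lo len : ℕ) : Bool :=
  (List.range len).all fun j => (List.range n).all fun i =>
    let r := collect₂ n R 100000 (((List.range n).flatMap fun t => List.replicate ((lo + j) / 2 ^ t % 2) t) ++ [i])
    let c := (r.map fun t => 2 ^ t).sum
    r == ((List.range n).flatMap fun t => List.replicate (c / 2 ^ t % 2) t) && Nat.blt c (2 ^ n)

theorem closedOK_of_parts (h : D.tabOK R = true) (parts : List (ℕ × ℕ))
    (hparts : ∀ q ∈ parts, closed₂ D.n R q.1 q.2 = true)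
    (hcover : ∀ k < 2 ^ D.n, ∃ q ∈ parts, q.1 ≤ k ∧ k < q.1 + q.2) : D.closedOK = true := by
  have hp : D.p = 2 := by
    simp only [tabOK, Bool.and_eq_true, Nat.beq_eq] at h
    exact h.1.1.1
  simp only [closedOK, List.all_eq_true, List.mem_range, Bool.and_eq_true, beq_iff_eq, decide_eq_true_eq]
  intro k hk i hi
  rw [hp] at hk
  obtain ⟨q, hq, h1, h2⟩ := hcover k hk
  have hc := hparts q hq
  simp only [closed₂, List.all_eq_true, List.mem_range, Bool.and_eq_true, beq_iff_eq, Nat.blt_eq] at hc
  obtain ⟨e1, e2⟩ := hc (k - q.1) (by omega) i hi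
  rw [show q.1 + (k - q.1) = k by omega] at e1 e2
  have hn : (D.norm (D.word k ++ [i])).1 = collect₂ D.n R 100000 (((List.range D.n).flatMap
      fun t => List.replicate (k / 2 ^ t % 2) t) ++ [i]) := by
    rw [norm, fuel, collect_eq h]
    simp only [word, hp]
  rw [hn]
  simp only [word, code, hp]
  exact ⟨e1, e2⟩

end Cfsg.Agent.Lib.SchurMult.Engine.Data
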