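import Cfsg.Agent.Lib.SchurMult.Engine

/-! A faster form of the linear checks of a certificate, by scalar products of sparse rows with columns. -/

set_option autoImplicit false

namespace Cfsg.Agent.Lib.SchurMult.Engine

/-- The scalar product of two lists. -/
def dotL : List ℤ → List ℤ → ℤ
  | a :: as, b :: bs => bif a == 0 then dotL as bs else a * b + dotL as bs
  | _, _ => 0

theorem dotL_eq : ∀ (a b : List ℤ) (n : ℕ), a.length ≤ n ∨ b.length ≤ n →
    ((List.range n).map fun e => a.getD e 0 * b.getD e 0).sum = dotL a b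
  | [], b, n, _ => by simp [dotL]
  | a :: as, [], n, _ => by simp [dotL]
  | a :: as, b :: bs, 0, h => by simp at h
  | a :: as, b :: bs, n + 1, h => by
    rw [List.range_succ_eq_map, List.map_cons, List.sum_cons, List.map_map]
    have := dotL_eq as bs n (by simpa using h)
    simp only [Function.comp_def, List.getD_cons_zero, List.getD_cons_succ, Nat.succ_eq_add_one] at this ⊢
    rw [this, dotL]
    by_cases ha : a = 0
    · subst ha
      simp
    · rw [beq_false_of_ne ha, cond_false]

/-- The columns of a table. -/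
def colsOf (m : ℕ) (T : List (List ℤ)) : List (List ℤ) :=
  (List.range m).map fun t => T.map fun r => r.getD t 0

namespace Data

variable (D : Data)

/-- The checks of the coordinates. -/
def coordOK : Bool :=
  decide (D.scale ≠ 0) && decide (D.comp.length ≤ D.n) &&
  ((List.range D.nv).all fun j => (List.range D.n).all fun i =>
    D.scale * (D.coord.getD j []).getD i 0 ==
      ((List.range D.n).map fun k => D.chi j k * (D.back.getD k []).getD i 0).sum)

/-- The checks of the expansions on a range of variables. -/
def expOK (T : List (List ℤ)) (lo len : ℕ) : Bool :=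
  (List.range len).all fun k =>
    ((List.range D.nv).zip ((colsOf D.nv D.comp).zip (colsOf D.nv T))).all fun q =>
      (bif Nat.beq q.1 (lo + k) then 1 else 0 : ℤ) ==
        dotL (D.coord.getD (lo + k) []) q.2.1 + dotL (D.lam.getD (lo + k) []) q.2.2 +
          D.mu.getD (lo + k) 0 * D.zeta.getD q.1 0

/-- The check of the bound. -/
def zetaOK (T : List (List ℤ)) : Bool :=
  ((List.range D.nv).zip (colsOf D.nv T)).all fun q =>
    (D.bound : ℤ) * D.zeta.getD q.1 0 == dotL D.lamz q.2

theorem linOK_of_parts {T : List (List ℤ)} (hc : D.coordOK = true) (hz : D.zetaOK T = true)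
    (parts : List (ℕ × ℕ)) (hp : ∀ q ∈ parts, D.expOK T q.1 q.2 = true)
    (hcover : ∀ j < D.nv, ∃ q ∈ parts, q.1 ≤ j ∧ j < q.1 + q.2) : D.linOK T = true := by
  simp only [coordOK, Bool.and_eq_true, decide_eq_true_eq] at hc
  obtain ⟨⟨hs, hl⟩, hco⟩ := hc
  have hcol : ∀ (M : List (List ℤ)) (t e : ℕ),
      (M.map fun r => r.getD t 0).getD e 0 = (M.getD e []).getD t 0 := fun M t e => by
    rw [List.getD_eq_getElem?_getD, List.getD_eq_getElem?_getD, List.getD_eq_getElem?_getD, List.getElem?_map]
    cases M[e]? <;> simp [List.getD_eq_getElem?_getD]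
  have hdot : ∀ (a : List ℤ) (M : List (List ℤ)) (t m : ℕ), M.length ≤ m →
      dotL a (M.map fun r => r.getD t 0) =
        ((List.range m).map fun e => a.getD e 0 * (M.getD e []).getD t 0).sum := fun a M t m h => by
    rw [← dotL_eq a _ m (Or.inr (by simpa using h))]
    simp only [hcol]
  simp only [linOK, Bool.and_eq_true, decide_eq_true_eq]
  refine ⟨⟨⟨hs, hco⟩, ?_⟩, ?_⟩
  · simp only [List.all_eq_true, List.mem_range, beq_iff_eq]
    intro j hj t ht
    obtain ⟨q, hq, h1, h2⟩ := hcover j hj
    have h := hp q hq
    simp only [expOK, List.all_eq_true, List.mem_range, beq_iff_eq] at h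
    have h' := h (j - q.1) (by omega) (t, (D.comp.map fun r => r.getD t 0, T.map fun r => r.getD t 0))
      (List.mem_iff_getElem.2 ⟨t, by simp [colsOf, ht], by simp [colsOf]⟩)
    simp only [show q.1 + (j - q.1) = j by omega] at h'
    rw [hdot _ _ _ _ hl, hdot _ _ _ _ le_rfl] at h'
    rw [← h']
    by_cases e : t = j
    · simp [e]
    · simp [e, show Nat.beq t j = false from Bool.eq_false_iff.2 fun h => e (Nat.eq_of_beq_eq_true h)]
  · simp only [zetaOK, List.all_eq_true, beq_iff_eq] at hz ⊢
    intro t ht
    have ht' := List.mem_range.1 ht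
    have h' := hz (t, T.map fun r => r.getD t 0)
      (List.mem_iff_getElem.2 ⟨t, by simp [colsOf, ht'], by simp [colsOf]⟩)
    rw [h', hdot _ _ _ _ le_rfl]

end Data

end Cfsg.Agent.Lib.SchurMult.Engine
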