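import Cfsg.Agent.Lib.SchurMult.Engine
import Cfsg.Agent.Lib.PermOut.Basic

/-!
The multiplier certificate for groups of permutations of `Fin n` given by codes with `w` bits for each image.
-/

set_option autoImplicit false

namespace Cfsg.Agent.Lib.SchurMult.PermEngine

open Cfsg Cfsg.Agent.Lib

variable {n wd : ℕ}

/-- The code of a word of coded maps. -/
def key (n wd : ℕ) (l : List ℕ) : ℕ := ((List.range n).map fun i => PermOut.app wd l i <<< (wd * i)).sum

/-- Two words of coded maps have the same effect. -/
def same (n wd : ℕ) (l m : List ℕ) : Bool := (List.range n).all fun i => Nat.beq (PermOut.app wd l i) (PermOut.app wd m i)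

theorem same_spec {l m : List ℕ} (hl : ∀ p ∈ l, PermOut.okP n wd p = true) (hm : ∀ p ∈ m, PermOut.okP n wd p = true)
    (h : same n wd l m = true) : PermOut.prodP n wd l = PermOut.prodP n wd m := by
  refine PermOut.prodP_eq hl hm (List.all_eq_true.2 fun i hi => ?_)
  rw [beq_iff_eq]
  exact Nat.eq_of_beq_eq_true (List.all_eq_true.1 h i hi)

theorem key_congr {l m : List ℕ} (hl : ∀ p ∈ l, PermOut.okP n wd p = true) (hm : ∀ p ∈ m, PermOut.okP n wd p = true)
    (h : PermOut.prodP n wd l = PermOut.prodP n wd m) : key n wd l = key n wd m := by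
  refine congrArg List.sum (List.map_congr_left fun i hi => ?_)
  have := congrArg (fun g : Equiv.Perm (Fin n) => ((g ⟨i, List.mem_range.1 hi⟩ : Fin n) : ℕ)) h
  simp only [PermOut.prodP_val hl, PermOut.prodP_val hm] at this
  rw [this]

/-- A strictly increasing list. -/
def increasing : List ℕ → Bool
  | a :: b :: r => decide (a < b) && increasing (b :: r)
  | _ => true

theorem pairwise_of_increasing : ∀ l, increasing l = true → l.Pairwise (· < ·)
  | [], _ => List.Pairwise.nil
  | [a], _ => List.pairwise_singleton _ a
  | a :: b :: r, h => by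
    simp only [increasing, Bool.and_eq_true, decide_eq_true_eq] at h
    have ih := pairwise_of_increasing (b :: r) h.2
    refine List.pairwise_cons.2 ⟨fun c hc => ?_, ih⟩
    rcases List.mem_cons.1 hc with rfl | hc
    · exact h.1
    · exact lt_trans h.1 ((List.pairwise_cons.1 ih).1 c hc)

variable (n wd) (D : Engine.Data) (gens conj sorted : List ℕ) (test : ℕ → Bool)

/-- A word of generators as a word of codes. -/
def codes (w : List ℕ) : List ℕ := w.map fun i => gens.getD i 0

/-- The checks in the group. -/
def groupOK : Bool :=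
  (List.range D.n).all (fun i => test (gens.getD i 0)) &&
  (List.range conj.length).all (fun k => test (conj.getD k 0)) &&
  ((List.range D.nv).all fun k => (D.lhsAt k).all (fun i => decide (i < D.n)) &&
    (D.rhsAt k).all (fun i => decide (i < D.n)) &&
    same n wd (codes gens (D.lhsAt k)) (codes gens (D.rhsAt k))) &&
  decide (sorted.length = D.p ^ D.n) && sorted.all (fun k => decide (k < D.p ^ D.n)) &&
  increasing (sorted.map fun k => key n wd (codes gens (D.word k))) &&
  D.eqs.all fun e => match e with
    | .cons _ _ => true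
    | .fus k x y x' y' =>
      decide (k < conj.length) &&
      (x ++ y ++ x' ++ y').all (fun i => decide (i < D.n)) &&
      same n wd (conj.getD k 0 :: codes gens x) (codes gens x' ++ [conj.getD k 0]) &&
      same n wd (conj.getD k 0 :: codes gens y) (codes gens y' ++ [conj.getD k 0])

variable {n wd D gens conj sorted test}

theorem bound {H : Subgroup (Equiv.Perm (Fin n))}
    (htest : ∀ q, test q = true → PermOut.perm n wd q ∈ H ∧ PermOut.okP n wd q = true) {Γ : Type} [Group Γ] [Finite Γ]
    {σ : Γ →* H} (hσ : Cfsg.IsStemExtension σ) {p : ℕ} [Fact p.Prime] (hp : D.p = p)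
    (hall : D.allOK = true) (hg : groupOK n wd D gens conj sorted test = true)
    (hcard : (Nat.card H).factorization p = D.n) {k : ℕ} (hk : p ^ k ∣ Nat.card σ.ker) :
    p ^ k ∣ D.bound := by
  simp only [groupOK, Bool.and_eq_true, List.all_eq_true, List.mem_range, decide_eq_true_eq] at hg
  obtain ⟨⟨⟨⟨⟨⟨hgen, hconj⟩, hrel⟩, hlen⟩, hlt⟩, hinc⟩, heq⟩ := hg
  let g : ℕ → H := fun i =>
    if h : test (gens.getD i 0) = true then ⟨PermOut.perm n wd (gens.getD i 0), (htest _ h).1⟩ else 1
  let γ : ℕ → H := fun i =>
    if h : test (conj.getD i 0) = true then ⟨PermOut.perm n wd (conj.getD i 0), (htest _ h).1⟩ else 1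
  have hev : ∀ w : List ℕ, (∀ i ∈ w, i < D.n) →
      ((Engine.Data.ev g w : H) : Equiv.Perm (Fin n)) = ((codes gens w).map (PermOut.perm n wd)).prod ∧
        ∀ q ∈ codes gens w, PermOut.okP n wd q = true := by
    intro w hw
    refine ⟨?_, fun q hq => ?_⟩
    · rw [Engine.Data.ev, SubmonoidClass.coe_list_prod, List.map_map, codes, List.map_map]
      refine congrArg List.prod (List.map_congr_left fun i hi => ?_)
      simp only [Function.comp_def, g, dif_pos (hgen i (hw i hi))]
    · obtain ⟨i, hi, rfl⟩ := List.mem_map.1 hq
      exact (htest _ (hgen i (hw i hi))).2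
  have hword : ∀ j, ∀ i ∈ D.word j, i < D.n := fun j i hi => by
    simp only [Engine.Data.word, List.mem_flatMap, List.mem_range] at hi
    obtain ⟨a, ha, hi⟩ := hi
    rw [List.eq_of_mem_replicate hi]; exact ha
  refine Engine.bound_main D hσ hp hall g γ (fun j hj => ?_) (fun a ha b hb hab => ?_) (fun e he => ?_)
    hcard hk
  · obtain ⟨⟨h1, h2⟩, h3⟩ := hrel j hj
    obtain ⟨a1, a2⟩ := hev _ h1
    obtain ⟨b1, b2⟩ := hev _ h2
    exact Subtype.ext (by rw [a1, b1]; exact same_spec a2 b2 h3)
  · have hpw := pairwise_of_increasing _ hinc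
    have hnd : sorted.Nodup := List.Nodup.of_map _ (hpw.imp fun h => h.ne)
    have hperm : ∀ c, c < D.p ^ D.n → c ∈ sorted := by
      intro c hc
      have hsub : sorted.toFinset ⊆ Finset.range (D.p ^ D.n) := fun x hx =>
        Finset.mem_range.2 (hlt x (List.mem_toFinset.1 hx))
      have := Finset.eq_of_subset_of_card_le hsub (by
        rw [List.toFinset_card_of_nodup hnd, hlen, Finset.card_range])
      rw [← List.mem_toFinset, this, Finset.mem_range]
      exact hc
    obtain ⟨a1, a2⟩ := hev _ (hword a)
    obtain ⟨b1, b2⟩ := hev _ (hword b)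
    have hkey : key n wd (codes gens (D.word a)) = key n wd (codes gens (D.word b)) :=
      key_congr a2 b2 (by rw [PermOut.prodP, PermOut.prodP, ← a1, ← b1, hab])
    exact List.inj_on_of_nodup_map (hpw.imp fun h => h.ne) (hperm a ha) (hperm b hb) hkey
  · rcases e with ⟨u, v⟩ | ⟨j, x, y, x', y'⟩
    · trivial
    · have h := heq _ he
      simp only [Bool.and_eq_true, List.all_eq_true, decide_eq_true_eq, List.mem_append] at h
      obtain ⟨⟨⟨hj, hw⟩, hx⟩, hy⟩ := h
      have step : ∀ a b : List ℕ, (∀ i ∈ a, i < D.n) → (∀ i ∈ b, i < D.n) →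
          same n wd (conj.getD j 0 :: codes gens a) (codes gens b ++ [conj.getD j 0]) = true →
          γ j * Engine.Data.ev g a = Engine.Data.ev g b * γ j := by
        intro a b ha hb hs
        obtain ⟨a1, a2⟩ := hev a ha
        obtain ⟨b1, b2⟩ := hev b hb
        have hv := (htest _ (hconj j hj)).2
        have := same_spec (fun q hq => by
            rcases List.mem_cons.1 hq with rfl | hq
            · exact hv
            · exact a2 q hq)
          (fun q hq => by
            rcases List.mem_append.1 hq with hq | hq
            · exact b2 q hq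
            · rw [List.mem_singleton.1 hq]; exact hv) hs
        refine Subtype.ext ?_
        rw [Subgroup.coe_mul, Subgroup.coe_mul, a1, b1]
        simp only [γ, dif_pos (hconj j hj)]
        simpa [PermOut.prodP] using this
      exact ⟨step x x' (fun i hi => hw i (by simp [hi])) (fun i hi => hw i (by simp [hi])) hx,
        step y y' (fun i hi => hw i (by simp [hi])) (fun i hi => hw i (by simp [hi])) hy⟩

end Cfsg.Agent.Lib.SchurMult.PermEngine
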