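import Mathlib
import Cfsg.Prelude.Def_KGroupFacts

/-!
# The double cover of a symmetric group and its pullbacks

For even `n` the space of functions on the subsets of `Fin n` with values in `ZMod 3` carries two
families of Clifford operators which commute with each other. The operators commuting with the right
family and permuting the left family up to the sign of the permutation form a double cover of the
symmetric group, in which an involution with `k` transpositions lifts to elements of square
`(-1) ^ (k * (k + 1) / 2)`. So a perfect permutation group with such an involution has a stem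
extension by a group of order two.
-/

set_option autoImplicit false

namespace Cfsg.Agent.Lib.SchurMult.SpinLift

open Equiv

variable {n : ℕ}

/-- The functions on subsets. -/
abbrev V (n : ℕ) := Finset (Fin n) → ZMod 3

/-- Adding or removing a point. -/
def flipAt (i : Fin n) (S : Finset (Fin n)) : Finset (Fin n) := if i ∈ S then S.erase i else insert i S

theorem mem_flipAt {i x : Fin n} {S : Finset (Fin n)} :
    x ∈ flipAt i S ↔ if x = i then x ∉ S else x ∈ S := by
  unfold flipAt
  split_ifs with h1 h2 h2 <;> simp_all

theorem flipAt_flipAt (i : Fin n) (S : Finset (Fin n)) : flipAt i (flipAt i S) = S := by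
  ext x
  simp only [mem_flipAt]
  split_ifs with h <;> simp_all

theorem flipAt_comm (i j : Fin n) (S : Finset (Fin n)) : flipAt i (flipAt j S) = flipAt j (flipAt i S) := by
  ext x
  simp only [mem_flipAt]
  split_ifs with h1 h2 <;> simp_all

/-- The sign of the points of `S` satisfying `p`. -/
def sgn (p : Fin n → Prop) [DecidablePred p] (S : Finset (Fin n)) : ZMod 3 := (-1) ^ (S.filter p).card

section signs

variable (p : Fin n → Prop) [DecidablePred p]

theorem sgn_mul_self (S : Finset (Fin n)) : sgn p S * sgn p S = 1 := by
  rw [sgn, ← mul_pow]; simp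

theorem sgn_flipAt_of_not {j : Fin n} (h : ¬ p j) (S : Finset (Fin n)) : sgn p (flipAt j S) = sgn p S := by
  unfold sgn
  congr 2
  ext x
  simp only [Finset.mem_filter, mem_flipAt]
  split_ifs with hx
  · subst hx; simp [h]
  · rfl

theorem sgn_insert {j : Fin n} (h : p j) {S : Finset (Fin n)} (hj : j ∉ S) :
    sgn p (insert j S) = -sgn p S := by
  rw [sgn, sgn, Finset.filter_insert, if_pos h, Finset.card_insert_of_notMem (by simp [hj]), pow_succ]
  ring

theorem sgn_flipAt_of {j : Fin n} (h : p j) (S : Finset (Fin n)) : sgn p (flipAt j S) = -sgn p S := by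
  unfold flipAt
  split_ifs with hj
  · conv_rhs => rw [← Finset.insert_erase hj]
    rw [sgn_insert p h (Finset.notMem_erase j S), neg_neg]
  · exact sgn_insert p h hj

end signs

/-- The sign of the smaller points. -/
def sL (i : Fin n) (S : Finset (Fin n)) : ZMod 3 := sgn (fun x => x < i) S

/-- The sign of the larger points. -/
def sR (i : Fin n) (S : Finset (Fin n)) : ZMod 3 := sgn (fun x => i < x) S

/-- The left operator of a point. -/
def opL (i : Fin n) : V n →ₗ[ZMod 3] V n where
  toFun v S := sL i S * v (flipAt i S)
  map_add' v w := by ext S; simp [mul_add]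
  map_smul' c v := by ext S; simp [mul_left_comm]

/-- The right operator of a point. -/
def opR (i : Fin n) : V n →ₗ[ZMod 3] V n where
  toFun v S := sR i S * v (flipAt i S)
  map_add' v w := by ext S; simp [mul_add]
  map_smul' c v := by ext S; simp [mul_left_comm]

theorem opL_apply (i : Fin n) (v : V n) (S : Finset (Fin n)) : opL i v S = sL i S * v (flipAt i S) := rfl

theorem opR_apply (i : Fin n) (v : V n) (S : Finset (Fin n)) : opR i v S = sR i S * v (flipAt i S) := rfl

theorem opL_sq (i : Fin n) (v : V n) : opL i (opL i v) = v := by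
  ext S
  rw [opL_apply, opL_apply, flipAt_flipAt, sL, sL, sgn_flipAt_of_not (fun x => x < i) (lt_irrefl i), ← mul_assoc,
    sgn_mul_self, one_mul]

theorem opL_anti {i j : Fin n} (h : i ≠ j) (v : V n) : opL i (opL j v) = -opL j (opL i v) := by
  ext S
  simp only [Pi.neg_apply, opL_apply, flipAt_comm i j, sL]
  rcases lt_or_gt_of_ne h with h | h
  · rw [sgn_flipAt_of (fun x => x < j) h, sgn_flipAt_of_not (fun x => x < i) (not_lt.2 h.le)]; ring
  · rw [sgn_flipAt_of_not (fun x => x < j) (not_lt.2 h.le), sgn_flipAt_of (fun x => x < i) h]; ring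

theorem opR_opL (i j : Fin n) (v : V n) : opR j (opL i v) = opL i (opR j v) := by
  ext S
  simp only [opL_apply, opR_apply, flipAt_comm i j, sL, sR]
  rcases lt_trichotomy j i with h | rfl | h
  · rw [sgn_flipAt_of (fun x => x < i) h, sgn_flipAt_of (fun x => j < x) h]; ring
  · rw [sgn_flipAt_of_not (fun x => x < j) (lt_irrefl j), sgn_flipAt_of_not (fun x => j < x) (lt_irrefl j)]
    ring
  · rw [sgn_flipAt_of_not (fun x => x < i) (not_lt.2 h.le),
      sgn_flipAt_of_not (fun x => j < x) (not_lt.2 h.le)]
    ring

/-- The function at a subset. -/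
def delta (U : Finset (Fin n)) : V n := Pi.single U 1

/-- An operator commuting with both families is a scalar. -/
theorem exists_scalar (hn : Even n) {T : V n →ₗ[ZMod 3] V n} (hR : ∀ i v, T (opR i v) = opR i (T v))
    (hL : ∀ i v, T (opL i v) = opL i (T v)) : ∃ c : ZMod 3, ∀ v, T v = c • v := by
  classical
  set u := T (delta ∅) with hu
  have he : ∀ i : Fin n, opL i (delta ∅) = opR i (delta ∅) := by
    intro i
    ext S
    rw [opL_apply, opR_apply, delta]
    by_cases h : flipAt i S = ∅
    · have : S = {i} := by rw [← flipAt_flipAt i S, h]; simp [flipAt]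
      subst this
      simp [sL, sR, sgn, Finset.filter_singleton]
    · simp [Pi.single_eq_of_ne h]
  have key : ∀ i S, sL i S * u (flipAt i S) = sR i S * u (flipAt i S) := fun i S => by
    rw [← opL_apply, ← opR_apply, hu, ← hL, ← hR, he]
  have hsupp : ∀ U : Finset (Fin n), U.Nonempty → u U = 0 := by
    intro U hU
    by_contra h0
    have h : ∀ i, sL i U = sR i U := fun i => by
      have := key i (flipAt i U)
      rw [flipAt_flipAt] at this
      have e1 : sL i (flipAt i U) = sL i U := sgn_flipAt_of_not (fun x => x < i) (lt_irrefl i) U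
      have e2 : sR i (flipAt i U) = sR i U := sgn_flipAt_of_not (fun x => i < x) (lt_irrefl i) U
      rw [e1, e2] at this
      exact mul_right_cancel₀ h0 this
    have hparity : ∀ i, Even (U.filter (fun x => x < i)).card ↔ Even (U.filter (fun x => i < x)).card := by
      intro i
      have := h i
      simp only [sL, sR, sgn] at this
      rcases Nat.even_or_odd (U.filter (fun x => x < i)).card with a | a <;>
        rcases Nat.even_or_odd (U.filter (fun x => i < x)).card with b | b <;>
          simp only [a.neg_one_pow, b.neg_one_pow] at this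
      · exact iff_of_true a b
      · exact absurd this (by decide)
      · exact absurd this (by decide)
      · exact iff_of_false (Nat.not_even_iff_odd.2 a) (Nat.not_even_iff_odd.2 b)
    have hmin := hparity (U.min' hU)
    have hlt : U.filter (fun x => x < U.min' hU) = ∅ :=
      Finset.filter_eq_empty_iff.2 fun x hx => not_lt.2 (U.min'_le x hx)
    have hgt : U.filter (fun x => U.min' hU < x) = U.erase (U.min' hU) := by
      ext x
      simp only [Finset.mem_filter, Finset.mem_erase]
      exact ⟨fun a => ⟨a.2.ne', a.1⟩, fun a => ⟨a.2, lt_of_le_of_ne (U.min'_le x a.2) (Ne.symm a.1)⟩⟩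
    rw [hlt, hgt, Finset.card_erase_of_mem (U.min'_mem hU), Finset.card_empty] at hmin
    have hodd : Odd U.card := by
      have h1 : Even (U.card - 1) := hmin.1 ⟨0, rfl⟩
      have h2 := Finset.card_pos.2 hU
      have := h1.add_one
      rwa [Nat.sub_add_cancel (show 1 ≤ U.card from h2)] at this
    obtain ⟨i, hi⟩ : ∃ i, i ∉ U := by
      by_contra hall
      simp only [not_exists, not_not] at hall
      rw [Finset.eq_univ_iff_forall.2 hall, Finset.card_univ, Fintype.card_fin] at hodd
      exact (Nat.not_odd_iff_even.2 hn) hodd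
    have hsum : (U.filter (fun x => x < i)).card + (U.filter (fun x => i < x)).card = U.card := by
      rw [← Finset.card_union_of_disjoint]
      · congr 1
        ext x
        simp only [Finset.mem_union, Finset.mem_filter]
        refine ⟨fun a => a.elim And.left And.left, fun hx => ?_⟩
        have : x ≠ i := fun e => hi (e ▸ hx)
        rcases lt_or_gt_of_ne this with hl | hl
        · exact Or.inl ⟨hx, hl⟩
        · exact Or.inr ⟨hx, hl⟩
      · exact Finset.disjoint_filter.2 fun x _ a b => lt_irrefl x (a.trans b)
    rw [← hsum] at hodd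
    exact (Nat.not_odd_iff_even.2 (Nat.even_add.2 (hparity i))) hodd
  refine ⟨u ∅, fun v => ?_⟩
  have hd : ∀ U : Finset (Fin n), T (delta U) = u ∅ • delta U := by
    intro U
    induction U using Finset.induction_on_max with
    | empty =>
      rw [← hu]
      ext S
      rcases S.eq_empty_or_nonempty with rfl | hS
      · simp [delta]
      · simp [delta, hsupp S hS, Pi.single_eq_of_ne hS.ne_empty]
    | insert a U ha ih =>
      have haU : a ∉ U := fun h => lt_irrefl a (ha a h)
      have e : opR a (delta U) = delta (insert a U) := by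
        ext S
        rw [opR_apply, delta, delta]
        by_cases h : S = insert a U
        · subst h
          have h1 : flipAt a (insert a U) = U := by simp [flipAt, Finset.erase_insert haU]
          have h2 : sR a (insert a U) = 1 := by
            rw [sR, sgn, Finset.filter_eq_empty_iff.2 (fun x hx => not_lt.2 ?_)]
            · simp
            · rcases Finset.mem_insert.1 hx with rfl | hx
              · exact le_rfl
              · exact (ha x hx).le
          simp [h1, h2]
        · have h1 : flipAt a S ≠ U := fun h' => h (by rw [← flipAt_flipAt a S, h']; simp [flipAt, haU])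
          simp [Pi.single_eq_of_ne h, Pi.single_eq_of_ne h1]
      rw [← e, hR, ih, map_smul]
  have hv : v = ∑ U, v U • delta U := by
    ext S
    simp [delta, Finset.sum_apply, Pi.single_apply]
  rw [hv, map_sum, Finset.smul_sum]
  simp only [map_smul, hd, smul_comm (u ∅)]

/-- The sign of a permutation as a scalar. -/
def eps (π : Perm (Fin n)) : ZMod 3 := ((Perm.sign π : ℤˣ) : ℤ)

theorem eps_mul (π ρ : Perm (Fin n)) : eps (π * ρ) = eps π * eps ρ := by simp [eps]

theorem eps_one : eps (1 : Perm (Fin n)) = 1 := by simp [eps]

theorem eps_swap {a b : Fin n} (h : a ≠ b) : eps (swap a b) = -1 := by simp [eps, Perm.sign_swap h]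

/-- The double cover as a subgroup. -/
def cover (n : ℕ) : Subgroup (Perm (Fin n) × (V n ≃ₗ[ZMod 3] V n)) where
  carrier := {x | (∀ i v, x.2 (opR i v) = opR i (x.2 v)) ∧
    ∀ i v, x.2 (opL i v) = eps x.1 • opL (x.1 i) (x.2 v)}
  one_mem' := ⟨fun i v => rfl, fun i v => by simp [eps_one]⟩
  mul_mem' := by
    rintro ⟨π, T⟩ ⟨ρ, U⟩ ⟨h1, h2⟩ ⟨k1, k2⟩
    refine ⟨fun i v => ?_, fun i v => ?_⟩
    · show T (U (opR i v)) = opR i (T (U v))
      rw [k1, h1]
    · show T (U (opL i v)) = eps (π * ρ) • opL (π (ρ i)) (T (U v))
      rw [k2, map_smul, h2, smul_smul, eps_mul, mul_comm (eps ρ)]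
  inv_mem' := by
    rintro ⟨π, T⟩ ⟨h1, h2⟩
    refine ⟨fun i v => T.injective ?_, fun i v => T.injective ?_⟩
    · show T (T.symm (opR i v)) = T (opR i (T.symm v))
      rw [h1, LinearEquiv.apply_symm_apply, LinearEquiv.apply_symm_apply]
    · show T (T.symm (opL i v)) = T (eps π⁻¹ • opL (π⁻¹ i) (T.symm v))
      rw [LinearEquiv.apply_symm_apply, map_smul, h2, LinearEquiv.apply_symm_apply, smul_smul, ← eps_mul,
        inv_mul_cancel, eps_one, one_smul]
      dsimp only
      rw [← Perm.mul_apply, mul_inv_cancel, Perm.one_apply]

/-- The projection. -/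
def proj (n : ℕ) : cover n →* Perm (Fin n) :=
  (MonoidHom.fst _ _).comp (cover n).subtype

/-- The operator of an element of the cover. -/
abbrev act (x : cover n) : V n ≃ₗ[ZMod 3] V n := (x : Perm (Fin n) × (V n ≃ₗ[ZMod 3] V n)).2

/-- The central involution. -/
def negOne (n : ℕ) : cover n :=
  ⟨(1, LinearEquiv.neg (ZMod 3)), ⟨fun i v => by simp, fun i v => by simp [eps_one]⟩⟩

theorem eq_or_neg (hn : Even n) {x : cover n} (hx : proj n x = 1) : x = 1 ∨ x = negOne n := by
  obtain ⟨⟨π, T⟩, h1, h2⟩ := x
  change π = 1 at hx
  subst hx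
  simp only [eps_one, one_smul, Perm.one_apply] at h2
  obtain ⟨c, hc⟩ := exists_scalar hn (T := T.toLinearMap) h1 h2
  have hc0 : c ≠ 0 := fun e => by
    have := T.injective (a₁ := delta ∅) (a₂ := 0) (by
      rw [map_zero]; exact (hc _).trans (by rw [e, zero_smul]))
    simpa [delta] using congrFun this ∅
  have h12 : ∀ c : ZMod 3, c ≠ 0 → c = 1 ∨ c = -1 := by decide
  rcases h12 c hc0 with rfl | rfl
  · left
    refine Subtype.ext (Prod.ext rfl (LinearEquiv.ext fun v => ?_))
    exact (hc v).trans (one_smul _ v)
  · right
    refine Subtype.ext (Prod.ext rfl (LinearEquiv.ext fun v => ?_))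
    exact (hc v).trans (by simp [negOne])

theorem negOne_comm (x : cover n) : negOne n * x = x * negOne n := by
  refine Subtype.ext (Prod.ext ?_ (LinearEquiv.ext fun v => ?_))
  · show 1 * proj n x = proj n x * 1
    rw [one_mul, mul_one]
  · show -(act x v) = act x (-v)
    rw [map_neg]

theorem negOne_ne_one : negOne n ≠ 1 := by
  intro h
  have := congrArg (fun x : cover n => act x (delta ∅) ∅) h
  change -(delta (∅ : Finset (Fin n)) ∅) = delta (∅ : Finset (Fin n)) ∅ at this
  simp only [delta, Pi.single_eq_same] at this
  exact absurd this (by decide : ¬ (-1 : ZMod 3) = 1)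

/-- The lift of a transposition. -/
def swapLift {a b : Fin n} (h : a ≠ b) : V n ≃ₗ[ZMod 3] V n :=
  LinearEquiv.ofLinearMap (opL a - opL b) (-(opL a - opL b))
    (LinearMap.ext fun v => by
      simp only [LinearMap.comp_apply, LinearMap.neg_apply, LinearMap.sub_apply, map_neg, map_sub,
        opL_sq, opL_anti h, LinearMap.id_apply]
      ext S
      simp only [Pi.neg_apply, Pi.sub_apply]
      have h2 : ∀ x y : ZMod 3, -(x - -y - (y - x)) = x := by decide
      linear_combination h2 (v S) (opL b (opL a v) S))
    (LinearMap.ext fun v => by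
      simp only [LinearMap.comp_apply, LinearMap.neg_apply, LinearMap.sub_apply, map_neg, map_sub,
        opL_sq, opL_anti h, LinearMap.id_apply]
      ext S
      simp only [Pi.neg_apply, Pi.sub_apply]
      have h2 : ∀ x y : ZMod 3, -(x - -y - (y - x)) = x := by decide
      linear_combination h2 (v S) (opL b (opL a v) S))

theorem swapLift_apply {a b : Fin n} (h : a ≠ b) (v : V n) : swapLift h v = opL a v - opL b v := rfl

theorem swap_mem {a b : Fin n} (h : a ≠ b) : (swap a b, swapLift h) ∈ cover n := by
  refine ⟨fun i v => ?_, fun i v => ?_⟩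
  · simp only [swapLift_apply, map_sub, opR_opL]
  · show swapLift h (opL i v) = eps (swap a b) • opL (swap a b i) (swapLift h v)
    simp only [eps_swap h, swapLift_apply, map_sub, neg_smul, one_smul, neg_sub]
    by_cases ha : i = a
    · subst ha
      rw [swap_apply_left, opL_sq, opL_sq, opL_anti h.symm]
    by_cases hb : i = b
    · subst hb
      rw [swap_apply_right, opL_sq, opL_sq, opL_anti h]
    rw [swap_apply_of_ne_of_ne ha hb, opL_anti ha, opL_anti hb]
    abel

theorem proj_surjective : Function.Surjective (proj n) := by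
  intro g
  induction g using Perm.swap_induction_on with
  | one => exact ⟨1, map_one _⟩
  | swap_mul f x y hxy ih =>
    obtain ⟨u, hu⟩ := ih
    exact ⟨⟨_, swap_mem hxy⟩ * u, by rw [map_mul, hu]; rfl⟩

/-- Lifts of an involution with `k` transpositions. -/
theorem lift_sq (hn : Even n) : ∀ (k : ℕ) (g : Perm (Fin n)), g * g = 1 → g.support.card = 2 * k →
    eps g = (-1) ^ k ∧ ∀ x : cover n, proj n x = g → ∀ v,
      act x (act x v) =
        ((-1 : ZMod 3) ^ (k * (k + 1) / 2)) • v := by
  intro k
  induction k with
  | zero =>
    intro g _ hc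
    obtain rfl : g = 1 := Perm.support_eq_empty_iff.1 (Finset.card_eq_zero.1 (by simpa using hc))
    refine ⟨by simp [eps_one], fun x hx v => ?_⟩
    rcases eq_or_neg hn hx with rfl | rfl
    · simp [act]
    · simp [act, negOne]
  | succ k ih =>
    intro g hg hc
    obtain ⟨a, ha⟩ : g.support.Nonempty := Finset.card_pos.1 (by omega)
    set b := g a with hb
    have hab : a ≠ b := fun e => (Perm.mem_support.1 ha) e.symm
    have hgg : ∀ x, g (g x) = x := fun x => by rw [← Perm.mul_apply, hg]; rfl
    have hgb : g b = a := hgg a
    set g' := swap a b * g with hg'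
    have happ : ∀ x, g' x = if x = a then a else if x = b then b else g x := by
      intro x
      rw [hg', Perm.mul_apply]
      split_ifs with h1 h2
      · subst h1; rw [← hb, swap_apply_right]
      · subst h2; rw [hgb, swap_apply_left]
      · refine swap_apply_of_ne_of_ne (fun e => h2 ?_) (fun e => h1 ?_)
        · rw [hb, ← e, hgg]
        · exact g.injective (e.trans hb)
    have hsq : g' * g' = 1 := by
      ext x : 1
      rw [Perm.mul_apply, Perm.one_apply, happ x]
      split_ifs with h1 h2
      · rw [happ, if_pos rfl, h1]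
      · rw [happ, if_neg hab.symm, if_pos rfl, h2]
      · rw [happ, if_neg, if_neg, hgg]
        · exact fun e => h1 (g.injective (e.trans hb))
        · exact fun e => h2 (by rw [hb, ← e, hgg])
    have hsupp : g'.support = (g.support.erase a).erase b := by
      ext x
      simp only [Perm.mem_support, Finset.mem_erase, happ]
      split_ifs with h1 h2 <;> simp_all
    have hcard : g'.support.card = 2 * k := by
      have hbs : b ∈ g.support.erase a := by
        simp only [Finset.mem_erase, Perm.mem_support]
        exact ⟨hab.symm, fun e => hab (hgb ▸ e)⟩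
      rw [hsupp, Finset.card_erase_of_mem hbs, Finset.card_erase_of_mem ha, hc]
      omega
    obtain ⟨he, hsquare⟩ := ih g' hsq hcard
    have hgeq : g = swap a b * g' := by rw [hg', swap_mul_self_mul]
    refine ⟨by rw [hgeq, eps_mul, eps_swap hab, he, pow_succ]; ring, fun x hx v => ?_⟩
    obtain ⟨u, hu⟩ := proj_surjective g'
    set W : cover n := ⟨_, swap_mem hab⟩
    have hker : proj n ((W * u)⁻¹ * x) = 1 := by
      rw [map_mul, map_inv, map_mul, hu, hx, inv_mul_eq_one]
      exact hgeq.symm
    have hneg : ∀ y : cover n, y = W * u ∨ y = W * u * negOne n → ∀ v,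
        act y (act y v) =
        ((-1 : ZMod 3) ^ ((k + 1) * (k + 1 + 1) / 2)) • v := by
      have base : ∀ v, swapLift hab (act u (swapLift hab (act u v))) =
          ((-1 : ZMod 3) ^ ((k + 1) * (k + 1 + 1) / 2)) • v := by
        intro v
        set U := act u with hU
        have hu1 : (u : Perm (Fin n) × (V n ≃ₗ[ZMod 3] V n)).1 = g' := hu
        have hm := u.2.2
        simp only [hu1, he] at hm
        have hUW : ∀ v, U (swapLift hab v) = ((-1 : ZMod 3) ^ k) • swapLift hab (U v) := fun v => by
          rw [swapLift_apply, map_sub, hm, hm, happ, if_pos rfl, happ, if_neg hab.symm, if_pos rfl,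
            ← smul_sub, ← swapLift_apply hab]
        have hWW : ∀ v, swapLift hab (swapLift hab v) = -v := fun v => by
          conv_rhs => rw [← (swapLift hab).apply_symm_apply v]
          rw [show (swapLift hab).symm v = -(swapLift hab v) from rfl, map_neg, neg_neg]
        rw [hUW, map_smul, hWW, hsquare u hu, smul_neg, smul_smul, ← neg_smul]
        congr 1
        have harith : (k + 1) * (k + 1 + 1) / 2 = k * (k + 1) / 2 + (k + 1) := by
          rw [show (k + 1) * (k + 1 + 1) = k * (k + 1) + (k + 1) * 2 by ring,
            Nat.add_mul_div_right _ _ (by norm_num : 0 < 2)]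
        rw [harith, pow_add, pow_succ]
        ring
      rintro y (rfl | rfl) v
      · exact base v
      · show swapLift hab (act u (-swapLift hab (act u (-v)))) = _
        simp only [map_neg, neg_neg]
        exact base v
    refine hneg x ?_ v
    rcases eq_or_neg hn hker with h | h
    · left; exact (inv_mul_eq_one.1 h).symm
    · right; rw [← h, mul_inv_cancel_left]

/-- A perfect permutation group with a suitable involution has a stem extension by a group of order two. -/
theorem exists_stem {H : Type} [Group H] [Finite H] (hperf : commutator H = ⊤) (hn : Even n)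
    (φ : H →* Perm (Fin n)) {h : H} (hh : h * h = 1) {k : ℕ} (hk : (φ h).support.card = 2 * k)
    (hodd : Odd (k * (k + 1) / 2)) :
    ∃ (Δ : Type) (_ : Group Δ) (_ : Finite Δ) (τ : Δ →* H),
      Cfsg.IsStemExtension τ ∧ ∃ x ∈ τ.ker, orderOf x = 2 := by
  haveI : Finite (V n ≃ₗ[ZMod 3] V n) := Finite.of_injective _ DFunLike.coe_injective
  let E : Subgroup (H × cover n) := (φ.comp (MonoidHom.fst _ _)).eqLocus ((proj n).comp (MonoidHom.snd _ _))
  let τ : E →* H := (MonoidHom.fst _ _).comp E.subtype
  let z : E := ⟨(1, negOne n), (map_one φ : φ 1 = 1)⟩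
  have hsurj : Function.Surjective τ := fun g => by
    obtain ⟨x, hx⟩ := proj_surjective (φ g)
    exact ⟨⟨(g, x), hx.symm⟩, rfl⟩
  have hker : ∀ d ∈ τ.ker, d = 1 ∨ d = z := by
    rintro ⟨⟨g, x⟩, hd⟩ (hg : g = 1)
    subst hg
    rcases eq_or_neg hn (hd.symm.trans (map_one φ)) with rfl | rfl
    · exact Or.inl rfl
    · exact Or.inr rfl
  have hz : z ∈ τ.ker := rfl
  have hzc : ∀ d ∈ τ.ker, d ∈ Subgroup.center E := by
    intro d hd
    refine Subgroup.mem_center_iff.2 fun y => ?_
    rcases hker d hd with rfl | rfl
    · rw [mul_one, one_mul]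
    · exact Subtype.ext (Prod.ext ((mul_one _).trans (one_mul _).symm) (negOne_comm _).symm)
  obtain ⟨d, hd, hdh⟩ : ∃ d ∈ commutator E, τ d = h := by
    have : (commutator E).map τ = ⊤ := by
      rw [commutator_def, Subgroup.map_commutator, Subgroup.map_top_of_surjective _ hsurj,
        ← commutator_def, hperf]
    exact Subgroup.mem_map.1 (this.symm ▸ Subgroup.mem_top h)
  have hdz : d * d = z := by
    have hd1 : (d : H × cover n).1 = h := hdh
    have hp : proj n (d : H × cover n).2 = φ h := hd1 ▸ d.2.symm
    have hs := (lift_sq hn k (φ h) (by rw [← map_mul, hh, map_one]) hk).2 _ hp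
    simp only [hodd.neg_one_pow, neg_smul, one_smul] at hs
    refine Subtype.ext (Prod.ext ?_ (Subtype.ext (Prod.ext ?_ (LinearEquiv.ext fun v => hs v))))
    · show (d : H × cover n).1 * (d : H × cover n).1 = 1
      rw [hd1, hh]
    · show proj n (d : H × cover n).2 * proj n (d : H × cover n).2 = 1
      rw [hp, ← map_mul, hh, map_one]
  refine ⟨E, inferInstance, inferInstance, τ, ⟨hsurj, hzc, fun c hc => ?_⟩, z, hz, ?_⟩
  · rcases hker c hc with rfl | rfl
    · exact one_mem _
    · rw [← hdz]; exact mul_mem hd hd
  · refine orderOf_eq_prime ?_ fun e => negOne_ne_one (congrArg (fun t : E => (t : H × cover n).2) e)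
    rw [pow_two]
    refine Subtype.ext (Prod.ext (one_mul _) (Subtype.ext (Prod.ext (one_mul _) (LinearEquiv.ext fun v => ?_))))
    exact neg_neg v

end Cfsg.Agent.Lib.SchurMult.SpinLift
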