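import Cfsg.Agent.Lib.SchurMult.Comm
import Cfsg.Prelude.Def_KGroupFacts
import Mathlib

/-!
A four group as the kernel of a stem extension, and homomorphisms out of the product of two groups of order two.
-/

set_option autoImplicit false

namespace Cfsg.Agent.Lib.SchurMult.Klein

open scoped commutatorElement

universe u

/-- The product of two cyclic groups of order two. -/
abbrev V4 : Type := Multiplicative (ZMod 2 × ZMod 2)

variable {K : Type u} [Group K]

/-- The homomorphism given by two commuting involutions. -/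
def pairHom (u v : K) (hu : u * u = 1) (hv : v * v = 1) (h : u * v = v * u) : V4 →* K :=
  MonoidHom.mk' (fun x => u ^ x.toAdd.1.val * v ^ x.toAdd.2.val) fun x y => by
    have hp : ∀ (w : K), w * w = 1 → ∀ a b : ZMod 2, w ^ (a + b).val = w ^ a.val * w ^ b.val := by
      intro w hw a b
      rw [← pow_add, ZMod.val_add, ← pow_eq_pow_mod _ (by rw [pow_two, hw])]
    have hc : ∀ i j : ℕ, v ^ i * u ^ j = u ^ j * v ^ i := fun i j =>
      ((show Commute v u from h.symm).pow_pow i j)
    rw [toAdd_mul, Prod.fst_add, Prod.snd_add, hp u hu, hp v hv, mul_assoc, mul_assoc]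
    congr 1
    rw [← mul_assoc, ← hc, mul_assoc]

theorem pairHom_apply (u v : K) (hu : u * u = 1) (hv : v * v = 1) (h : u * v = v * u) (a b : ZMod 2) :
    pairHom u v hu hv h (Multiplicative.ofAdd (a, b)) = u ^ a.val * v ^ b.val := rfl

theorem pairHom_values (u v : K) (hu : u * u = 1) (hv : v * v = 1) (h : u * v = v * u) :
    ∀ y ∈ ({1, u, v, u * v} : Set K), y ∈ Set.range (pairHom u v hu hv h) := by
  rintro y (rfl | rfl | rfl | rfl)
  · exact ⟨1, map_one _⟩
  · exact ⟨Multiplicative.ofAdd (1, 0), by rw [pairHom_apply]; simp [ZMod.val_one]⟩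
  · exact ⟨Multiplicative.ofAdd (0, 1), by rw [pairHom_apply]; simp [ZMod.val_one]⟩
  · exact ⟨Multiplicative.ofAdd (1, 1), by rw [pairHom_apply]; simp [ZMod.val_one]⟩

theorem card_V4 : Nat.card V4 = 4 := by
  rw [Nat.card_congr Multiplicative.toAdd, Nat.card_prod, Nat.card_zmod]

theorem bijective_pairHom [Finite K] (hK : Nat.card K ≤ 4) (u v : K) (hu : u * u = 1) (hv : v * v = 1)
    (h : u * v = v * u) (hu1 : u ≠ 1) (hv1 : v ≠ 1) (huv : u ≠ v) :
    Function.Bijective (pairHom u v hu hv h) := by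
  have hinj : Function.Injective (pairHom u v hu hv h) := by
    rw [injective_iff_map_eq_one]
    intro x
    obtain ⟨⟨a, b⟩, rfl⟩ := Multiplicative.ofAdd.surjective x
    rw [pairHom_apply]
    have hcases : ∀ c : ZMod 2, c = 0 ∨ c = 1 := by decide
    have huv1 : u * v ≠ 1 := fun e => huv (mul_right_cancel (b := v) (by rw [e, hv]))
    rcases hcases a with rfl | rfl <;> rcases hcases b with rfl | rfl <;>
      simp [ZMod.val_one, hu1, hv1, huv1]
  exact (Nat.bijective_iff_injective_and_card _).2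
    ⟨hinj, le_antisymm (Nat.card_le_card_of_injective _ hinj) (hK.trans_eq card_V4.symm)⟩

theorem exists_surjective_of_dvd_two [Finite K] (hK : Nat.card K ∣ 2) :
    ∃ π : V4 →* K, Function.Surjective π := by
  classical
  have hle : Nat.card K ≤ 2 := Nat.le_of_dvd (by norm_num) hK
  have hsq : ∀ y : K, y * y = 1 := fun y => by
    rw [← pow_two]
    exact orderOf_dvd_iff_pow_eq_one.1 ((orderOf_dvd_natCard y).trans hK)
  by_cases h : ∃ u : K, u ≠ 1
  · obtain ⟨u, hu⟩ := h
    refine ⟨pairHom u 1 (hsq u) (one_mul 1) (by rw [mul_one, one_mul]), fun y => ?_⟩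
    refine pairHom_values u 1 _ _ _ y ?_
    by_contra hy
    simp only [Set.mem_insert_iff, Set.mem_singleton_iff, not_or, mul_one] at hy
    letI := Fintype.ofFinite K
    have := Finset.card_le_univ ({1, u, y} : Finset K)
    rw [Finset.card_insert_of_notMem (by simp [Ne.symm hu, Ne.symm hy.1]),
      Finset.card_pair (Ne.symm hy.2.1), ← Nat.card_eq_fintype_card] at this
    omega
  · push Not at h
    exact ⟨1, fun y => ⟨1, by rw [map_one]; exact (h y).symm⟩⟩

theorem exists_mulEquiv [Finite K] (h4 : Nat.card K = 4) (hsq : ∀ y : K, y * y = 1) :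
    Nonempty (K ≃* V4) := by
  classical
  haveI := Fintype.ofFinite K
  rw [Nat.card_eq_fintype_card] at h4
  obtain ⟨u, hu⟩ := Fintype.exists_ne_of_one_lt_card (show 1 < Fintype.card K by omega) 1
  obtain ⟨v, -, hv⟩ := Finset.exists_mem_notMem_of_card_lt_card
    (s := ({1, u} : Finset K)) (t := Finset.univ) (by
      rw [Finset.card_univ, h4, Finset.card_pair hu.symm]; norm_num)
  simp only [Finset.mem_insert, Finset.mem_singleton, not_or] at hv
  have hc : u * v = v * u := by
    have := hsq (u * v)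
    calc u * v = (u * v)⁻¹ := eq_inv_of_mul_eq_one_left this
      _ = v⁻¹ * u⁻¹ := mul_inv_rev _ _
      _ = v * u := by rw [inv_eq_of_mul_eq_one_right (hsq v), inv_eq_of_mul_eq_one_right (hsq u)]
  have hb := bijective_pairHom (by rw [Nat.card_eq_fintype_card, h4]) u v (hsq u) (hsq v) hc hu hv.1
    (Ne.symm hv.2)
  exact ⟨(MulEquiv.ofBijective _ hb).symm⟩

/-- Dividing a stem extension by a central cyclic subgroup of its kernel. -/
theorem exists_quotient {G Δ : Type u} [Group G] [Group Δ] [Finite Δ] {τ : Δ →* G}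
    (hτ : Cfsg.IsStemExtension τ) {c : Δ} (hc : c ∈ τ.ker) :
    ∃ (Δ' : Type u) (_ : Group Δ') (_ : Finite Δ') (q : Δ →* Δ') (τ' : Δ' →* G),
      Function.Surjective q ∧ q c = 1 ∧ τ'.comp q = τ ∧ Cfsg.IsStemExtension τ' ∧
      Nat.card τ.ker = orderOf c * Nat.card τ'.ker := by
  haveI : (Subgroup.zpowers c).Normal := ⟨fun n hn g => by
    have := (Subgroup.zpowers_le.2 (hτ.2.1 hc)) hn
    rwa [Subgroup.mem_center_iff.1 this g, mul_inv_cancel_right]⟩
  have hle : Subgroup.zpowers c ≤ τ.ker := Subgroup.zpowers_le.2 hc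
  set N := Subgroup.zpowers c with hN
  let τ' : Δ ⧸ N →* G := QuotientGroup.lift N τ hle
  have hq := QuotientGroup.mk'_surjective N
  have hker : τ'.ker = τ.ker.map (QuotientGroup.mk' N) := QuotientGroup.ker_lift N τ hle
  have hsurj : Function.Surjective τ' := fun g => by
    obtain ⟨x, rfl⟩ := hτ.1 g
    exact ⟨QuotientGroup.mk' N x, rfl⟩
  refine ⟨Δ ⧸ N, inferInstance, inferInstance, QuotientGroup.mk' N, τ', hq,
    (QuotientGroup.eq_one_iff c).2 (Subgroup.mem_zpowers c), rfl, ⟨hsurj, ?_, ?_⟩, ?_⟩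
  · rw [hker]
    rintro _ ⟨z, hz, rfl⟩
    refine Subgroup.mem_center_iff.2 fun y => ?_
    obtain ⟨x, rfl⟩ := hq y
    rw [← map_mul, ← map_mul, Subgroup.mem_center_iff.1 (hτ.2.1 hz) x]
  · rw [hker]
    refine (Subgroup.map_mono hτ.2.2).trans ?_
    rw [map_commutator_eq]
    exact Subgroup.commutator_mono le_top le_top
  · have h1 := Subgroup.card_eq_card_quotient_mul_card_subgroup τ.ker
    have h2 := Subgroup.card_eq_card_quotient_mul_card_subgroup τ'.ker
    have h3 := Subgroup.card_eq_card_quotient_mul_card_subgroup N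
    rw [Nat.card_congr (QuotientGroup.quotientKerEquivOfSurjective τ hτ.1).toEquiv] at h1
    rw [Nat.card_congr (QuotientGroup.quotientKerEquivOfSurjective τ' hsurj).toEquiv] at h2
    rw [Nat.card_zpowers, h2, h1, mul_assoc] at h3
    haveI : Finite G := Finite.of_surjective τ hτ.1
    rw [Nat.eq_of_mul_eq_mul_left Nat.card_pos h3, mul_comm]

end Cfsg.Agent.Lib.SchurMult.Klein
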