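import Mathlib
import Cfsg.Agent.Lib.SchurMult.Comm
import Cfsg.Prelude.Def_KGroupFacts

/-!
The Schur multiplier of a metacyclic group.
-/

set_option autoImplicit false

namespace Cfsg.Agent.Lib.SchurMult.Metacyclic

open scoped commutatorElement

/-- Relations of the abelian normal subgroup of the cover. -/
def relLattice (m g : ℕ) (x : ℤ) : AddSubgroup (ℤ × ℤ) where
  carrier := {p | ∃ α : ℤ, p.1 = m * α ∧ (g : ℤ) ∣ p.2 + x * α}
  zero_mem' := ⟨0, by simp, by simp⟩
  add_mem' := by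
    rintro p q ⟨α, hα, h1⟩ ⟨β, hβ, h2⟩
    refine ⟨α + β, by rw [Prod.fst_add, hα, hβ]; ring, ?_⟩
    rw [Prod.snd_add, show p.2 + q.2 + x * (α + β) = (p.2 + x * α) + (q.2 + x * β) by ring]
    exact dvd_add h1 h2
  neg_mem' := by
    rintro p ⟨α, hα, h1⟩
    refine ⟨-α, by rw [Prod.fst_neg, hα]; ring, ?_⟩
    rw [Prod.snd_neg, show -p.2 + x * -α = -(p.2 + x * α) by ring]
    exact h1.neg_right

theorem mem_relLattice {m g : ℕ} {x : ℤ} {p : ℤ × ℤ} :
    p ∈ relLattice m g x ↔ ∃ α : ℤ, p.1 = m * α ∧ (g : ℤ) ∣ p.2 + x * α := Iff.rfl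

/-- The abelian normal subgroup of the cover. -/
abbrev NGrp (m g : ℕ) (x : ℤ) := (ℤ × ℤ) ⧸ relLattice m g x

theorem ngrp_finite {m g : ℕ} {x : ℤ} (hm : 0 < m) (hg : 0 < g) : Finite (NGrp m g x) := by
  haveI : NeZero m := ⟨hm.ne'⟩
  haveI : NeZero g := ⟨hg.ne'⟩
  refine Finite.of_surjective
    (fun q : Fin m × Fin g => (QuotientAddGroup.mk ((q.1 : ℤ), (q.2 : ℤ)) : NGrp m g x)) fun a => ?_
  obtain ⟨⟨i, j⟩, rfl⟩ := QuotientAddGroup.mk_surjective a
  set i' := i % (m : ℤ)
  set j' := (j + x * (i / m)) % (g : ℤ)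
  have hm' : (0 : ℤ) < m := by exact_mod_cast hm
  have hg' : (0 : ℤ) < g := by exact_mod_cast hg
  have h1 : 0 ≤ i' := Int.emod_nonneg _ hm'.ne'
  have h2 : 0 ≤ j' := Int.emod_nonneg _ hg'.ne'
  refine ⟨(⟨i'.toNat, by have := Int.emod_lt_of_pos i hm'; omega⟩,
    ⟨j'.toNat, by have := Int.emod_lt_of_pos (j + x * (i / m)) hg'; omega⟩), ?_⟩
  simp only [Int.toNat_of_nonneg h1, Int.toNat_of_nonneg h2]
  rw [QuotientAddGroup.eq, mem_relLattice]
  refine ⟨i / m, ?_, (j + x * (i / m)) / g, ?_⟩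
  · simp only [Prod.fst_add, Prod.fst_neg]
    have := Int.emod_add_mul_ediv i m
    linarith
  · simp only [Prod.snd_add, Prod.snd_neg]
    have := Int.emod_add_mul_ediv (j + x * (i / m)) g
    linarith

theorem geom_int (r k : ℕ) :
    ((r : ℤ) - 1) * (∑ i ∈ Finset.range k, (r : ℤ) ^ i) = (r : ℤ) ^ k - 1 :=
  (mul_comm _ _).trans (geom_sum_mul (r : ℤ) k)

/-- A cover with kernel of order `g`. -/
theorem exists_cover {G : Type} [Group G] (a b : G) (m n r t g : ℕ) (x y : ℤ) {d m' r' l' : ℤ}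
    (hm : 0 < m) (hn : 0 < n) (hg : 0 < g)
    (hxy : x * r' + y * m' = 1) (hmd : (m : ℤ) = d * m') (hrd : (r : ℤ) - 1 = d * r')
    (htl : (t : ℤ) = m' * l') (hgd : (g : ℤ) ∣ d) (hgl : (g : ℤ) ∣ l')
    (hgS : ∃ M : ℤ, (r : ℤ) ^ n - 1 = m * M ∧ (g : ℤ) ∣ x * M + y * (∑ i ∈ Finset.range n, (r : ℤ) ^ i))
    (ham : a ^ m = 1) (hbn : b ^ n = a ^ t) (hba : b * a * b⁻¹ = a ^ r)
    (hgen : Subgroup.closure ({a, b} : Set G) = ⊤)
    (huniv : ∀ (H : Type) [Group H] (a' b' : H), a' ^ m = 1 → b' ^ n = a' ^ t → b' * a' * b'⁻¹ = a' ^ r →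
      ∃ f : G →* H, f a = a' ∧ f b = b') :
    ∃ (Γ : Type) (_ : Group Γ) (_ : Finite Γ) (σ : Γ →* G), Cfsg.IsStemExtension σ ∧
      Nonempty (σ.ker ≃* Multiplicative (ZMod g)) ∧ (∀ i : ℕ, a ^ i = 1 → m ∣ i) := by
  haveI := ngrp_finite (x := x) hm hg
  let θ₀ : ℤ × ℤ →+ ℤ × ℤ :=
    { toFun := fun p => ((r : ℤ) * p.1, y * p.1 + p.2)
      map_zero' := by simp
      map_add' := fun p q => by ext <;> simp [mul_add] <;> ring }
  have hR : relLattice m g x ≤ (relLattice m g x).comap θ₀ := by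
    rintro p ⟨α, hα, hdv⟩
    refine ⟨r * α, ?_, ?_⟩
    · show (r : ℤ) * p.1 = _
      rw [hα]; ring
    · show (g : ℤ) ∣ y * p.1 + p.2 + x * (r * α)
      have : y * p.1 + p.2 + x * (r * α) = (p.2 + x * α) + d * α := by
        rw [hα, hmd, show (r : ℤ) = d * r' + 1 by linarith]
        linear_combination (d * α) * hxy
      rw [this]
      exact dvd_add hdv (hgd.mul_right α)
  let θ : NGrp m g x →+ NGrp m g x := QuotientAddGroup.map _ _ θ₀ hR
  have hθmk : ∀ p : ℤ × ℤ, θ (p : NGrp m g x) = (θ₀ p : NGrp m g x) := fun p => rfl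
  have hiter : ∀ (k : ℕ) (p : ℤ × ℤ), θ^[k] (p : NGrp m g x) =
      (((r : ℤ) ^ k * p.1, y * (∑ i ∈ Finset.range k, (r : ℤ) ^ i) * p.1 + p.2) : ℤ × ℤ) := by
    intro k p
    induction k with
    | zero => simp
    | succ k ih =>
      rw [Function.iterate_succ_apply', ih, hθmk]
      congr 1
      show ((r : ℤ) * ((r : ℤ) ^ k * p.1), y * ((r : ℤ) ^ k * p.1) +
        (y * (∑ i ∈ Finset.range k, (r : ℤ) ^ i) * p.1 + p.2)) = _
      rw [Finset.sum_range_succ]
      exact Prod.ext (by ring) (by ring)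
  have hθn : ∀ q, θ^[n] q = q := by
    intro q
    obtain ⟨p, rfl⟩ := QuotientAddGroup.mk_surjective q
    obtain ⟨M, hM, hdv⟩ := hgS
    rw [hiter, QuotientAddGroup.eq, mem_relLattice]
    refine ⟨-(p.1 * M), ?_, ?_⟩
    · simp only [Prod.fst_add, Prod.fst_neg]
      linear_combination (-p.1) * hM
    · simp only [Prod.snd_add, Prod.snd_neg]
      refine dvd_trans (hdv.mul_right (-p.1)) (dvd_of_eq ?_)
      ring
  have hbij : Function.Bijective θ := by
    obtain ⟨k, rfl⟩ := Nat.exists_eq_add_of_le' hn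
    refine ⟨fun p q h => ?_, fun q => ⟨θ^[k] q, ?_⟩⟩
    · rw [← hθn p, ← hθn q, Function.iterate_succ_apply, Function.iterate_succ_apply, h]
    · rw [← Function.iterate_succ_apply' θ]
      exact hθn q
  let Θ : MulAut (Multiplicative (NGrp m g x)) :=
    AddEquiv.toMultiplicative (AddEquiv.ofBijective θ hbij)
  have hΘ : ∀ (k : ℕ) q, (Θ ^ k) (Multiplicative.ofAdd q) = Multiplicative.ofAdd (θ^[k] q) := by
    intro k q
    induction k with
    | zero => simp
    | succ k ih =>
      rw [pow_succ', MulAut.mul_apply, ih, Function.iterate_succ_apply']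
      rfl
  have hΘn : Θ ^ n = 1 := by
    apply MulEquiv.ext
    intro q
    rw [← ofAdd_toAdd q, hΘ, hθn]
    rfl
  let ψ : Multiplicative ℤ →* MulAut (Multiplicative (NGrp m g x)) := zpowersHom _ Θ
  have hψ : ∀ k : ℤ, ψ (Multiplicative.ofAdd k) = Θ ^ k := fun k => by simp [ψ, zpowersHom_apply]
  let E := Multiplicative (NGrp m g x) ⋊[ψ] Multiplicative ℤ
  let N : ℤ → ℤ → E := fun i j =>
    SemidirectProduct.inl (Multiplicative.ofAdd (QuotientAddGroup.mk (i, j) : NGrp m g x))
  let B : E := SemidirectProduct.inr (Multiplicative.ofAdd (1 : ℤ))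
  have hNmul : ∀ i j i' j', N i j * N i' j' = N (i + i') (j + j') := fun i j i' j' => by
    show SemidirectProduct.inl _ * SemidirectProduct.inl _ = _
    rw [← map_mul]
    rfl
  have hN0 : N 0 0 = 1 := map_one _
  have hNeq : ∀ i j i' j', (-i + i', -j + j') ∈ relLattice m g x → N i j = N i' j' := fun i j i' j' h =>
    congrArg (fun q : NGrp m g x => (SemidirectProduct.inl (Multiplicative.ofAdd q) : E))
      ((QuotientAddGroup.eq).2 h)
  have hNpow : ∀ (i j : ℤ) (k : ℕ), N i j ^ k = N (k * i) (k * j) := by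
    intro i j k
    induction k with
    | zero => simp [hN0]
    | succ k ih =>
      rw [pow_succ, ih, hNmul]
      congr 1 <;> push_cast <;> ring
  have hBN : ∀ i j, B * N i j * B⁻¹ = N (r * i) (y * i + j) := fun i j => by
    show SemidirectProduct.inr _ * SemidirectProduct.inl _ * (SemidirectProduct.inr _)⁻¹ = _
    rw [← map_inv, ← SemidirectProduct.inl_aut]
    congr 1
  have hBn : B ^ n = SemidirectProduct.inr (Multiplicative.ofAdd (n : ℤ)) := by
    rw [← map_pow, ← ofAdd_nsmul]; simp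
  set w : E := N (-(t : ℤ)) 0 * B ^ n with hw
  have hwB : B * w * B⁻¹ = w := by
    have h1 : B * w * B⁻¹ = (B * N (-(t : ℤ)) 0 * B⁻¹) * B ^ n := by rw [hw]; group
    rw [h1, hBN, hw]
    congr 1
    refine hNeq _ _ _ _ ⟨r' * l', ?_, ?_⟩
    · show -((r : ℤ) * -(t : ℤ)) + -(t : ℤ) = m * (r' * l')
      rw [hmd, htl, show (r : ℤ) = d * r' + 1 by linarith]
      ring
    · show (g : ℤ) ∣ -(y * -(t : ℤ) + 0) + 0 + x * (r' * l')
      have : -(y * -(t : ℤ) + 0) + 0 + x * (r' * l') = l' := by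
        rw [htl]; linear_combination l' * hxy
      rw [this]; exact hgl
  have hwN : ∀ i j, N i j * w = w * N i j := fun i j => by
    have h1 : B ^ n * N i j = N i j * B ^ n := by
      rw [hBn, ← mul_inv_eq_iff_eq_mul]
      show SemidirectProduct.inr _ * SemidirectProduct.inl _ * (SemidirectProduct.inr _)⁻¹ = _
      rw [← map_inv, ← SemidirectProduct.inl_aut, hψ, zpow_natCast, hΘn]
      rfl
    rw [hw, mul_assoc, h1, ← mul_assoc, ← mul_assoc, hNmul, hNmul, add_comm i, add_comm j]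
  have hwc : w ∈ Subgroup.center E := by
    rw [Subgroup.mem_center_iff]
    intro e
    have hB' : Commute B w := by
      show B * w = w * B
      calc B * w = (B * w * B⁻¹) * B := (inv_mul_cancel_right _ _).symm
        _ = w * B := by rw [hwB]
    rw [← SemidirectProduct.inl_left_mul_inr_right e]
    obtain ⟨q, hq⟩ := QuotientAddGroup.mk_surjective (Multiplicative.toAdd e.left)
    have e1 : SemidirectProduct.inl e.left = N q.1 q.2 := by
      show _ = SemidirectProduct.inl _
      rw [show ((q.1, q.2) : ℤ × ℤ) = q from rfl, hq, ofAdd_toAdd]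
    have e2 : (SemidirectProduct.inr e.right : E) = B ^ Multiplicative.toAdd e.right := by
      rw [← map_zpow, ← ofAdd_zsmul]; simp
    rw [e1, e2]
    exact (((show Commute (N q.1 q.2) w from hwN q.1 q.2).mul_left (hB'.zpow_left _)).eq)
  haveI hWn : (Subgroup.zpowers w).Normal := ⟨fun z hz h => by
    rw [Subgroup.mem_center_iff.1 (Subgroup.zpowers_le.2 hwc hz) h, mul_inv_cancel_right]
    exact hz⟩
  set π := QuotientGroup.mk' (Subgroup.zpowers w) with hπdef
  set Γ := E ⧸ Subgroup.zpowers w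
  have hπw : π (N (t : ℤ) 0) = π B ^ n := by
    have h1 : π w = 1 := (QuotientGroup.eq_one_iff w).2 (Subgroup.mem_zpowers w)
    have h2 : N (t : ℤ) 0 * N (-(t : ℤ)) 0 = 1 := by
      rw [hNmul]; simp [hN0]
    have h3 : π (N (t : ℤ) 0 * w) = π B ^ n := by
      show π (N (t : ℤ) 0 * (N (-(t : ℤ)) 0 * B ^ n)) = _
      rw [← mul_assoc, h2, one_mul, map_pow]
    rwa [map_mul, h1, mul_one] at h3
  haveI : Finite Γ := by
    refine Finite.of_surjective (fun q : NGrp m g x × Fin n =>
      π (SemidirectProduct.inl (Multiplicative.ofAdd q.1) * B ^ (q.2 : ℕ))) fun z => ?_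
    obtain ⟨e, rfl⟩ := QuotientGroup.mk'_surjective _ z
    set k := Multiplicative.toAdd e.right
    have hn' : (0 : ℤ) < n := by exact_mod_cast hn
    set q := k / (n : ℤ)
    refine ⟨(Multiplicative.toAdd e.left + q • (QuotientAddGroup.mk ((t : ℤ), 0) : NGrp m g x),
      ⟨(k % n).toNat, by have := Int.emod_lt_of_pos k hn'; have := Int.emod_nonneg k hn'.ne'; omega⟩), ?_⟩
    show π _ = π e
    rw [ofAdd_add, map_mul SemidirectProduct.inl, ofAdd_toAdd, ofAdd_zsmul,
      map_zpow SemidirectProduct.inl, map_mul, map_mul, map_zpow, map_pow]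
    change π (SemidirectProduct.inl e.left) * π (N (t : ℤ) 0) ^ q * π B ^ _ = _
    rw [hπw]
    conv_rhs => rw [← SemidirectProduct.inl_left_mul_inr_right e]
    rw [map_mul, mul_assoc]
    congr 1
    rw [← zpow_natCast, ← zpow_natCast, ← zpow_mul, ← zpow_add,
      Int.toNat_of_nonneg (Int.emod_nonneg k hn'.ne'), add_comm, Int.emod_add_mul_ediv, ← map_zpow]
    congr 1
    show B ^ k = _
    rw [← map_zpow, ← ofAdd_zsmul]; simp [k]
  -- the projection
  let fN : NGrp m g x →+ Additive G :=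
    QuotientAddGroup.lift _ ((zmultiplesHom (Additive G) (Additive.ofMul a)).comp (AddMonoidHom.fst ℤ ℤ))
      (by
        rintro p ⟨α, hα, -⟩
        show p.1 • Additive.ofMul a = 0
        rw [hα, mul_comm, mul_zsmul, natCast_zsmul, ← ofMul_pow, ham, ofMul_one, smul_zero])
  let fn : Multiplicative (NGrp m g x) →* G := AddMonoidHom.toMultiplicativeLeft fN
  have hfn : ∀ i j : ℤ, fn (Multiplicative.ofAdd (QuotientAddGroup.mk (i, j))) = a ^ i := fun i j => rfl
  have hstep : ∀ q, fn (Θ q) = b * fn q * b⁻¹ := by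
    intro q
    obtain ⟨⟨i, j⟩, hp⟩ := QuotientAddGroup.mk_surjective (Multiplicative.toAdd q)
    rw [← ofAdd_toAdd q, ← hp, hfn]
    show fn (Multiplicative.ofAdd ((θ₀ (i, j) : ℤ × ℤ) : NGrp m g x)) = _
    rw [show (θ₀ (i, j) : ℤ × ℤ) = ((r : ℤ) * i, y * i + j) from rfl, hfn, zpow_mul, zpow_natCast,
      ← hba]
    exact conj_zpow
  let σE : E →* G := SemidirectProduct.lift fn (zpowersHom G b) (by
    intro k
    have key : ∀ (k : ℤ) q, fn ((Θ ^ k) q) = b ^ k * fn q * (b ^ k)⁻¹ := by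
      intro k
      induction k using Int.induction_on with
      | zero => simp
      | succ i ih =>
        intro q
        rw [zpow_add_one, MulAut.mul_apply, ih, hstep, zpow_add_one]
        group
      | pred i ih =>
        intro q
        have h1 := hstep (Θ⁻¹ q)
        rw [MulAut.apply_inv_self] at h1
        rw [zpow_sub_one, MulAut.mul_apply, ih, zpow_sub_one, show fn (Θ⁻¹ q) = b⁻¹ * fn q * b by
          rw [h1]; group]
        group
    refine MonoidHom.ext fun q => ?_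
    show fn (ψ k q) = zpowersHom G b k * fn q * (zpowersHom G b k)⁻¹
    rw [← ofAdd_toAdd k, hψ, key]
    simp [zpowersHom_apply])
  have hσN : ∀ i j, σE (N i j) = a ^ i := fun i j => by
    show σE (SemidirectProduct.inl _) = _
    rw [SemidirectProduct.lift_inl, hfn]
  have hσB : σE B = b := by
    show σE (SemidirectProduct.inr _) = _
    rw [SemidirectProduct.lift_inr]; simp [zpowersHom_apply]
  let σ : Γ →* G := QuotientGroup.lift _ σE (Subgroup.zpowers_le.2 (by
    rw [MonoidHom.mem_ker, hw, map_mul, map_pow, hσN, hσB, hbn, zpow_neg, zpow_natCast,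
      inv_mul_cancel]))
  have hσπ : ∀ e, σ (π e) = σE e := fun e => rfl
  have hsurj : Function.Surjective σ := by
    rw [← MonoidHom.range_eq_top, eq_top_iff, ← hgen, Subgroup.closure_le]
    rintro z (rfl | rfl)
    · exact ⟨π (N 1 0), by rw [hσπ, hσN, zpow_one]⟩
    · exact ⟨π B, by rw [hσπ, hσB]⟩
  -- the central subgroup
  set e₁ : Γ := π (N 0 1) with he₁
  have he₁c : e₁ ∈ Subgroup.center Γ := by
    rw [Subgroup.mem_center_iff]
    intro z
    obtain ⟨e, rfl⟩ := QuotientGroup.mk'_surjective _ z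
    rw [he₁, ← map_mul, ← map_mul]
    congr 1
    rw [← SemidirectProduct.inl_left_mul_inr_right e]
    obtain ⟨q, hq⟩ := QuotientAddGroup.mk_surjective (Multiplicative.toAdd e.left)
    have e1 : SemidirectProduct.inl e.left = N q.1 q.2 := by
      show _ = SemidirectProduct.inl _
      rw [show ((q.1, q.2) : ℤ × ℤ) = q from rfl, hq, ofAdd_toAdd]
    have e2 : (SemidirectProduct.inr e.right : E) = B ^ Multiplicative.toAdd e.right := by
      rw [← map_zpow, ← ofAdd_zsmul]; simp
    have hB' : Commute B (N 0 1) := by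
      show B * N 0 1 = N 0 1 * B
      calc B * N 0 1 = (B * N 0 1 * B⁻¹) * B := (inv_mul_cancel_right _ _).symm
        _ = N 0 1 * B := by rw [hBN]; simp
    have hN' : Commute (N q.1 q.2) (N 0 1) := by
      show _ * _ = _ * _
      rw [hNmul, hNmul, add_comm q.1, add_comm q.2]
    rw [e1, e2]
    exact (hN'.mul_left (hB'.zpow_left _)).eq
  haveI hKn : (Subgroup.zpowers e₁).Normal := ⟨fun z hz h => by
    rw [Subgroup.mem_center_iff.1 (Subgroup.zpowers_le.2 he₁c hz) h, mul_inv_cancel_right]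
    exact hz⟩
  have hσe : σ e₁ = 1 := by rw [he₁, hσπ, hσN, zpow_zero]
  set ν := QuotientGroup.mk' (Subgroup.zpowers e₁)
  have hA' : π (N 1 0) ^ m = e₁ ^ x := by
    have h1 : e₁ ^ x = π (N 0 x) := by
      rw [he₁, ← map_zpow]
      congr 1
      show (SemidirectProduct.inl _ : E) ^ x = SemidirectProduct.inl _
      rw [← map_zpow, ← ofAdd_zsmul, ← QuotientAddGroup.mk_zsmul]
      congr 2
      simp
    rw [h1, ← map_pow, hNpow]
    congr 1
    refine hNeq _ _ _ _ ⟨-1, ?_, ?_⟩
    · show -((m : ℤ) * 1) + 0 = m * -1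
      ring
    · show (g : ℤ) ∣ -((m : ℤ) * 0) + x + x * -1
      simp
  obtain ⟨ρ, hρa, hρb⟩ := huniv (Γ ⧸ Subgroup.zpowers e₁) (ν (π (N 1 0))) (ν (π B))
    (by
      rw [← map_pow, hA', ← MonoidHom.mem_ker, QuotientGroup.ker_mk']
      exact Subgroup.zpow_mem _ (Subgroup.mem_zpowers _) x)
    (by
      rw [← map_pow, ← hπw, ← map_pow, ← map_pow π, hNpow, mul_one, mul_zero])
    (by
      rw [← map_inv, ← map_mul, ← map_mul, ← map_inv π, ← map_mul π, ← map_mul π, hBN, ← map_pow,
        ← map_pow π, hNpow, QuotientGroup.mk'_eq_mk']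
      refine ⟨e₁ ^ (-y), Subgroup.zpow_mem _ (Subgroup.mem_zpowers _) _, ?_⟩
      rw [he₁, ← map_zpow, ← map_mul]
      congr 1
      have h1 : N 0 1 ^ (-y) = N 0 (-y) := by
        show (SemidirectProduct.inl _ : E) ^ (-y) = SemidirectProduct.inl _
        rw [← map_zpow, ← ofAdd_zsmul, ← QuotientAddGroup.mk_zsmul]
        congr 2
        simp
      rw [h1, hNmul]
      congr 1 <;> ring)
  have hρσ : ∀ z, ρ (σ z) = ν z := by
    intro z
    obtain ⟨e, rfl⟩ := QuotientGroup.mk'_surjective _ z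
    rw [← SemidirectProduct.inl_left_mul_inr_right e]
    obtain ⟨q, hq⟩ := QuotientAddGroup.mk_surjective (Multiplicative.toAdd e.left)
    have e1 : SemidirectProduct.inl e.left = N q.1 0 * N 0 q.2 := by
      rw [hNmul, add_zero, zero_add]
      show _ = SemidirectProduct.inl _
      rw [show ((q.1, q.2) : ℤ × ℤ) = q from rfl, hq, ofAdd_toAdd]
    have e2 : (SemidirectProduct.inr e.right : E) = B ^ Multiplicative.toAdd e.right := by
      rw [← map_zpow, ← ofAdd_zsmul]; simp
    have hNz : ∀ i : ℤ, N i 0 = N 1 0 ^ i := fun i => by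
      show SemidirectProduct.inl _ = (SemidirectProduct.inl _ : E) ^ i
      rw [← map_zpow, ← ofAdd_zsmul, ← QuotientAddGroup.mk_zsmul]
      congr 3 <;> simp
    have hNz' : N 0 q.2 = N 0 1 ^ q.2 := by
      show SemidirectProduct.inl _ = (SemidirectProduct.inl _ : E) ^ q.2
      rw [← map_zpow, ← ofAdd_zsmul, ← QuotientAddGroup.mk_zsmul]
      congr 3 <;> simp
    have he0 : ν (π (N 0 1)) = 1 := (QuotientGroup.eq_one_iff _).2 (Subgroup.mem_zpowers _)
    rw [e1, e2, hNz, hNz', ← hπdef]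
    simp only [map_mul, map_zpow, hσπ, hσN, hσB, hρa, hρb, he0, one_zpow, mul_one, zpow_zero, zpow_one]
  have hker : σ.ker = Subgroup.zpowers e₁ := by
    refine le_antisymm (fun z hz => ?_) (Subgroup.zpowers_le.2 hσe)
    rw [← QuotientGroup.eq_one_iff]
    show ν z = 1
    rw [← hρσ, MonoidHom.mem_ker.1 hz, map_one]
  have hlift : ∀ i j k : ℤ, π (N i j) = e₁ ^ k → (m : ℤ) ∣ i := by
    intro i j k h
    have h2 : e₁ ^ k = π (N 0 k) := by
      rw [he₁, ← map_zpow]
      congr 1
      show (SemidirectProduct.inl _ : E) ^ k = SemidirectProduct.inl _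
      rw [← map_zpow, ← ofAdd_zsmul, ← QuotientAddGroup.mk_zsmul]
      congr 2
      simp
    rw [h2, QuotientGroup.mk'_eq_mk'] at h
    obtain ⟨v, hv, hvz⟩ := h
    obtain ⟨s, rfl⟩ := Subgroup.mem_zpowers_iff.1 hv
    have h3 := congrArg (SemidirectProduct.rightHom : E →* _) hvz
    simp only [hw, map_mul, map_zpow, map_pow, N, B, SemidirectProduct.rightHom_inl,
      SemidirectProduct.rightHom_inr, one_mul, ← ofAdd_nsmul, ← ofAdd_zsmul] at h3
    have h4 : s = 0 := by
      have h5 := congrArg Multiplicative.toAdd h3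
      simp at h5
      rcases h5 with h5 | h5 <;> omega
    rw [h4, zpow_zero, mul_one] at hvz
    obtain ⟨α, hα, -⟩ := (QuotientAddGroup.eq).1 (Multiplicative.ofAdd.injective
      (SemidirectProduct.inl_injective hvz))
    simp at hα
    exact ⟨-α, by linarith⟩
  have ha_ord : ∀ i : ℕ, a ^ i = 1 → m ∣ i := by
    intro i hi
    have h1 : π (N (i : ℤ) 0) ∈ σ.ker := by
      rw [MonoidHom.mem_ker, hσπ, hσN, zpow_natCast, hi]
    rw [hker] at h1
    obtain ⟨k, hk⟩ := Subgroup.mem_zpowers_iff.1 h1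
    exact_mod_cast hlift _ _ _ hk.symm
  have hord : orderOf e₁ = g := by
    have hdvd : ∀ k : ℕ, e₁ ^ k = 1 ↔ g ∣ k := by
      intro k
      rw [he₁, ← map_pow, hNpow, mul_zero, mul_one]
      constructor
      · intro h
        obtain ⟨s, hs⟩ := Subgroup.mem_zpowers_iff.1 ((QuotientGroup.eq_one_iff _).1 h)
        have h3 := congrArg (SemidirectProduct.rightHom : E →* _) hs
        simp only [hw, map_mul, map_zpow, map_pow, N, B, SemidirectProduct.rightHom_inl,
          SemidirectProduct.rightHom_inr, one_mul, ← ofAdd_nsmul, ← ofAdd_zsmul] at h3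
        have h4 : s = 0 := by
          have h5 := congrArg Multiplicative.toAdd h3
          simp at h5
          rcases h5 with h5 | h5 <;> omega
        rw [h4, zpow_zero, ← hN0] at hs
        obtain ⟨α, hα, hdv⟩ := (QuotientAddGroup.eq).1 (Multiplicative.ofAdd.injective
          (SemidirectProduct.inl_injective hs))
        simp at hα
        rcases hα with hα | hα
        · omega
        · subst hα
          simpa [Int.natCast_dvd_natCast] using hdv
      · rintro ⟨c, rfl⟩
        rw [← map_one π, ← hN0]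
        congr 1
        refine hNeq _ _ _ _ ⟨0, by simp, ⟨-(c : ℤ), ?_⟩⟩
        simp
    exact Nat.dvd_antisymm (orderOf_dvd_of_pow_eq_one ((hdvd g).2 dvd_rfl))
      ((hdvd _).1 (pow_orderOf_eq_one e₁))
  have hcomm : e₁ ∈ commutator Γ := by
    have hc : ⁅π B, π (N 1 0)⁆ = π (N ((r : ℤ) - 1) y) := by
      rw [← map_commutatorElement]
      congr 1
      rw [commutatorElement_def, hBN]
      have : (N 1 0)⁻¹ = N (-1) 0 := inv_eq_of_mul_eq_one_right (by rw [hNmul]; simp [hN0])
      rw [this, hNmul]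
      congr 1 <;> ring
    have hm' : 0 ≤ m' ∨ True := Or.inr trivial
    have : e₁ = π (N ((r : ℤ) - 1) y) ^ m' := by
      rw [he₁, ← map_zpow]
      congr 1
      have h1 : N ((r : ℤ) - 1) y ^ m' = N (m' * ((r : ℤ) - 1)) (m' * y) := by
        show (SemidirectProduct.inl _ : E) ^ m' = SemidirectProduct.inl _
        rw [← map_zpow, ← ofAdd_zsmul, ← QuotientAddGroup.mk_zsmul]
        congr 3
      rw [h1]
      refine hNeq _ _ _ _ ⟨r', ?_, ?_⟩
      · show -0 + m' * ((r : ℤ) - 1) = m * r'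
        rw [hmd, hrd]; ring
      · show (g : ℤ) ∣ -1 + m' * y + x * r'
        rw [show -1 + m' * y + x * r' = 0 by linear_combination hxy]
        exact dvd_zero _
    rw [this, ← hc]
    exact Subgroup.zpow_mem _
      (Subgroup.commutator_mem_commutator (Subgroup.mem_top _) (Subgroup.mem_top _)) _
  refine ⟨Γ, inferInstance, inferInstance, σ, ⟨hsurj, ?_, ?_⟩, ⟨?_⟩, ha_ord⟩
  · rw [hker]; exact Subgroup.zpowers_le.2 he₁c
  · rw [hker]; exact Subgroup.zpowers_le.2 hcomm
  · haveI : NeZero g := ⟨hg.ne'⟩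
    refine (MulEquiv.subgroupCongr hker).trans (mulEquivOfCyclicCardEq ?_)
    rw [Nat.card_zpowers, hord, Nat.card_congr (Multiplicative.toAdd (α := ZMod g)), Nat.card_zmod]

theorem commutator_le_of_normal {Γ Q : Type*} [Group Γ] [Group Q] (σ : Γ →* Q)
    (hker : σ.ker ≤ Subgroup.center Γ) (A B : Γ)
    (hgen : Subgroup.closure ({σ A, σ B} : Set Q) = ⊤) (C : Subgroup Γ) [C.Normal]
    (hc : ⁅B, A⁆ ∈ C) : commutator Γ ≤ C := by
  let π := QuotientGroup.mk' C
  have hcomm : Commute (π B) (π A) := by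
    rw [← commutatorElement_eq_one_iff_commute, ← map_commutatorElement]
    exact (QuotientGroup.eq_one_iff _).2 hc
  have hall : Subgroup.closure ({A, B} : Set Γ) ⊔ σ.ker = ⊤ := by
    rw [← Subgroup.comap_map_eq, MonoidHom.map_closure, Set.image_pair, hgen, Subgroup.comap_top]
  have key : ∀ u w, Commute (π u) (π w) := by
    have h1 : ∀ v ∈ ({A, B} : Set Γ), ∀ w, Commute (π v) (π w) := by
      intro v hv w
      have hle : Subgroup.closure ({A, B} : Set Γ) ⊔ σ.ker ≤
          (Subgroup.centralizer {π v}).comap π := by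
        refine sup_le ((Subgroup.closure_le _).2 fun u hu => ?_) fun u hu => ?_
        · rw [SetLike.mem_coe, Subgroup.mem_comap, Subgroup.mem_centralizer_singleton_iff]
          rcases hu with rfl | rfl <;> rcases hv with rfl | rfl
          · rfl
          · exact hcomm.eq.symm
          · exact hcomm.eq
          · rfl
        · rw [Subgroup.mem_comap, Subgroup.mem_centralizer_singleton_iff, ← map_mul, ← map_mul,
            Subgroup.mem_center_iff.1 (hker hu) v]
      exact (Subgroup.mem_centralizer_singleton_iff.1 (hle (hall ▸ Subgroup.mem_top w))).symm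
    intro u w
    have hle : Subgroup.closure ({A, B} : Set Γ) ⊔ σ.ker ≤ (Subgroup.centralizer {π w}).comap π := by
      refine sup_le ((Subgroup.closure_le _).2 fun v hv => ?_) fun v hv => ?_
      · rw [SetLike.mem_coe, Subgroup.mem_comap, Subgroup.mem_centralizer_singleton_iff]
        exact h1 v hv w
      · rw [Subgroup.mem_comap, Subgroup.mem_centralizer_singleton_iff, ← map_mul, ← map_mul,
          ← Subgroup.mem_center_iff.1 (hker hv) w]
    exact Subgroup.mem_centralizer_singleton_iff.1 (hle (hall ▸ Subgroup.mem_top u))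
  rw [commutator_eq_closure, Subgroup.closure_le]
  rintro _ ⟨u, w, rfl⟩
  refine (QuotientGroup.eq_one_iff _).1 ?_
  show π ⁅u, w⁆ = 1
  rw [map_commutatorElement, commutatorElement_eq_one_iff_commute]
  exact key u w

/-- Every stem kernel is generated by one element of order dividing `g`. -/
theorem exists_surj {G : Type} [Group G] (a b : G) (m n r t d m' l : ℕ) (hr : 0 < r)
    (hgen : Subgroup.closure ({a, b} : Set G) = ⊤) (ham : a ^ m = 1) (hord : ∀ i : ℕ, a ^ i = 1 → m ∣ i)
    (hbn : b ^ n = a ^ t) (hba : b * a * b⁻¹ = a ^ r) (hmd : m = d * m') (htl : t = m' * l)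
    {r' : ℕ} (hrd : r - 1 = d * r') (hcop : Nat.Coprime r' m') (hd : 0 < d) (hm' : 0 < m')
    {Γ : Type} [Group Γ] (σ : Γ →* G) (hσ : Cfsg.IsStemExtension σ) (g : ℕ)
    (hg : ∀ k : ℕ, k ∣ d → k ∣ l → k * m' ∣ (∑ i ∈ Finset.range n, r ^ i) → k ∣ g) :
    ∃ π : Multiplicative (ZMod g) →* σ.ker, Function.Surjective π := by
  obtain ⟨A, rfl⟩ := hσ.1 a
  obtain ⟨B, rfl⟩ := hσ.1 b
  have hc : ∀ k ∈ σ.ker, ∀ w, Commute k w := fun k hk w => (Subgroup.mem_center_iff.1 (hσ.2.1 hk) w).symm
  obtain ⟨z, hzk, hBA⟩ : ∃ z ∈ σ.ker, B * A * B⁻¹ = z * A ^ r :=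
    ⟨B * A * B⁻¹ * (A ^ r)⁻¹, by
      rw [MonoidHom.mem_ker, map_mul, map_inv σ, map_pow, map_mul, map_mul, map_inv, hba, mul_inv_cancel],
      (inv_mul_cancel_right _ _).symm⟩
  obtain ⟨c, hcdef⟩ : ∃ c, c = z * A ^ (r - 1) := ⟨_, rfl⟩
  have hcA : B * A * B⁻¹ = c * A := by
    rw [hBA, hcdef, mul_assoc, ← pow_succ, Nat.sub_add_cancel hr]
  have hcomm : ⁅B, A⁆ = c := by rw [commutatorElement_def, hcA, mul_inv_cancel_right]
  have hAc : Commute A c := hcdef ▸ ((hc z hzk A).symm).mul_right ((Commute.refl A).pow_right _)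
  have hconjA : ∀ k : ℕ, B * A ^ k * B⁻¹ = c ^ k * A ^ k := fun k => by
    have : B * A ^ k * B⁻¹ = (B * A * B⁻¹) ^ k := (conj_pow).symm
    rw [this, hcA, hAc.symm.mul_pow]
  have hBc : B * c * B⁻¹ = c ^ r := by
    calc B * c * B⁻¹ = B * z * B⁻¹ * (B * A ^ (r - 1) * B⁻¹) := by rw [hcdef]; group
      _ = z * (c ^ (r - 1) * A ^ (r - 1)) := by rw [← (hc z hzk B).eq, mul_inv_cancel_right, hconjA]
      _ = c ^ (r - 1) * (z * A ^ (r - 1)) := by
        rw [← mul_assoc, (hc z hzk (c ^ (r - 1))).eq, mul_assoc]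
      _ = c ^ r := by rw [← hcdef, ← pow_succ, Nat.sub_add_cancel hr]
  haveI hn : (Subgroup.zpowers c).Normal := by
    have hall : Subgroup.closure ({A, B} : Set Γ) ⊔ σ.ker = ⊤ := by
      rw [← Subgroup.comap_map_eq, MonoidHom.map_closure, Set.image_pair, hgen, Subgroup.comap_top]
    rw [← Subgroup.normalizer_eq_top_iff, eq_top_iff, ← hall]
    refine sup_le ((Subgroup.closure_le _).2 ?_) fun k hk => ?_
    · intro v hv
      rcases hv with hv | hv
      · subst hv
        refine Subgroup.mem_normalizer_iff.2 fun w => ?_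
        constructor
        · intro hw
          obtain ⟨i, rfl⟩ := Subgroup.mem_zpowers_iff.1 hw
          rw [(hAc.zpow_right i).eq, mul_inv_cancel_right]
          exact Subgroup.zpow_mem _ (Subgroup.mem_zpowers c) i
        · intro hw
          obtain ⟨i, hi⟩ := Subgroup.mem_zpowers_iff.1 hw
          have : w = c ^ i := by
            rw [show w = v⁻¹ * (v * w * v⁻¹) * v by group, ← hi, (hAc.inv_left.zpow_right i).eq,
              inv_mul_cancel_right]
          exact this ▸ Subgroup.zpow_mem _ (Subgroup.mem_zpowers c) i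
      · rw [Set.mem_singleton_iff] at hv
        have hle : (Subgroup.zpowers c).map (MulAut.conj v).toMonoidHom ≤ Subgroup.zpowers c := by
          rw [Subgroup.map_le_iff_le_comap, Subgroup.zpowers_le, Subgroup.mem_comap,
            MulEquiv.coe_toMonoidHom, MulAut.conj_apply, hv, hBc]
          exact Subgroup.pow_mem _ (Subgroup.mem_zpowers c) r
        have hord' : IsOfFinOrder c ∨ True := Or.inr trivial
        have hcm : c ^ m = 1 := by
          have h1 : Commute (A ^ m) B := hc _ (by rw [MonoidHom.mem_ker, map_pow, ham]) B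
          have h2 := hconjA m
          rw [← h1.eq, mul_inv_cancel_right] at h2
          exact (mul_eq_right.1 h2.symm)
        haveI : Finite (Subgroup.zpowers c) := by
          have : IsOfFinOrder c := isOfFinOrder_iff_pow_eq_one.2
            ⟨m, hmd ▸ Nat.mul_pos hd hm', hcm⟩
          exact Nat.finite_of_card_ne_zero (by rw [Nat.card_zpowers]; exact this.orderOf_pos.ne')
        exact Subgroup.mem_normalizer_fintype fun w hw => hle ⟨w, hw, rfl⟩
    · refine Subgroup.mem_normalizer_iff.2 fun w => ?_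
      rw [(hc k hk w).eq, mul_inv_cancel_right]
  have hle : σ.ker ≤ Subgroup.zpowers c := hσ.2.2.trans
    (commutator_le_of_normal σ hσ.2.1 A B hgen _ (hcomm ▸ Subgroup.mem_zpowers c))
  have hcm : c ^ m = 1 := by
    have h1 : Commute (A ^ m) B := hc _ (by rw [MonoidHom.mem_ker, map_pow, ham]) B
    have h2 := hconjA m
    rw [← h1.eq, mul_inv_cancel_right] at h2
    exact (mul_eq_right.1 h2.symm)
  have hct : c ^ t = 1 := by
    have hwk : (A ^ t)⁻¹ * B ^ n ∈ σ.ker := by
      rw [MonoidHom.mem_ker, map_mul, map_inv, map_pow, map_pow, hbn, inv_mul_cancel]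
    have h1 : Commute (A ^ t) B := by
      have h3 : A ^ t = B ^ n * ((A ^ t)⁻¹ * B ^ n)⁻¹ := by group
      rw [h3]
      exact ((Commute.refl B).pow_left n).mul_left (hc _ hwk B).inv_left
    have h2 := hconjA t
    rw [← h1.eq, mul_inv_cancel_right] at h2
    exact (mul_eq_right.1 h2.symm)
  have hcS : c ^ (∑ i ∈ Finset.range n, r ^ i) = 1 := by
    have hiter : ∀ k : ℕ, B ^ k * A * (B ^ k)⁻¹ = c ^ (∑ i ∈ Finset.range k, r ^ i) * A := by
      intro k
      induction k with
      | zero => simp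
      | succ k ih =>
        rw [pow_succ', mul_inv_rev, show B * B ^ k * A * ((B ^ k)⁻¹ * B⁻¹) =
          B * (B ^ k * A * (B ^ k)⁻¹) * B⁻¹ by group, ih,
          show B * (c ^ (∑ i ∈ Finset.range k, r ^ i) * A) * B⁻¹ =
            (B * c * B⁻¹) ^ (∑ i ∈ Finset.range k, r ^ i) * (B * A * B⁻¹) by
              rw [conj_pow]; group,
          hBc, hcA, ← mul_assoc, ← pow_mul, ← pow_succ,
            (show r * (∑ i ∈ Finset.range k, r ^ i) + 1 = ∑ i ∈ Finset.range (k + 1), r ^ i by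
              rw [Finset.sum_range_succ', Finset.mul_sum, pow_zero]; simp [pow_succ'])]
    have hwk : (A ^ t)⁻¹ * B ^ n ∈ σ.ker := by
      rw [MonoidHom.mem_ker, map_mul, map_inv, map_pow, map_pow, hbn, inv_mul_cancel]
    have h1 : Commute (B ^ n) A := by
      have h3 : B ^ n = A ^ t * ((A ^ t)⁻¹ * B ^ n) := by group
      rw [h3]
      exact ((Commute.refl A).pow_left t).mul_left (hc _ hwk A)
    have h2 := hiter n
    rw [h1.eq, mul_inv_cancel_right] at h2
    exact (mul_eq_right.1 h2.symm)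
  set q := c ^ m'
  have hq : orderOf q ∣ g := by
    have hcpos : IsOfFinOrder c := isOfFinOrder_iff_pow_eq_one.2 ⟨m, hmd ▸ Nat.mul_pos hd hm', hcm⟩
    have hdm : m' ∣ orderOf c := by
      have h1 : σ c ^ orderOf c = 1 := by rw [← map_pow, pow_orderOf_eq_one, map_one]
      have hσc : σ c = σ A ^ (r - 1) := by
        rw [hcdef, map_mul, MonoidHom.mem_ker.1 hzk, one_mul, map_pow]
      rw [hσc, ← pow_mul] at h1
      have h2 := hord _ h1
      rw [hrd, hmd, mul_assoc] at h2
      exact (hcop.symm).dvd_of_dvd_mul_left (Nat.dvd_of_mul_dvd_mul_left hd h2)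
    obtain ⟨k, hk⟩ := hdm
    have hk' : orderOf q = k := by
      rw [orderOf_pow' c hm'.ne', hk, Nat.gcd_eq_right (dvd_mul_right m' k), Nat.mul_div_cancel_left _ hm']
    rw [hk']
    refine hg k ?_ ?_ ?_
    · have := orderOf_dvd_of_pow_eq_one hcm
      rw [hk, hmd, mul_comm d] at this
      exact Nat.dvd_of_mul_dvd_mul_left hm' this
    · have := orderOf_dvd_of_pow_eq_one hct
      rw [hk, htl] at this
      exact Nat.dvd_of_mul_dvd_mul_left hm' this
    · rw [mul_comm, ← hk]
      exact orderOf_dvd_of_pow_eq_one hcS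
  have hqk : q ∈ σ.ker := by
    rw [MonoidHom.mem_ker, map_pow, hcdef, map_mul, MonoidHom.mem_ker.1 hzk, one_mul, map_pow,
      ← pow_mul, hrd, mul_assoc, mul_comm r', ← mul_assoc, ← hmd, pow_mul, ham, one_pow]
  have hgenq : ∀ z ∈ σ.ker, z ∈ Subgroup.zpowers q := by
    intro w hw
    obtain ⟨i, rfl⟩ := Subgroup.mem_zpowers_iff.1 (hle hw)
    have h1 : σ c ^ i = 1 := by rw [← map_zpow]; exact hw
    have hzero : σ c ^ (m : ℤ) = 1 := by rw [zpow_natCast, ← map_pow, hcm, map_one]
    have h2 : σ A ^ (((r - 1 : ℕ) : ℤ) * i) = 1 := by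
      rwa [hcdef, map_mul, MonoidHom.mem_ker.1 hzk, one_mul, map_pow, ← zpow_natCast, ← zpow_mul] at h1
    have h3 : (m : ℤ) ∣ ((r - 1 : ℕ) : ℤ) * i := by
      have hm0 : IsOfFinOrder (σ A) := isOfFinOrder_iff_pow_eq_one.2 ⟨m, hmd ▸ Nat.mul_pos hd hm', ham⟩
      have h4 := orderOf_dvd_iff_zpow_eq_one.2 h2
      exact (Int.natCast_dvd_natCast.2 (hord _ (pow_orderOf_eq_one _))).trans h4
    rw [hmd, hrd, Nat.cast_mul, Nat.cast_mul, mul_assoc] at h3
    obtain ⟨j, rfl⟩ : (m' : ℤ) ∣ i := (Int.isCoprime_iff_nat_coprime.2 (by simpa using hcop.symm)).dvd_of_dvd_mul_left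
      (Int.dvd_of_mul_dvd_mul_left (by exact_mod_cast hd.ne') h3)
    rw [zpow_mul, zpow_natCast]
    exact Subgroup.zpow_mem _ (Subgroup.mem_zpowers q) j
  let f : ℤ →+ Additive σ.ker := zmultiplesHom _ (Additive.ofMul ⟨q, hqk⟩)
  have hf : f (g : ℤ) = 0 := by
    show (g : ℤ) • Additive.ofMul (⟨q, hqk⟩ : σ.ker) = 0
    rw [natCast_zsmul, ← ofMul_pow]
    exact congrArg Additive.ofMul (Subtype.ext (orderOf_dvd_iff_pow_eq_one.1 hq))
  refine ⟨AddMonoidHom.toMultiplicativeLeft (ZMod.lift g ⟨f, hf⟩), fun w => ?_⟩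
  obtain ⟨i, hi⟩ := Subgroup.mem_zpowers_iff.1 (hgenq w w.2)
  refine ⟨Multiplicative.ofAdd (i : ZMod g), ?_⟩
  show Additive.toMul (ZMod.lift g ⟨f, hf⟩ (i : ZMod g)) = w
  rw [ZMod.lift_coe]
  exact Subtype.ext ((Subgroup.coe_zpow _ _ i).trans hi)

end Cfsg.Agent.Lib.SchurMult.Metacyclic
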