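import Cfsg.Agent.Lib.SchurMult.SylowTests
import Cfsg.Agent.Lib.SchurMult.SmallSylow
import Cfsg.Agent.Lib.Recog.JankoCentral

/-!
The multiplier of the smallest Janko group is trivial.
-/

set_option autoImplicit false
set_option maxRecDepth 100000

namespace Cfsg.Agent.Lib.SchurMult.Janko

open Cfsg Subgroup Cfsg.Agent.Lib.Recog.Janko

attribute [local irreducible] el

/-- The matrix product along a word. -/
def run (w : List (Fin 577)) : LMat := w.foldr (fun i M => mulM (el i.1) M) oneM

theorem mt_prod (w : List (Fin 577)) : mt (w.map gel).prod = toM (run w) := by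
  induction w with
  | nil => rw [List.map_nil, List.prod_nil, mt_one]; exact toM_oneM.symm
  | cons i w ih =>
    rw [List.map_cons, List.prod_cons, mt_mul, ih, mt_gel]
    exact (toM_mulM _ _).symm

theorem eq_of_run {v w : List (Fin 577)} (h : (run v == run w) = true) :
    (v.map gel).prod = (w.map gel).prod := by
  apply mt_injective
  rw [mt_prod, mt_prod, beq_iff_eq.1 h]

theorem ne_of_run {v : List (Fin 577)} (h : notOne (run v) = true) : (v.map gel).prod ≠ 1 := by
  intro e
  apply ne_one_of_notOne h
  rw [← mt_prod, e, mt_one]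

/-- The word of the normalising element. -/
def wg : List (Fin 577) := [8, 126]

theorem checks :
    (run [146, 146] == run []) = true ∧ (run [531, 531] == run []) = true ∧
    (run [568, 568] == run []) = true ∧ (run [146, 531] == run [531, 146]) = true ∧
    (run [146, 568] == run [568, 146]) = true ∧ (run [531, 568] == run [568, 531]) = true ∧
    (run (wg ++ [146, 531]) == run ([146] ++ wg)) = true ∧
    (run (wg ++ [146]) == run ([568] ++ wg)) = true ∧
    (run (wg ++ [568]) == run ([146, 531, 146] ++ wg)) = true ∧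
    notOne (run [146]) = true ∧ notOne (run [146, 531]) = true ∧ notOne (run [568]) = true ∧
    notOne (run [531]) = true ∧ notOne (run [568, 146]) = true ∧
    notOne (run [568, 146, 531]) = true ∧ notOne (run [568, 531]) = true := by
  refine ⟨?_, ?_, ?_, ?_, ?_, ?_, ?_, ?_, ?_, ?_, ?_, ?_, ?_, ?_, ?_, ?_⟩ <;> decide +kernel

theorem not_two_dvd {Γ : Type} [Group Γ] [Finite Γ] {σ : Γ →* J} (hσ : Cfsg.IsStemExtension σ) :
    ¬ 2 ∣ Nat.card σ.ker := by
  obtain ⟨t2, u2, v2, tu, tv, uv, g0, g1, g2, t1, tu1, v1, u1, vt1, vtu1, vu1⟩ := checks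
  haveI : Fact (Nat.Prime 2) := ⟨Nat.prime_two⟩
  set t := gel 146 with ht
  set u := gel 531 with hu
  set v := gel 568 with hv
  set g := (wg.map gel).prod with hg
  have E := @eq_of_run
  have ht2 : t * t = 1 := by simpa using E t2
  have hu2 : u * u = 1 := by simpa using E u2
  have hv2 : v * v = 1 := by simpa using E v2
  have htu : Commute t u := by simpa [Commute, SemiconjBy] using E tu
  have htv : Commute t v := by simpa [Commute, SemiconjBy] using E tv
  have huv : Commute u v := by simpa [Commute, SemiconjBy] using E uv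
  have hg0 : g * (t * u) * g⁻¹ = t := by
    rw [mul_inv_eq_iff_eq_mul]
    simpa [hg, List.map_append, List.prod_append] using E g0
  have hg1 : g * t * g⁻¹ = v := by
    rw [mul_inv_eq_iff_eq_mul]
    simpa [hg, List.map_append, List.prod_append] using E g1
  have hg2 : g * v * g⁻¹ = t * u * t := by
    rw [mul_inv_eq_iff_eq_mul]
    simpa [hg, List.map_append, List.prod_append, mul_assoc] using E g2
  have c01 : Commute (t * u) t := (Commute.refl t).mul_left htu.symm
  have c02 : Commute (t * u) v := htv.mul_left huv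
  have hcard : Nat.card (Subgroup.closure ({t * u, t, v} : Set J)) =
      2 ^ (Nat.card J).factorization 2 := by
    have hsplit : Subgroup.closure ({t * u, t, v} : Set J) = zpowers (t * u) ⊔ zpowers t ⊔ zpowers v := by
      rw [zpowers_eq_closure, zpowers_eq_closure, zpowers_eq_closure, ← Subgroup.closure_union,
        ← Subgroup.closure_union]
      congr 1
      ext; simp only [Set.union_singleton, Set.singleton_union, Set.mem_insert_iff, Set.mem_singleton_iff]; tauto
    have e8 : (Nat.card J).factorization 2 = 3 := by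
      rw [card_J]
      have d1 := (Nat.prime_two.pow_dvd_iff_le_factorization (k := 3) (n := 175560) (by norm_num)).1 (by norm_num)
      have d2 : ¬ 4 ≤ (175560 : ℕ).factorization 2 := fun h => absurd
        ((Nat.prime_two.pow_dvd_iff_le_factorization (by norm_num)).2 h) (by norm_num)
      omega
    have sq : ∀ {x : J}, x * x = 1 → x ^ 2 = 1 := fun h => by rw [pow_two, h]
    have hz : ∀ {x : J}, x * x = 1 → ∀ {y : J}, y ∈ zpowers x → y = 1 ∨ y = x := by
      intro x hx y hy
      obtain ⟨k, rfl⟩ := mem_zpowers_iff.1 hy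
      rcases Int.even_or_odd' k with ⟨m, rfl | rfl⟩
      · left; rw [zpow_mul, zpow_two, hx, one_zpow]
      · right; rw [zpow_add, zpow_mul, zpow_one, zpow_two, hx, one_zpow, one_mul]
    have nrm : ∀ {H : Subgroup J} {x : J}, (∀ h ∈ H, Commute x h) → x ∈ normalizer (H : Set J) := by
      intro H x hx
      rw [mem_normalizer_iff]
      intro h
      refine ⟨fun hh => by rw [(hx h hh).eq, mul_inv_cancel_right]; exact hh, fun hh => ?_⟩
      have : x * h * x⁻¹ = h := mul_left_cancel (mul_right_cancel (show
        x * (x * h * x⁻¹) * x⁻¹ = x * h * x⁻¹ by rw [(hx _ hh).eq, mul_inv_cancel_right]))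
      rwa [this] at hh
    have m1 : ∀ y ∈ zpowers (t * u), Commute t y := fun y hy => by
      obtain ⟨k, rfl⟩ := mem_zpowers_iff.1 hy; exact c01.symm.zpow_right k
    have m2 : ∀ y ∈ zpowers (t * u) ⊔ zpowers t, Commute v y := by
      intro y hy
      have : zpowers (t * u) ⊔ zpowers t ≤ centralizer ({v} : Set J) := by
        rw [sup_le_iff, zpowers_le, zpowers_le, mem_centralizer_singleton_iff,
          mem_centralizer_singleton_iff]
        exact ⟨c02.eq, htv.eq⟩
      exact (mem_centralizer_singleton_iff.1 (this hy)).symm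
    have htu2 : (t * u) * (t * u) = 1 := by
      rw [mul_assoc, ← mul_assoc u, ← htu.eq, mul_assoc t u, hu2, mul_one, ht2]
    have h1 : orderOf (t * u) = 2 :=
      orderOf_eq_prime (sq htu2) (by simpa using ne_of_run tu1)
    have h2 : Nat.card (zpowers (t * u) ⊔ zpowers t : Subgroup J) = 4 := by
      rw [card_sup_zpowers _ t two_pos (nrm m1) (sq ht2) ?_, Nat.card_zpowers, h1]
      all_goals try norm_num
      intro j hj hj2 hm
      obtain rfl : j = 1 := by omega
      rw [pow_one] at hm
      rcases hz htu2 hm with h | h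
      · exact ne_of_run t1 (by simpa using h)
      · exact ne_of_run u1 (by simpa using mul_eq_left.1 h.symm)
    rw [hsplit, card_sup_zpowers _ v two_pos (nrm m2) (sq hv2) ?_, h2, e8]
    · norm_num
    intro j hj hj2 hm
    obtain rfl : j = 1 := by omega
    rw [pow_one, ← SetLike.mem_coe,
      coe_mul_of_right_le_normalizer_left _ _ (zpowers_le.2 (nrm m1))] at hm
    obtain ⟨a, ha, b, hb, hab⟩ := hm
    have hab' : a * b = v := hab
    rcases hz htu2 ha with rfl | rfl <;> rcases hz ht2 hb with rfl | rfl
    · exact ne_of_run v1 (by simpa using hab'.symm)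
    · refine ne_of_run vt1 ?_
      simp only [List.map_cons, List.map_nil, List.prod_cons, List.prod_nil, mul_one, ← ht, ← hv]
      rw [← hab', one_mul, ht2]
    · refine ne_of_run vtu1 ?_
      simp only [List.map_cons, List.map_nil, List.prod_cons, List.prod_nil, mul_one, ← ht, ← hu, ← hv]
      rw [← hab', mul_one, htu2]
    · refine ne_of_run vu1 ?_
      simp only [List.map_cons, List.map_nil, List.prod_cons, List.prod_nil, mul_one, ← hu, ← hv]
      rw [← hab', mul_assoc t u, ← htu.eq, ← mul_assoc, ht2, one_mul, hu2]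
  refine not_dvd_ker_of_preimage hσ _ hcard fun z _ hz => ?_
  rw [abelian_preimage_eight hσ c01 c02 htv hg0 hg1 hg2] at hz
  exact Subgroup.mem_bot.1 hz

theorem hasTrivial_J : Cfsg.HasCyclicSchurMultiplier J 1 := by
  refine hasTrivial_of_not_dvd fun Δ _ _ τ hτ r hr => ?_
  haveI := Fact.mk hr
  by_cases h2 : r = 2
  · subst h2; exact not_two_dvd hτ
  refine not_dvd_ker_of_sq hτ fun hd => ?_
  rw [card_J] at hd
  have hd' : r ^ 2 ∣ 2 ^ 3 * (3 * 5 * 7 * 11 * 19) := hd
  have h := (((Nat.coprime_primes hr Nat.prime_two).2 h2).pow 2 3).dvd_of_dvd_mul_left hd'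
  have hsq : Squarefree (3 * 5 * 7 * 11 * 19 : ℕ) := by
    repeat' rw [Nat.squarefree_mul (by norm_num)]
    exact ⟨⟨⟨⟨Nat.prime_three.squarefree, Nat.prime_five.squarefree⟩,
      (by norm_num : Nat.Prime 7).squarefree⟩, (by norm_num : Nat.Prime 11).squarefree⟩,
      (by norm_num : Nat.Prime 19).squarefree⟩
  exact hr.one_lt.ne' (Nat.isUnit_iff.1 (hsq r (by rwa [← pow_two])))

end Cfsg.Agent.Lib.SchurMult.Janko
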