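import Cfsg.Agent.Lib.SchurMult.MathieuCommon
import Cfsg.Agent.Lib.SchurMult.CyclicBound
import Cfsg.Agent.Lib.SchurTwelve.Cover

/-!
The multiplier of the Mathieu group of degree 12 has order two.
-/

set_option autoImplicit false

namespace Cfsg.Agent.Lib.SchurMult.Mathieu

open Cfsg Cfsg.Agent.Lib.Golay

theorem all12two : dataM12two.allOK = true := by decide +kernel

theorem all12three : dataM12three.allOK = true := by decide +kernel

theorem group12two : GolayEngine.groupOK dataM12two gensM12two conjM12two sortedM12two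
    (inStab [d0] 0) = true := by decide +kernel

theorem group12three : GolayEngine.groupOK dataM12three gensM12three conjM12three sortedM12three
    (inStab [d0] 0) = true := by decide +kernel

theorem bound12 (Δ : Type) [Group Δ] [Finite Δ] (τ : Δ →* gM12) (hτ : Cfsg.IsStemExtension τ) :
    Nat.card τ.ker ∣ 2 := by
  refine (Nat.dvd_iff_prime_pow_dvd_dvd _ _).2 fun r k hr hk => ?_
  haveI := Fact.mk hr
  have htest : ∀ q, inStab [d0] 0 q = true → toPerm q ∈ gM12 ∧ valid q = true :=
    fun q h => inStab_spec h
  by_cases h2 : r = 2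
  · subst h2
    exact GolayEngine.bound (p := 2) htest hτ rfl all12two group12two
      (factorization_of (r := 1485) Nat.prime_two (by rw [gM12_card]; rfl) (by decide)) hk
  by_cases h3 : r = 3
  · subst h3
    exact (GolayEngine.bound (p := 3) htest hτ rfl all12three group12three
      (factorization_of (r := 3520) Nat.prime_three (by rw [gM12_card]; rfl) (by decide)) hk).trans
      (one_dvd 2)
  rcases Nat.eq_zero_or_pos k with rfl | hk0
  · simp
  exfalso
  refine SchurMult.not_dvd_ker_of_sq hτ ?_ ((dvd_pow_self r hk0.ne').trans hk)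
  intro hd
  rw [gM12_card] at hd
  refine sq_not_dvd (a := 6) (b := 3) hr rfl h2 h3 (hd.trans ?_)
  exact ⟨7 * 23, by norm_num⟩

theorem hasTwo_gM12 : Cfsg.HasCyclicSchurMultiplier gM12 2 := by
  obtain ⟨Γ, σ, hσ, hcard⟩ := Cfsg.Agent.Lib.SchurTwelve.exists_cover
  haveI : Finite Γ := inferInstance
  exact SchurMult.hasCyclic_of_cover σ (MulEquiv.refl _) hσ Nat.prime_two.squarefree hcard bound12

end Cfsg.Agent.Lib.SchurMult.Mathieu
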