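import Cfsg.Agent.Lib.SchurMult.MathieuCommon

/-!
The multiplier of the Mathieu group of degree 23 is trivial.
-/

set_option autoImplicit false

namespace Cfsg.Agent.Lib.SchurMult.Mathieu

open Cfsg Cfsg.Agent.Lib.Golay

theorem all23two : dataM23two.allOK = true := by decide +kernel

theorem all23three : dataM23three.allOK = true := by decide +kernel

theorem group23two : GolayEngine.groupOK dataM23two gensM23two conjM23two sortedM23two
    (inStab [] (1 <<< 23)) = true := by decide +kernel

theorem group23three : GolayEngine.groupOK dataM23three gensM23three conjM23three sortedM23three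
    (inStab [] (1 <<< 23)) = true := by decide +kernel

theorem hasTrivial_gM23 : Cfsg.HasCyclicSchurMultiplier gM23 1 := by
  refine SchurMult.hasTrivial_of_not_dvd fun Δ _ _ τ hτ r hr hd => ?_
  haveI := Fact.mk hr
  have hd' : r ^ 1 ∣ Nat.card τ.ker := by rwa [pow_one]
  have htest : ∀ q, inStab [] (1 <<< 23) q = true → toPerm q ∈ gM23 ∧ valid q = true :=
    fun q h => inStab_spec h
  by_cases h2 : r = 2
  · subst h2
    have := GolayEngine.bound (p := 2) htest hτ rfl all23two group23two
      (factorization_of (r := 79695) Nat.prime_two (by rw [gM23_card]; rfl) (by decide)) hd'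
    exact absurd (Nat.le_of_dvd Nat.one_pos this) (by decide)
  by_cases h3 : r = 3
  · subst h3
    have := GolayEngine.bound (p := 3) htest hτ rfl all23three group23three
      (factorization_of (r := 1133440) Nat.prime_three (by rw [gM23_card]; rfl) (by decide)) hd'
    exact absurd (Nat.le_of_dvd Nat.one_pos this) (by decide)
  exact SchurMult.not_dvd_ker_of_sq hτ
    (by rw [gM23_card]; exact sq_not_dvd (a := 7) (b := 2) hr rfl h2 h3) hd

end Cfsg.Agent.Lib.SchurMult.Mathieu
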