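import Cfsg.Agent.Lib.SchurMult.MathieuCommon
import Cfsg.Agent.Lib.Golay.M24

/-!
The multiplier of the Mathieu group of degree 24 is trivial.
-/

set_option autoImplicit false

namespace Cfsg.Agent.Lib.SchurMult.Mathieu

open Cfsg Cfsg.Agent.Lib.Golay

theorem all24two : dataM24two.allOK = true := by decide +kernel

theorem all24three : dataM24three.allOK = true := by decide +kernel

theorem group24two : GolayEngine.groupOK dataM24two gensM24two conjM24two sortedM24two
    (inM24) = true := by decide +kernel

theorem group24three : GolayEngine.groupOK dataM24three gensM24three conjM24three sortedM24three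
    (inM24) = true := by decide +kernel

theorem hasTrivial_M24 : Cfsg.HasCyclicSchurMultiplier Cfsg.M24 1 := by
  refine SchurMult.hasTrivial_of_not_dvd fun Δ _ _ τ hτ r hr hd => ?_
  haveI := Fact.mk hr
  have hd' : r ^ 1 ∣ Nat.card τ.ker := by rwa [pow_one]
  have htest : ∀ q, inM24 q = true → toPerm q ∈ Cfsg.M24 ∧ valid q = true :=
    fun q h => ⟨toPerm_mem_M24 h, valid_of_inM24 h⟩
  by_cases h2 : r = 2
  · subst h2
    have := GolayEngine.bound (p := 2) htest hτ rfl all24two group24two
      (factorization_of (r := 239085) Nat.prime_two (by rw [M24_card]; rfl) (by decide)) hd'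
    exact absurd (Nat.le_of_dvd Nat.one_pos this) (by decide)
  by_cases h3 : r = 3
  · subst h3
    have := GolayEngine.bound (p := 3) htest hτ rfl all24three group24three
      (factorization_of (r := 9067520) Nat.prime_three (by rw [M24_card]; rfl) (by decide)) hd'
    exact absurd (Nat.le_of_dvd Nat.one_pos this) (by decide)
  exact SchurMult.not_dvd_ker_of_sq hτ
    (by rw [M24_card]; exact sq_not_dvd (a := 10) (b := 3) hr rfl h2 h3) hd

end Cfsg.Agent.Lib.SchurMult.Mathieu
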