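import Cfsg.Agent.Lib.SchurMult.SylowTests
import Cfsg.Agent.Lib.SchurMult.SmallSylow
import Cfsg.Agent.Lib.Golay.Simple

/-!
The multiplier of the Mathieu group of degree 11 is trivial.
-/

set_option autoImplicit false

namespace Cfsg.Agent.Lib.SchurMult.Mathieu

open Cfsg Cfsg.Agent.Lib.Golay Subgroup

/-- An element of order eight. -/
def cA : ℕ := 923771896300756151959126921659367616
/-- An involution. -/
def cX : ℕ := 649917612538666832727342486851373184
/-- An element of order three. -/
def cP : ℕ := 487373122709212905255923294881187872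
/-- Another element of order three. -/
def cQ : ℕ := 984769902586367543974814854303385632
/-- An element inverting the first and centralising the second. -/
def cG : ℕ := 969958826742993894265839954570609728

/-- The image of an index under a word of coded maps. -/
def run (w : List ℕ) (i : ℕ) : ℕ := w.foldr img i

/-- Two words of coded maps have the same effect. -/
def same (v w : List ℕ) : Bool := idx.all fun i => run v i == run w i

theorem mem_M11 {p : ℕ} (h : inStab [d0] 1 p = true) : toPerm p ∈ gM11 := (inStab_spec h).1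

theorem run_spec {w : List ℕ} (h : ∀ p ∈ w, valid p = true) :
    ∀ {i : ℕ}, i < 24 → (w.map toPerm).prod (pt i) = pt (run w i) ∧ run w i < 24 := by
  induction w with
  | nil => intro i hi; exact ⟨rfl, hi⟩
  | cons p w ih =>
    intro i hi
    obtain ⟨h1, h2⟩ := ih (fun q hq => h q (List.mem_cons_of_mem _ hq)) hi
    refine ⟨?_, img_lt (h p (List.mem_cons_self ..)) h2⟩
    rw [List.map_cons, List.prod_cons, Equiv.Perm.mul_apply, h1,
      toPerm_pt (h p (List.mem_cons_self ..)) h2]
    rfl

theorem same_spec {v w : List ℕ} (hv : ∀ p ∈ v, valid p = true) (hw : ∀ p ∈ w, valid p = true)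
    (h : same v w = true) : (v.map toPerm).prod = (w.map toPerm).prod := by
  refine Equiv.ext fun x => ?_
  rw [← pt_ix x]
  have h' := List.all_eq_true.1 h _ (mem_idx.2 (ix_lt x))
  rw [(run_spec hv (ix_lt x)).1, (run_spec hw (ix_lt x)).1, beq_iff_eq.1 h']

theorem facts : ([cA, cX, cP, cQ, cG].all (inStab [d0] 1)) = true ∧
    same (List.replicate 8 cA) [] = true ∧ same (List.replicate 4 cA) [] = false ∧
    same [cX, cX] [] = true ∧ same [cX, cA] [cA, cA, cA, cX] = true ∧
    ((List.range 8).all fun k => !same [cX] (List.replicate k cA)) = true ∧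
    same [cP, cP, cP] [] = true ∧ same [cP] [] = false ∧ same [cQ, cQ, cQ] [] = true ∧
    same [cP, cQ] [cQ, cP] = true ∧ same [cQ] [] = false ∧ same [cQ] [cP] = false ∧
    same [cQ] [cP, cP] = false ∧ same [cG, cP] [cP, cP, cG] = true ∧ same [cG, cQ] [cQ, cG] = true := by
  refine ⟨?_, ?_, ?_, ?_, ?_, ?_, ?_, ?_, ?_, ?_, ?_, ?_, ?_, ?_, ?_⟩ <;> decide +kernel

/-- An element of the group given by a code. -/
noncomputable def el (p : ℕ) (h : p ∈ [cA, cX, cP, cQ, cG]) : gM11 :=
  ⟨toPerm p, mem_M11 (List.all_eq_true.1 facts.1 p h)⟩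

theorem valid_el {p : ℕ} (h : p ∈ [cA, cX, cP, cQ, cG]) : valid p = true :=
  (inStab_spec (List.all_eq_true.1 facts.1 p h)).2

theorem eq_of_same {v w : List ℕ} (hv : ∀ p ∈ v, p ∈ [cA, cX, cP, cQ, cG])
    (hw : ∀ p ∈ w, p ∈ [cA, cX, cP, cQ, cG]) (h : same v w = true) :
    (v.map toPerm).prod = (w.map toPerm).prod :=
  same_spec (fun p hp => valid_el (hv p hp)) (fun p hp => valid_el (hw p hp)) h

theorem ne_of_same {v w : List ℕ} (hv : ∀ p ∈ v, p ∈ [cA, cX, cP, cQ, cG])
    (hw : ∀ p ∈ w, p ∈ [cA, cX, cP, cQ, cG]) (h : same v w = false) :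
    (v.map toPerm).prod ≠ (w.map toPerm).prod := by
  intro e
  have : same v w = true := List.all_eq_true.2 fun i hi => by
    rw [beq_iff_eq]
    have hi' := mem_idx.1 hi
    obtain ⟨a1, a2⟩ := run_spec (fun p hp => valid_el (hv p hp)) hi'
    obtain ⟨b1, b2⟩ := run_spec (fun p hp => valid_el (hw p hp)) hi'
    rw [e, b1] at a1
    have := congrArg ix a1
    rwa [ix_pt b2, ix_pt a2, eq_comm] at this
  rw [h] at this
  exact Bool.noConfusion this

theorem prod_replicate' (k c : ℕ) : ((List.replicate k c).map toPerm).prod = toPerm c ^ k := by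
  rw [List.map_replicate, List.prod_replicate]

theorem not_dvd {Γ : Type} [Group Γ] [Finite Γ] {σ : Γ →* gM11} (hσ : Cfsg.IsStemExtension σ) :
    ¬ 2 ∣ Nat.card σ.ker ∧ ¬ 3 ∣ Nat.card σ.ker := by
  obtain ⟨-, f1, f2, f3, f4, f5, f6, f7, f8, f9, f10, f11, f12, f13, f14⟩ := facts
  set a := el cA (by simp)
  set x := el cX (by simp)
  set p := el cP (by simp)
  set q := el cQ (by simp)
  set g := el cG (by simp)
  have hca : ((a : gM11) : Equiv.Perm GolayPt) = toPerm cA := rfl
  have hcx : ((x : gM11) : Equiv.Perm GolayPt) = toPerm cX := rfl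
  have hcp : ((p : gM11) : Equiv.Perm GolayPt) = toPerm cP := rfl
  have hcq : ((q : gM11) : Equiv.Perm GolayPt) = toPerm cQ := rfl
  have hcg : ((g : gM11) : Equiv.Perm GolayPt) = toPerm cG := rfl
  have up : ∀ {v w : gM11}, (v : Equiv.Perm GolayPt) = w → v = w := fun h => Subtype.ext h
  have ha8 : a ^ 8 = 1 := up (by
    have h := eq_of_same (v := List.replicate 8 cA) (w := [])
      (fun r hr => by simp [List.eq_of_mem_replicate hr]) (by simp) f1
    rw [prod_replicate'] at h
    rw [SubmonoidClass.coe_pow, hca, h]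
    rfl)
  have ha : orderOf a = 8 := by
    have h4 : a ^ 4 ≠ 1 := fun h => by
      have h' := ne_of_same (v := List.replicate 4 cA) (w := [])
        (fun r hr => by simp [List.eq_of_mem_replicate hr]) (by simp) f2
      rw [prod_replicate'] at h'
      have h'' := congrArg Subtype.val h
      rw [SubmonoidClass.coe_pow, hca] at h''
      exact h' h''
    exact orderOf_eq_prime_pow (p := 2) (n := 2) (by simpa using h4) (by simpa using ha8)
  have hx : x ^ 2 = 1 := up (by
    have := eq_of_same (v := [cX, cX]) (w := []) (by simp) (by simp) f3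
    simpa [hca, hcx, hcp, hcq, hcg, pow_two] using this)
  have hxa : x * a * x⁻¹ = a ^ 3 := by
    rw [mul_inv_eq_iff_eq_mul]
    refine up ?_
    have := eq_of_same (v := [cX, cA]) (w := [cA, cA, cA, cX]) (by simp) (by simp) f4
    simpa [hca, hcx, hcp, hcq, hcg, pow_succ, mul_assoc] using this
  have hp3 : p ^ 3 = 1 := up (by
    have := eq_of_same (v := [cP, cP, cP]) (w := []) (by simp) (by simp) f6
    simpa [hca, hcx, hcp, hcq, hcg, pow_succ, mul_assoc] using this)
  have hq3 : q ^ 3 = 1 := up (by
    have := eq_of_same (v := [cQ, cQ, cQ]) (w := []) (by simp) (by simp) f8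
    simpa [hca, hcx, hcp, hcq, hcg, pow_succ, mul_assoc] using this)
  have hpq : Commute p q := up (by
    simpa [hca, hcx, hcp, hcq, hcg] using eq_of_same (v := [cP, cQ]) (w := [cQ, cP]) (by simp) (by simp) f9)
  have hgp : g * p * g⁻¹ = p⁻¹ := by
    rw [mul_inv_eq_iff_eq_mul, show p⁻¹ = p * p from
      inv_eq_of_mul_eq_one_right (by rw [← hp3, pow_succ, pow_two, mul_assoc])]
    refine up ?_
    simpa [hca, hcx, hcp, hcq, hcg, mul_assoc] using eq_of_same (v := [cG, cP]) (w := [cP, cP, cG]) (by simp) (by simp) f13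
  have hgq : g * q * g⁻¹ = q := by
    rw [mul_inv_eq_iff_eq_mul]
    exact up (by simpa [hca, hcx, hcp, hcq, hcg] using eq_of_same (v := [cG, cQ]) (w := [cQ, cG]) (by simp) (by simp) f14)
  haveI : Fact (Nat.Prime 3) := ⟨Nat.prime_three⟩
  haveI : Fact (Nat.Prime 2) := ⟨Nat.prime_two⟩
  have hsplit : ∀ u v : gM11, Subgroup.closure ({u, v} : Set gM11) = zpowers u ⊔ zpowers v :=
    fun u v => by
      rw [zpowers_eq_closure, zpowers_eq_closure, ← Subgroup.closure_union]
      rfl
  have hE2 : Nat.card (Subgroup.closure ({a, x} : Set gM11)) =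
      2 ^ (Nat.card gM11).factorization 2 := by
    rw [hsplit, card_sup_zpowers _ x (n := 2) two_pos ?_ hx ?_, Nat.card_zpowers, ha, gM11_card]
    · have e : (7920 : ℕ).factorization 2 = 4 := by
        have d1 := (Nat.prime_two.pow_dvd_iff_le_factorization (k := 4) (n := 7920) (by norm_num)).1 (by norm_num)
        have d2 : ¬ 5 ≤ (7920 : ℕ).factorization 2 := fun h => absurd
          ((Nat.prime_two.pow_dvd_iff_le_factorization (by norm_num)).2 h) (by norm_num)
        omega
      rw [e]
      norm_num
    · haveI : Finite (zpowers a) := inferInstance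
      rw [mem_normalizer_iff]
      have hmap : (zpowers a).map (MulAut.conj x).toMonoidHom = zpowers a := by
        refine eq_of_le_of_card_ge ?_ (by
          rw [Nat.card_congr ((zpowers a).equivMapOfInjective (MulAut.conj x).toMonoidHom
            (MulAut.conj x).injective).toEquiv])
        rw [MonoidHom.map_zpowers, zpowers_le]
        simpa [hca, hcx, hcp, hcq, hcg, hxa] using pow_mem (mem_zpowers a) 3
      intro u
      refine ⟨fun hu => hmap ▸ ⟨u, hu, rfl⟩, fun hu => ?_⟩
      rw [← hmap] at hu
      obtain ⟨w, hw, e⟩ := hu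
      rwa [(MulAut.conj x).injective e] at hw
    · intro j hj hj2 hmem
      obtain rfl : j = 1 := by omega
      rw [pow_one, mem_zpowers_iff_mem_range_orderOf, ha] at hmem
      obtain ⟨k, hk, e⟩ := Finset.mem_image.1 hmem
      have hs : same [cX] (List.replicate k cA) = false := by
        simpa [hca, hcx, hcp, hcq, hcg] using List.all_eq_true.1 f5 k (List.mem_range.2 (Finset.mem_range.1 hk))
      have h' := ne_of_same (v := [cX]) (w := List.replicate k cA) (by simp)
        (fun r hr => by simp [List.eq_of_mem_replicate hr]) hs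
      rw [prod_replicate'] at h'
      apply h'
      simpa [hca, hcx] using (congrArg Subtype.val e).symm
  have hE3 : Nat.card (Subgroup.closure ({p, q} : Set gM11)) =
      3 ^ (Nat.card gM11).factorization 3 := by
    have hp : orderOf p = 3 := orderOf_eq_prime hp3 fun h => ne_of_same (v := [cP]) (w := [])
      (by simp) (by simp) f7 (by simpa [hca, hcx, hcp, hcq, hcg] using congrArg Subtype.val h)
    rw [hsplit, card_sup_zpowers _ q (n := 3) three_pos ?_ hq3 ?_, Nat.card_zpowers, hp, gM11_card]
    · have e : (7920 : ℕ).factorization 3 = 2 := by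
        have d1 := (Nat.prime_three.pow_dvd_iff_le_factorization (k := 2) (n := 7920) (by norm_num)).1 (by norm_num)
        have d2 : ¬ 3 ≤ (7920 : ℕ).factorization 3 := fun h => absurd
          ((Nat.prime_three.pow_dvd_iff_le_factorization (by norm_num)).2 h) (by norm_num)
        omega
      rw [e]
      norm_num
    · rw [mem_normalizer_iff]
      intro u
      have hc : ∀ u ∈ zpowers p, q * u * q⁻¹ = u := fun u hu => by
        obtain ⟨k, rfl⟩ := mem_zpowers_iff.1 hu
        rw [((hpq.symm).zpow_right k).eq, mul_inv_cancel_right]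
      refine ⟨fun hu => by rw [hc u hu]; exact hu, fun hu => ?_⟩
      have e : q * u * q⁻¹ = u := by
        have := hc _ hu
        exact mul_left_cancel (mul_right_cancel this)
      rwa [e] at hu
    · intro j hj hj3 hmem
      rw [mem_zpowers_iff_mem_range_orderOf, hp] at hmem
      obtain ⟨k, hk, e⟩ := Finset.mem_image.1 hmem
      have hk3 := Finset.mem_range.1 hk
      have key : ∀ k < 3, q ≠ p ^ k := by
        intro k hk e
        have e' := congrArg Subtype.val e
        interval_cases k
        · exact ne_of_same (v := [cQ]) (w := []) (by simp) (by simp) f10 (by simpa [hca, hcx, hcp, hcq, hcg] using e')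
        · exact ne_of_same (v := [cQ]) (w := [cP]) (by simp) (by simp) f11 (by simpa [hca, hcx, hcp, hcq, hcg] using e')
        · exact ne_of_same (v := [cQ]) (w := [cP, cP]) (by simp) (by simp) f12
            (by simpa [hca, hcx, hcp, hcq, hcg, pow_two] using e')
      interval_cases j
      · exact key k hk3 (by simpa [hca, hcx, hcp, hcq, hcg] using e.symm)
      · refine key (2 * k % 3) (Nat.mod_lt _ three_pos) ?_
        calc q = (q ^ 2) ^ 2 := by rw [← pow_mul, pow_succ, hq3, one_mul]
          _ = p ^ (2 * k % 3) := by rw [← e, ← pow_mul, mul_comm, ← hp, pow_mod_orderOf]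
  refine ⟨SchurMult.not_dvd_ker_of_preimage hσ _ hE2 (preimage_semidihedral hσ ha hx hxa), ?_⟩
  refine SchurMult.not_dvd_ker_of_preimage hσ _ hE3 fun z _ hz => ?_
  rw [abelian_preimage_nine hσ hp3 hpq hgp hgq] at hz
  exact Subgroup.mem_bot.1 hz

theorem hasTrivial_gM11 : Cfsg.HasCyclicSchurMultiplier gM11 1 := by
  refine SchurMult.hasTrivial_of_not_dvd fun Δ _ _ τ hτ r hr => ?_
  haveI := Fact.mk hr
  by_cases h2 : r = 2
  · subst h2; exact (not_dvd hτ).1
  by_cases h3 : r = 3
  · subst h3; exact (not_dvd hτ).2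
  refine SchurMult.not_dvd_ker_of_sq hτ fun hd => ?_
  rw [gM11_card] at hd
  have hd' : r ^ 2 ∣ (2 ^ 4 * 3 ^ 2) * 55 := hd
  have hco : Nat.Coprime (r ^ 2) (2 ^ 4 * 3 ^ 2) :=
    ((Nat.coprime_primes hr Nat.prime_two).2 h2).pow 2 4 |>.mul_right
      (((Nat.coprime_primes hr Nat.prime_three).2 h3).pow 2 2)
  have h55 := hco.dvd_of_dvd_mul_left hd'
  have hr8 : r ≤ 8 := by
    have : r ^ 2 ≤ 55 := Nat.le_of_dvd (by norm_num) h55
    nlinarith
  interval_cases r <;> norm_num at *

end Cfsg.Agent.Lib.SchurMult.Mathieu
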