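import Cfsg.Agent.Lib.SchurMult.TitsEngine

/-! Kernel checks for the multiplier of the Tits group. -/

set_option autoImplicit false
set_option maxRecDepth 100000

namespace Cfsg.Agent.Lib.SchurMult.Tits

theorem key0 : keyOK dataTwo gensTwo baseTwo sortedTwo keysTwo 0 256 = true := by decide +kernel

theorem key1 : keyOK dataTwo gensTwo baseTwo sortedTwo keysTwo 256 256 = true := by decide +kernel

theorem key2 : keyOK dataTwo gensTwo baseTwo sortedTwo keysTwo 512 256 = true := by decide +kernel

theorem key3 : keyOK dataTwo gensTwo baseTwo sortedTwo keysTwo 768 256 = true := by decide +kernel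

theorem key4 : keyOK dataTwo gensTwo baseTwo sortedTwo keysTwo 1024 256 = true := by decide +kernel

theorem key5 : keyOK dataTwo gensTwo baseTwo sortedTwo keysTwo 1280 256 = true := by decide +kernel

theorem key6 : keyOK dataTwo gensTwo baseTwo sortedTwo keysTwo 1536 256 = true := by decide +kernel

theorem key7 : keyOK dataTwo gensTwo baseTwo sortedTwo keysTwo 1792 256 = true := by decide +kernel

theorem keyTwo : ∀ q ∈ [((0, 256) : ℕ × ℕ), ((256, 256) : ℕ × ℕ), ((512, 256) : ℕ × ℕ), ((768, 256) : ℕ × ℕ), ((1024, 256) : ℕ × ℕ), ((1280, 256) : ℕ × ℕ), ((1536, 256) : ℕ × ℕ), ((1792, 256) : ℕ × ℕ)],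
    keyOK dataTwo gensTwo baseTwo sortedTwo keysTwo q.1 q.2 = true := by
  simp only [List.forall_mem_cons, List.not_mem_nil, IsEmpty.forall_iff, implies_true, and_true]
  exact ⟨key0, key1, key2, key3, key4, key5, key6, key7⟩

theorem sortTwo : sortOK dataTwo sortedTwo keysTwo = true := by decide +kernel

end Cfsg.Agent.Lib.SchurMult.Tits
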