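import Cfsg.Agent.Lib.SchurMult.TitsData

/-! Kernel checks for the multiplier of the Tits group. -/

set_option autoImplicit false
set_option maxRecDepth 100000

namespace Cfsg.Agent.Lib.SchurMult.Tits

theorem ordTwo : dataTwo.ordOK = true := by decide +kernel

theorem eqsTwo : dataTwo.eqs.all dataTwo.eqOK = true := by decide +kernel

theorem linTwo : dataTwo.linOK dataTwo.table = true := by decide +kernel

end Cfsg.Agent.Lib.SchurMult.Tits
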