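import Cfsg.Agent.Lib.SchurMult.TitsEngine

/-! Kernel checks for the multiplier of the Tits group. -/

set_option autoImplicit false
set_option maxRecDepth 100000

namespace Cfsg.Agent.Lib.SchurMult.Tits

theorem allThree : dataThree.allOK = true := by decide +kernel

theorem allFive : dataFive.allOK = true := by decide +kernel

theorem relThree : relOK dataThree gensThree 0 6 = true := by decide +kernel

theorem relFive : relOK dataFive gensFive 0 3 = true := by decide +kernel

theorem keyThree : keyOK dataThree gensThree baseThree sortedThree keysThree 0 27 = true := by decide +kernel

theorem keyFive : keyOK dataFive gensFive baseFive sortedFive keysFive 0 25 = true := by decide +kernel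

theorem sortThree : sortOK dataThree sortedThree keysThree = true := by decide +kernel

theorem sortFive : sortOK dataFive sortedFive keysFive = true := by decide +kernel

theorem eqnThree : dataThree.eqs.all (eqnOK gensThree conjThree) = true := by decide +kernel

theorem eqnFive : dataFive.eqs.all (eqnOK gensFive conjFive) = true := by decide +kernel

end Cfsg.Agent.Lib.SchurMult.Tits
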