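import Cfsg.Agent.Lib.SchurMult.TitsEngine

/-! Kernel checks for the multiplier of the Tits group. -/

set_option autoImplicit false
set_option maxRecDepth 100000

namespace Cfsg.Agent.Lib.SchurMult.Tits

theorem rel0 : relOK dataTwo gensTwo 0 11 = true := by decide +kernel

theorem rel1 : relOK dataTwo gensTwo 11 11 = true := by decide +kernel

theorem rel2 : relOK dataTwo gensTwo 22 11 = true := by decide +kernel

theorem rel3 : relOK dataTwo gensTwo 33 11 = true := by decide +kernel

theorem rel4 : relOK dataTwo gensTwo 44 11 = true := by decide +kernel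

theorem rel5 : relOK dataTwo gensTwo 55 11 = true := by decide +kernel

theorem relTwo : ∀ q ∈ [((0, 11) : ℕ × ℕ), ((11, 11) : ℕ × ℕ), ((22, 11) : ℕ × ℕ), ((33, 11) : ℕ × ℕ), ((44, 11) : ℕ × ℕ), ((55, 11) : ℕ × ℕ)],
    relOK dataTwo gensTwo q.1 q.2 = true := by
  simp only [List.forall_mem_cons, List.not_mem_nil, IsEmpty.forall_iff, implies_true, and_true]
  exact ⟨rel0, rel1, rel2, rel3, rel4, rel5⟩

theorem eqnTwo : dataTwo.eqs.all (eqnOK gensTwo conjTwo) = true := by decide +kernel

end Cfsg.Agent.Lib.SchurMult.Tits
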