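import Cfsg.Agent.Lib.SchurMult.TitsClosed
import Cfsg.Agent.Lib.SchurMult.TitsRels
import Cfsg.Agent.Lib.SchurMult.TitsKeys
import Cfsg.Agent.Lib.SchurMult.TitsLinear
import Cfsg.Agent.Lib.SchurMult.TitsOdd
import Cfsg.Agent.Lib.SchurMult.MathieuCommon

/-!
The multiplier of the simple group inside the twisted group of type `F₄` over two elements is trivial.
-/

set_option autoImplicit false
set_option maxRecDepth 100000

namespace Cfsg.Agent.Lib.SchurMult.Tits

open Cfsg

theorem allTwo : dataTwo.allOK = true := by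
  simp only [Engine.Data.allOK, Bool.and_eq_true]
  exact ⟨⟨⟨closedTwo, ordTwo⟩, eqsTwo⟩, linTwo⟩

theorem cover_two_rel : ∀ k < dataTwo.nv, ∃ q ∈ [((0, 11) : ℕ × ℕ), (11, 11), (22, 11), (33, 11), (44, 11), (55, 11)],
    q.1 ≤ k ∧ k < q.1 + q.2 := by
  intro k hk
  have hk : k < 66 := hk
  refine ⟨(k / 11 * 11, 11), ?_, by simp only; omega, by simp only; omega⟩
  have : k / 11 < 6 := by omega
  interval_cases hq : k / 11 <;> simp

theorem cover_two_key : ∀ k < dataTwo.p ^ dataTwo.n, ∃ q ∈ [((0, 256) : ℕ × ℕ), (256, 256), (512, 256),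
    (768, 256), (1024, 256), (1280, 256), (1536, 256), (1792, 256)], q.1 ≤ k ∧ k < q.1 + q.2 := by
  intro k hk
  have hk : k < 2048 := hk
  refine ⟨(k / 256 * 256, 256), ?_, by simp only; omega, by simp only; omega⟩
  have : k / 256 < 8 := by omega
  interval_cases hq : k / 256 <;> simp

theorem hasTrivial : Cfsg.HasCyclicSchurMultiplier Cfsg.Lie.TitsGroup 1 := by
  have hK : Fintype.card (ZMod 2) = 2 ^ (2 * 0 + 1) := card_two
  have hc : Nat.card Cfsg.Lie.TitsGroup = 2 ^ 11 * 3 ^ 3 * 5 ^ 2 * 13 := (Chev.F4.tits_main hK).2.2.2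
  haveI : Finite Cfsg.Lie.TitsGroup := Nat.finite_of_card_ne_zero (by rw [hc]; norm_num)
  refine SchurMult.hasTrivial_of_not_dvd fun Δ _ _ τ hτ r hr hd => ?_
  haveI := Fact.mk hr
  have hd' : r ^ 1 ∣ Nat.card τ.ker := by rwa [pow_one]
  by_cases h2 : r = 2
  · subst h2
    have := bound (p := 2) hτ rfl allTwo _ relTwo cover_two_rel sortTwo _ keyTwo cover_two_key eqnTwo
      (Mathieu.factorization_of (r := 8775) Nat.prime_two (by rw [hc]; rfl) (by decide)) hd'
    exact absurd (Nat.le_of_dvd Nat.one_pos this) (by decide)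
  by_cases h3 : r = 3
  · subst h3
    have := bound (p := 3) hτ rfl allThree [(0, 6)] (by simpa using relThree)
      (fun k hk => ⟨(0, 6), List.mem_singleton_self _, Nat.zero_le _, (hk : k < 6)⟩) sortThree [(0, 27)]
      (by simpa using keyThree) (fun k hk => ⟨(0, 27), List.mem_singleton_self _, Nat.zero_le _, (hk : k < 27)⟩)
      eqnThree
      (Mathieu.factorization_of (r := 665600) Nat.prime_three (by rw [hc]; rfl) (by decide)) hd'
    exact absurd (Nat.le_of_dvd Nat.one_pos this) (by decide)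
  by_cases h5 : r = 5
  · subst h5
    have := bound (p := 5) hτ rfl allFive [(0, 3)] (by simpa using relFive)
      (fun k hk => ⟨(0, 3), List.mem_singleton_self _, Nat.zero_le _, (hk : k < 3)⟩) sortFive [(0, 25)]
      (by simpa using keyFive) (fun k hk => ⟨(0, 25), List.mem_singleton_self _, Nat.zero_le _, (hk : k < 25)⟩)
      eqnFive
      (Mathieu.factorization_of (r := 718848) (by norm_num) (by rw [hc]; rfl) (by decide)) hd'
    exact absurd (Nat.le_of_dvd Nat.one_pos this) (by decide)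
  refine SchurMult.not_dvd_ker_of_sq hτ ?_ hd
  rw [hc]
  intro hdvd
  have hco : Nat.Coprime (r ^ 2) (2 ^ 11 * 3 ^ 3 * 5 ^ 2) :=
    (((Nat.coprime_primes hr Nat.prime_two).2 h2).pow 2 11).mul_right
      (((Nat.coprime_primes hr Nat.prime_three).2 h3).pow 2 3) |>.mul_right
        (((Nat.coprime_primes hr (by norm_num)).2 h5).pow 2 2)
  have h := Nat.le_of_dvd (by norm_num) (hco.dvd_of_dvd_mul_left hdvd)
  have : r ≤ 3 := by nlinarith
  have := hr.two_le
  omega

end Cfsg.Agent.Lib.SchurMult.Tits
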