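import Cfsg.Agent.Lib.SchurMult.Comm
import Cfsg.Agent.Lib.SchurMult.Basic
import Mathlib

/-!
The Schur multiplier of a direct product.
-/

set_option autoImplicit false

namespace Cfsg.Agent.Lib.SchurMult

open scoped TensorProduct commutatorElement

universe u v w x

section PExt

variable {G : Type u} {C : Type v} [Group G] [CommGroup C]

/-- The central extension of a group by a bilinear cocycle. -/
@[ext]
structure PExt (β : G →* (G →* C)) : Type (max u v) where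
  base : G
  fib : C

variable {β : G →* (G →* C)}

instance : Mul (PExt β) := ⟨fun p q => ⟨p.base * q.base, p.fib * q.fib * β p.base q.base⟩⟩
instance : One (PExt β) := ⟨⟨1, 1⟩⟩
instance : Inv (PExt β) := ⟨fun p => ⟨p.base⁻¹, p.fib⁻¹ * β p.base p.base⟩⟩

@[simp] theorem PExt.mul_base (p q : PExt β) : (p * q).base = p.base * q.base := rfl
@[simp] theorem PExt.mul_fib (p q : PExt β) : (p * q).fib = p.fib * q.fib * β p.base q.base := rfl
@[simp] theorem PExt.one_base : (1 : PExt β).base = 1 := rfl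
@[simp] theorem PExt.one_fib : (1 : PExt β).fib = 1 := rfl
@[simp] theorem PExt.inv_base (p : PExt β) : p⁻¹.base = p.base⁻¹ := rfl
@[simp] theorem PExt.inv_fib (p : PExt β) : p⁻¹.fib = p.fib⁻¹ * β p.base p.base := rfl

instance : Group (PExt β) :=
  Group.ofLeftAxioms
    (fun a b c => by
      ext <;> simp only [PExt.mul_base, PExt.mul_fib, map_mul, MonoidHom.mul_apply, mul_assoc]
      simp only [mul_comm, mul_left_comm])
    (fun a => by ext <;> simp)
    (fun a => by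
      ext
      · simp
      · simp only [PExt.mul_fib, PExt.inv_fib, PExt.inv_base, PExt.one_fib, map_inv,
          MonoidHom.inv_apply]
        rw [mul_right_comm a.fib⁻¹, inv_mul_cancel, one_mul, mul_inv_cancel])

instance [Finite G] [Finite C] : Finite (PExt β) :=
  Finite.of_injective (fun p => (p.base, p.fib)) fun p q h =>
    PExt.ext (congrArg Prod.fst h) (congrArg Prod.snd h)

variable (β)

/-- The projection. -/
def pProj : PExt β →* G where
  toFun := PExt.base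
  map_one' := rfl
  map_mul' _ _ := rfl

/-- The inclusion of the fibre. -/
def pIncl : C →* PExt β where
  toFun c := ⟨1, c⟩
  map_one' := rfl
  map_mul' a b := by ext <;> simp

theorem pIncl_commutator (g h : G) (hc : g * h = h * g) :
    ⁅(⟨g, 1⟩ : PExt β), ⟨h, 1⟩⁆ = pIncl β (β g h * (β h g)⁻¹) := by
  rw [commutatorElement_def, mul_inv_eq_iff_eq_mul, mul_inv_eq_iff_eq_mul]
  ext
  · simp [pIncl, hc]
  · simp only [PExt.mul_fib, PExt.mul_base, pIncl, MonoidHom.coe_mk, OneHom.coe_mk, map_one,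
      MonoidHom.one_apply, one_mul, mul_one, inv_mul_cancel_right]

end PExt

section Product

variable {Q₁ : Type u} {Q₂ : Type v} [Group Q₁] [Group Q₂]

/-- The tensor product of the commutator quotients. -/
abbrev AbTensor (Q₁ : Type u) (Q₂ : Type v) [Group Q₁] [Group Q₂] : Type max u v :=
  Multiplicative (Additive (Abelianization Q₁) ⊗[ℤ] Additive (Abelianization Q₂))

/-- The class of a pair. -/
noncomputable def tmk : Q₁ →* (Q₂ →* AbTensor Q₁ Q₂) :=
  MonoidHom.mk' (fun a => MonoidHom.mk' (fun b => Multiplicative.ofAdd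
      (Additive.ofMul (Abelianization.of a) ⊗ₜ[ℤ] Additive.ofMul (Abelianization.of b)))
    fun b b' => by rw [map_mul, ofMul_mul, TensorProduct.tmul_add, ofAdd_add])
    fun a a' => MonoidHom.ext fun b => by
      simp only [MonoidHom.mk'_apply, MonoidHom.mul_apply]
      rw [map_mul, ofMul_mul, TensorProduct.add_tmul, ofAdd_add]

theorem tmk_induction {p : AbTensor Q₁ Q₂ → Prop} (h1 : p 1) (hm : ∀ a b, p a → p b → p (a * b))
    (hmk : ∀ a b, p (tmk a b)) (t : AbTensor Q₁ Q₂) : p t := by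
  refine TensorProduct.induction_on (motive := fun s => p (Multiplicative.ofAdd s))
    (Multiplicative.toAdd t) h1 (fun x y => ?_) fun x y hx hy => hm _ _ hx hy
  obtain ⟨a, ha⟩ := QuotientGroup.mk_surjective (Additive.toMul x)
  obtain ⟨b, hb⟩ := QuotientGroup.mk_surjective (Additive.toMul y)
  have := hmk a b
  simp only [tmk, MonoidHom.mk'_apply] at this
  rwa [show Abelianization.of a = Additive.toMul x from ha,
    show Abelianization.of b = Additive.toMul y from hb] at this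

theorem exists_hom_tmk {K : Type w} [CommGroup K] (P : Q₁ →* (Q₂ →* K)) :
    ∃ τ : AbTensor Q₁ Q₂ →* K, ∀ a b, τ (tmk a b) = P a b := by
  let P' : Q₁ →* (Abelianization Q₂ →* K) :=
    MonoidHom.mk' (fun a => Abelianization.lift (P a)) fun a a' => by
      ext b
      simp
  let P'' : Abelianization Q₁ →* (Abelianization Q₂ →* K) := Abelianization.lift P'
  let f : Additive (Abelianization Q₁) →ₗ[ℤ] Additive (Abelianization Q₂) →ₗ[ℤ] Additive K :=
    LinearMap.mk₂ ℤ (fun a b => Additive.ofMul (P'' a.toMul b.toMul))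
      (fun a a' b => by rw [toMul_add, map_mul, MonoidHom.mul_apply, ofMul_mul])
      (fun c a b => by
        show Additive.ofMul (P'' (a.toMul ^ c) b.toMul) = _
        rw [map_zpow, MonoidHom.zpow_apply, ofMul_zpow])
      (fun a b b' => by rw [toMul_add, map_mul, ofMul_mul])
      (fun c a b => by
        show Additive.ofMul (P'' a.toMul (b.toMul ^ c)) = _
        rw [map_zpow, ofMul_zpow])
  refine ⟨AddMonoidHom.toMultiplicativeLeft (TensorProduct.lift f).toAddMonoidHom, fun a b => ?_⟩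
  simp [tmk, f, P'', P']

theorem finite_abTensor [Finite Q₁] [Finite Q₂] : Finite (AbTensor Q₁ Q₂) := by
  haveI : Module.Finite ℤ (Additive (Abelianization Q₁)) := Module.Finite.of_finite
  haveI : Module.Finite ℤ (Additive (Abelianization Q₂)) := Module.Finite.of_finite
  haveI : Module.Finite ℤ (Additive (Abelianization Q₁) ⊗[ℤ] Additive (Abelianization Q₂)) := by
    refine ⟨⟨(Set.finite_range fun q : Additive (Abelianization Q₁) × Additive (Abelianization Q₂) =>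
      q.1 ⊗ₜ[ℤ] q.2).toFinset, ?_⟩⟩
    rw [Set.Finite.coe_toFinset, eq_top_iff]
    intro s _
    induction s using TensorProduct.induction_on with
    | zero => exact Submodule.zero_mem _
    | tmul x y => exact Submodule.subset_span ⟨(x, y), rfl⟩
    | add x y hx hy => exact Submodule.add_mem _ (hx trivial) (hy trivial)
  haveI : Finite (Additive (Abelianization Q₁) ⊗[ℤ] Additive (Abelianization Q₂)) :=
    Module.finite_of_fg_torsion _ fun {s} => by
      refine ⟨⟨(Nat.card (Additive (Abelianization Q₁)) : ℤ),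
        mem_nonZeroDivisors_of_ne_zero (Int.natCast_ne_zero.2 Nat.card_pos.ne')⟩, ?_⟩
      show ((Nat.card (Additive (Abelianization Q₁)) : ℕ) : ℤ) • s = 0
      rw [natCast_zsmul]
      induction s using TensorProduct.induction_on with
      | zero => simp
      | tmul x y => rw [TensorProduct.smul_tmul', card_nsmul_eq_zero', TensorProduct.zero_tmul]
      | add x y hx hy => rw [nsmul_add, hx, hy, add_zero]
  exact Finite.of_equiv _ Multiplicative.ofAdd

theorem commutator_eq_of_central {Γ : Type w} [Group Γ] {x y x' y' : Γ}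
    (hx : x⁻¹ * x' ∈ Subgroup.center Γ) (hy : y⁻¹ * y' ∈ Subgroup.center Γ) : ⁅x', y'⁆ = ⁅x, y⁆ := by
  have := commutatorElement_central_mul x y hx hy
  rwa [mul_inv_cancel_left, mul_inv_cancel_left] at this

variable [Finite Q₁] [Finite Q₂]

omit [Finite Q₁] [Finite Q₂] in
/-- The kernel of a stem extension of a product. -/
theorem exists_surj_product {Γ : Type w} [Group Γ] (σ : Γ →* Q₁ × Q₂)
    (hσ : Cfsg.IsStemExtension σ) :
    ∃ f : mult (stdPres Q₁) × mult (stdPres Q₂) × AbTensor Q₁ Q₂ →* σ.ker, Function.Surjective f := by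
  classical
  letI cK : CommGroup σ.ker := { (inferInstance : Group σ.ker) with
    mul_comm := fun a b => Subtype.ext (Subgroup.mem_center_iff.1 (hσ.2.1 b.2) a) }
  obtain ⟨η₁, hη₁⟩ := exists_lift (stdPres Q₁) (MonoidHom.inl Q₁ Q₂) σ hσ.1 hσ.2.1
  obtain ⟨η₂, hη₂⟩ := exists_lift (stdPres Q₂) (MonoidHom.inr Q₁ Q₂) σ hσ.1 hσ.2.1
  have h₁ : ∀ x, σ (η₁ x) = (proj (stdPres Q₁) x, 1) := DFunLike.congr_fun hη₁
  have h₂ : ∀ y, σ (η₂ y) = (1, proj (stdPres Q₂) y) := DFunLike.congr_fun hη₂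
  have hcen : ∀ g g' : Γ, σ g = σ g' → g⁻¹ * g' ∈ Subgroup.center Γ := fun g g' h =>
    hσ.2.1 (by rw [MonoidHom.mem_ker, map_mul, map_inv, h, inv_mul_cancel])
  choose A hA using fun q : Q₁ => hσ.1 (q, 1)
  choose B hB using fun q : Q₂ => hσ.1 (1, q)
  have hk : ∀ a b, ⁅A a, B b⁆ ∈ σ.ker := fun a b => by
    rw [MonoidHom.mem_ker, map_commutatorElement, hA, hB, commutatorElement_eq_one_iff_commute]
    exact Prod.ext (by simp) (by simp)
  have hzc : ∀ a b, ⁅A a, B b⁆ ∈ Subgroup.center Γ := fun a b => hσ.2.1 (hk a b)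
  have hr : ∀ a b b', ⁅A a, B (b * b')⁆ = ⁅A a, B b⁆ * ⁅A a, B b'⁆ := fun a b b' => by
    rw [commutator_eq_of_central (x := A a) (y := B b * B b')
      (hcen _ _ rfl) (hcen _ _ (by rw [map_mul, hB, hB, hB]; simp)),
      show ⁅A a, B b * B b'⁆ = ⁅A a, B b⁆ * (B b * ⁅A a, B b'⁆ * (B b)⁻¹) by
        simp only [commutatorElement_def]; group,
      Subgroup.mem_center_iff.1 (hzc a b') (B b), mul_inv_cancel_right]
  have hl : ∀ a a' b, ⁅A (a * a'), B b⁆ = ⁅A a, B b⁆ * ⁅A a', B b⁆ := fun a a' b => by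
    rw [commutator_eq_of_central (x := A a * A a') (y := B b)
      (hcen _ _ (by rw [map_mul, hA, hA, hA]; simp)) (hcen _ _ rfl),
      show ⁅A a * A a', B b⁆ = A a * ⁅A a', B b⁆ * (A a)⁻¹ * ⁅A a, B b⁆ by
        simp only [commutatorElement_def]; group,
      Subgroup.mem_center_iff.1 (hzc a' b) (A a), mul_inv_cancel_right]
    exact (Subgroup.mem_center_iff.1 (hzc a' b) _).symm
  obtain ⟨τ, hτ⟩ := exists_hom_tmk (K := σ.ker) (MonoidHom.mk'
    (fun a => MonoidHom.mk' (fun b => (⟨⁅A a, B b⁆, hk a b⟩ : σ.ker))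
      fun b b' => Subtype.ext (hr a b b'))
    fun a a' => MonoidHom.ext fun b => Subtype.ext (hl a a' b))
  have hpair : ∀ x y, ⁅η₁ x, η₂ y⁆ =
      (τ (tmk (proj (stdPres Q₁) x) (proj (stdPres Q₂) y)) : Γ) := fun x y => by
    rw [hτ]
    exact commutator_eq_of_central (hcen _ _ (by rw [hA, h₁])) (hcen _ _ (by rw [hB, h₂]))
  have hcom1 : ∀ x ∈ commutator (UGrp (stdPres Q₁)), ∀ y, Commute (η₁ x) (η₂ y) := fun x hx y => by
    rw [← commutatorElement_eq_one_iff_commute, hpair]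
    have h1 : tmk (Q₂ := Q₂) (proj (stdPres Q₁) x) = 1 :=
      Abelianization.commutator_subset_ker (tmk.comp (proj (stdPres Q₁))) hx
    rw [h1, MonoidHom.one_apply, map_one, Subgroup.coe_one]
  have hcom2 : ∀ x, ∀ y ∈ commutator (UGrp (stdPres Q₂)), Commute (η₁ x) (η₂ y) := fun x y hy => by
    rw [← commutatorElement_eq_one_iff_commute, hpair]
    have h1 : tmk (proj (stdPres Q₁) x) (proj (stdPres Q₂) y) = 1 :=
      Abelianization.commutator_subset_ker ((tmk (proj (stdPres Q₁) x)).comp (proj (stdPres Q₂))) hy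
    rw [h1, map_one, Subgroup.coe_one]
  have hτc : ∀ t (g : Γ), Commute (τ t : Γ) g := fun t g =>
    (Subgroup.mem_center_iff.1 (hσ.2.1 (τ t).2) g).symm
  let h : commutator (UGrp (stdPres Q₁)) × commutator (UGrp (stdPres Q₂)) × AbTensor Q₁ Q₂ →* Γ :=
    MonoidHom.mk' (fun q => η₁ q.1 * (η₂ q.2.1 * (τ q.2.2 : Γ))) fun q r => by
      simp only [Prod.fst_mul, Prod.snd_mul, Subgroup.coe_mul, map_mul]
      have e1 : Commute (η₁ r.1) (η₂ q.2.1) := hcom1 _ r.1.2 _
      have e2 := hτc q.2.2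
      calc η₁ q.1 * η₁ r.1 * (η₂ q.2.1 * η₂ r.2.1 * ((τ q.2.2 : Γ) * τ r.2.2))
          = η₁ q.1 * (η₁ r.1 * η₂ q.2.1) * (η₂ r.2.1 * (τ q.2.2 : Γ)) * τ r.2.2 := by group
        _ = η₁ q.1 * η₂ q.2.1 * (η₁ r.1 * ((τ q.2.2 : Γ) * η₂ r.2.1)) * τ r.2.2 := by
          rw [e1.eq, (e2 (η₂ r.2.1)).eq]; group
        _ = η₁ q.1 * (η₂ q.2.1 * (τ q.2.2 : Γ)) * (η₁ r.1 * (η₂ r.2.1 * (τ r.2.2 : Γ))) := by
          rw [← mul_assoc (η₁ r.1), ← (e2 (η₁ r.1)).eq]; group
  have hdec : ∀ g : Γ, ∃ x y, ∃ k ∈ σ.ker, g = η₁ x * η₂ y * k := by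
    intro g
    obtain ⟨x, hx⟩ := proj_surjective _ (stdPres_surjective Q₁) (σ g).1
    obtain ⟨y, hy⟩ := proj_surjective _ (stdPres_surjective Q₂) (σ g).2
    refine ⟨x, y, (η₁ x * η₂ y)⁻¹ * g, ?_, (mul_inv_cancel_left _ _).symm⟩
    rw [MonoidHom.mem_ker, map_mul, map_inv, map_mul, h₁, h₂, hx, hy]
    ext <;> simp
  have hn : h.range.Normal := ⟨by
    rintro _ ⟨q, rfl⟩ g
    obtain ⟨x, y, k, hk', rfl⟩ := hdec g
    refine ⟨(⟨x * q.1 * x⁻¹, Subgroup.Normal.conj_mem inferInstance _ q.1.2 x⟩,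
      ⟨y * q.2.1 * y⁻¹, Subgroup.Normal.conj_mem inferInstance _ q.2.1.2 y⟩, q.2.2), ?_⟩
    have e0 := Subgroup.mem_center_iff.1 (hσ.2.1 hk') (h q)
    have e1 : Commute (η₁ q.1) (η₂ y) := hcom1 _ q.1.2 _
    have e2 : Commute (η₁ x) (η₂ (y * q.2.1 * y⁻¹)) :=
      hcom2 _ _ (Subgroup.Normal.conj_mem inferInstance _ q.2.1.2 y)
    have e3 := hτc q.2.2
    rw [mul_inv_rev (η₁ x * η₂ y), show η₁ x * η₂ y * k * h q * (k⁻¹ * (η₁ x * η₂ y)⁻¹) =
      η₁ x * η₂ y * (k * h q * k⁻¹) * (η₁ x * η₂ y)⁻¹ by group, ← e0, mul_inv_cancel_right]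
    show η₁ (x * q.1 * x⁻¹) * (η₂ (y * q.2.1 * y⁻¹) * (τ q.2.2 : Γ)) =
      η₁ x * η₂ y * (η₁ q.1 * (η₂ q.2.1 * (τ q.2.2 : Γ))) * (η₁ x * η₂ y)⁻¹
    calc η₁ (x * q.1 * x⁻¹) * (η₂ (y * q.2.1 * y⁻¹) * (τ q.2.2 : Γ))
        = η₁ x * η₁ q.1 * ((η₁ x)⁻¹ * η₂ (y * q.2.1 * y⁻¹)) * (τ q.2.2 : Γ) := by
          simp only [map_mul, map_inv]; group
      _ = η₁ x * (η₁ q.1 * η₂ y) * η₂ q.2.1 * (η₂ y)⁻¹ * ((η₁ x)⁻¹ * (τ q.2.2 : Γ)) := by
          rw [e2.inv_left.eq]; simp only [map_mul, map_inv]; group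
      _ = η₁ x * η₂ y * η₁ q.1 * η₂ q.2.1 * ((η₂ y)⁻¹ * (τ q.2.2 : Γ)) * (η₁ x)⁻¹ := by
          rw [e1.eq, ← (e3 (η₁ x)⁻¹).eq]; group
      _ = _ := by rw [← (e3 (η₂ y)⁻¹).eq]; group⟩
  have hle : commutator Γ ≤ h.range := by
    haveI := hn
    have hm : ∀ g, g ∈ h.range → (g : Γ ⧸ h.range) = 1 := fun g => (QuotientGroup.eq_one_iff g).2
    have c11 : ∀ x x', Commute (η₁ x : Γ ⧸ h.range) (η₁ x') := fun x x' => by
      rw [← commutatorElement_eq_one_iff_commute]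
      refine (map_commutatorElement (QuotientGroup.mk' h.range) (η₁ x) (η₁ x')).symm.trans (hm _ ?_)
      exact ⟨(⟨⁅x, x'⁆, Subgroup.commutator_mem_commutator (Subgroup.mem_top _) (Subgroup.mem_top _)⟩,
        1, 1), by simp [h]⟩
    have c22 : ∀ y y', Commute (η₂ y : Γ ⧸ h.range) (η₂ y') := fun y y' => by
      rw [← commutatorElement_eq_one_iff_commute]
      refine (map_commutatorElement (QuotientGroup.mk' h.range) (η₂ y) (η₂ y')).symm.trans (hm _ ?_)
      exact ⟨(1, ⟨⁅y, y'⁆, Subgroup.commutator_mem_commutator (Subgroup.mem_top _) (Subgroup.mem_top _)⟩,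
        1), by simp [h]⟩
    have c12 : ∀ x y, Commute (η₁ x : Γ ⧸ h.range) (η₂ y) := fun x y => by
      rw [← commutatorElement_eq_one_iff_commute]
      refine (map_commutatorElement (QuotientGroup.mk' h.range) (η₁ x) (η₂ y)).symm.trans (hm _ ?_)
      exact ⟨(1, 1, tmk (proj (stdPres Q₁) x) (proj (stdPres Q₂) y)), by simp [h, hpair]⟩
    rw [_root_.commutator_def, Subgroup.commutator_le]
    rintro g - g' -
    obtain ⟨x, y, k, hk', rfl⟩ := hdec g
    obtain ⟨x', y', k', hk'', rfl⟩ := hdec g'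
    rw [commutator_eq_of_central (x := η₁ x * η₂ y) (y := η₁ x' * η₂ y')
      (by rw [inv_mul_cancel_left]; exact hσ.2.1 hk') (by rw [inv_mul_cancel_left]; exact hσ.2.1 hk''),
      ← QuotientGroup.eq_one_iff]
    refine (map_commutatorElement (QuotientGroup.mk' h.range) _ _).trans ?_
    rw [commutatorElement_eq_one_iff_commute, map_mul, map_mul]
    exact ((c11 x x').mul_right (c12 x y')).mul_left (((c12 x' y).symm).mul_right (c22 y y'))
  have hm1 : ∀ m : mult (stdPres Q₁), η₁ m ∈ σ.ker := fun m => by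
    rw [MonoidHom.mem_ker, h₁, MonoidHom.mem_ker.1 (mult_le_ker _ m.2)]; rfl
  have hm2 : ∀ m : mult (stdPres Q₂), η₂ m ∈ σ.ker := fun m => by
    rw [MonoidHom.mem_ker, h₂, MonoidHom.mem_ker.1 (mult_le_ker _ m.2)]; rfl
  let f1 : mult (stdPres Q₁) →* σ.ker := (η₁.comp (mult (stdPres Q₁)).subtype).codRestrict _ hm1
  let f2 : mult (stdPres Q₂) →* σ.ker := (η₂.comp (mult (stdPres Q₂)).subtype).codRestrict _ hm2
  refine ⟨f1.coprod (f2.coprod τ), fun z => ?_⟩
  obtain ⟨⟨c, d, t⟩, hq⟩ := hle (hσ.2.2 z.2)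
  have hσz : σ (η₁ c * (η₂ d * (τ t : Γ))) = 1 := by
    rw [show η₁ c * (η₂ d * (τ t : Γ)) = z from hq]; exact z.2
  rw [map_mul, map_mul, h₁, h₂, MonoidHom.mem_ker.1 (τ t).2, mul_one] at hσz
  have hc : (c : UGrp (stdPres Q₁)) ∈ mult (stdPres Q₁) :=
    ⟨by simpa using congrArg Prod.fst hσz, c.2⟩
  have hd : (d : UGrp (stdPres Q₂)) ∈ mult (stdPres Q₂) :=
    ⟨by simpa using congrArg Prod.snd hσz, d.2⟩
  exact ⟨(⟨c, hc⟩, ⟨d, hd⟩, t), Subtype.ext hq⟩

end Product

section Cover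

variable {Q₁ : Type u} {Q₂ : Type v} [Group Q₁] [Group Q₂] [Finite Q₁] [Finite Q₂]

theorem hasSchurMultiplier_prod {A B : Type w} [CommGroup A] [CommGroup B]
    (hA : Cfsg.HasSchurMultiplier Q₁ A) (hB : Cfsg.HasSchurMultiplier Q₂ B)
    {T : Type x} [CommGroup T] (eT : AbTensor Q₁ Q₂ ≃* T) :
    Cfsg.HasSchurMultiplier (Q₁ × Q₂) (A × B × T) := by
  haveI := finite_abTensor (Q₁ := Q₁) (Q₂ := Q₂)
  obtain ⟨Γ₁, _, _, σ₁, hσ₁, ⟨e₁⟩⟩ := hA.1
  obtain ⟨Γ₂, _, _, σ₂, hσ₂, ⟨e₂⟩⟩ := hB.1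
  let β : Γ₁ × Γ₂ →* (Γ₁ × Γ₂ →* AbTensor Q₁ Q₂) :=
    MonoidHom.mk' (fun g => (tmk (σ₁ g.1)).comp (σ₂.comp (MonoidHom.snd Γ₁ Γ₂))) fun g g' => by
      ext q
      simp
  let π : PExt β →* Q₁ × Q₂ := (σ₁.prodMap σ₂).comp (pProj β)
  have hker : ∀ p : PExt β, p ∈ π.ker ↔ p.base.1 ∈ σ₁.ker ∧ p.base.2 ∈ σ₂.ker := fun p => by
    rw [MonoidHom.mem_ker, MonoidHom.mem_ker, MonoidHom.mem_ker]
    exact Prod.ext_iff
  have hTc : ∀ t, pIncl β t ∈ commutator (PExt β) := by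
    intro t
    induction t using tmk_induction with
    | h1 => rw [map_one]; exact one_mem _
    | hm a b ha hb => rw [map_mul]; exact mul_mem ha hb
    | hmk a b =>
      obtain ⟨g, rfl⟩ := hσ₁.1 a
      obtain ⟨g', rfl⟩ := hσ₂.1 b
      have h1 := pIncl_commutator β (g, 1) (1, g') (by simp)
      have h2 : β (g, 1) (1, g') * (β (1, g') (g, 1))⁻¹ = tmk (σ₁ g) (σ₂ g') := by simp [β]
      rw [h2] at h1
      rw [← h1]
      exact Subgroup.commutator_mem_commutator (Subgroup.mem_top _) (Subgroup.mem_top _)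
  have hst : Cfsg.IsStemExtension π := by
    refine ⟨?_, fun p hp => ?_, fun p hp => ?_⟩
    · rintro ⟨a, b⟩
      obtain ⟨g, rfl⟩ := hσ₁.1 a
      obtain ⟨g', rfl⟩ := hσ₂.1 b
      exact ⟨⟨(g, g'), 1⟩, rfl⟩
    · rw [hker] at hp
      rw [Subgroup.mem_center_iff]
      intro q
      ext
      · exact Subgroup.mem_center_iff.1 (hσ₁.2.1 hp.1) q.base.1
      · exact Subgroup.mem_center_iff.1 (hσ₂.2.1 hp.2) q.base.2
      · simp only [PExt.mul_fib]
        have h1 : β p.base q.base = 1 := by simp [β, MonoidHom.mem_ker.1 hp.1]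
        have h2 : β q.base p.base = 1 := by simp [β, MonoidHom.mem_ker.1 hp.2]
        rw [h1, h2, mul_comm p.fib]
    · rw [hker] at hp
      have hsurj : Function.Surjective (pProj β) := fun g => ⟨⟨g, 1⟩, rfl⟩
      have hb : p.base ∈ (commutator (PExt β)).map (pProj β) := by
        rw [_root_.commutator_def, Subgroup.map_commutator, Subgroup.map_top_of_surjective _ hsurj,
          ← Subgroup.top_prod_top, Subgroup.commutator_prod_prod]
        exact Subgroup.mem_prod.2 ⟨hσ₁.2.2 hp.1, hσ₂.2.2 hp.2⟩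
      obtain ⟨d, hd, hdb⟩ := hb
      have : d⁻¹ * p = pIncl β (d⁻¹ * p).fib := by
        refine PExt.ext ?_ rfl
        show d.base⁻¹ * p.base = 1
        rw [show p.base = d.base from hdb.symm, inv_mul_cancel]
      rw [← mul_inv_cancel_left d p, this]
      exact mul_mem hd (hTc _)
  let k : π.ker ≃* σ₁.ker × σ₂.ker × AbTensor Q₁ Q₂ :=
    { toFun := fun p => (⟨p.1.base.1, ((hker p.1).1 p.2).1⟩, ⟨p.1.base.2, ((hker p.1).1 p.2).2⟩, p.1.fib)
      invFun := fun q => ⟨⟨(q.1, q.2.1), q.2.2⟩, (hker _).2 ⟨q.1.2, q.2.1.2⟩⟩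
      left_inv := fun p => rfl
      right_inv := fun q => rfl
      map_mul' := fun p q => by
        refine Prod.ext (Subtype.ext rfl) (Prod.ext (Subtype.ext rfl) ?_)
        show p.1.fib * q.1.fib * β p.1.base q.1.base = p.1.fib * q.1.fib
        have h1 : β p.1.base q.1.base = 1 := by
          simp [β, MonoidHom.mem_ker.1 ((hker p.1).1 p.2).1]
        rw [h1, mul_one] }
  haveI : Finite (PExt β) := inferInstance
  refine ⟨⟨PExt β, inferInstance, inferInstance, π, hst, ⟨k.trans (e₁.prodCongr (e₂.prodCongr eT))⟩⟩,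
    fun Γ _ _ σ hσ => ?_⟩
  obtain ⟨f, hf⟩ := exists_surj_product σ hσ
  obtain ⟨-, ⟨m₁⟩⟩ := mult_equiv _ (stdPres_surjective Q₁) hA
  obtain ⟨-, ⟨m₂⟩⟩ := mult_equiv _ (stdPres_surjective Q₂) hB
  exact ⟨f.comp (m₁.prodCongr (m₂.prodCongr eT)).symm.toMonoidHom,
    hf.comp (MulEquiv.surjective _)⟩

end Cover

end Cfsg.Agent.Lib.SchurMult
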