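import Cfsg.Agent.Lib.SchurMult.Basic
import Cfsg.Agent.Lib.Char.Kernel
import Cfsg.Agent.Lib.Char.Scalar

/-!
# Lifting projective representations
-/

set_option autoImplicit false

namespace Cfsg.Agent.Lib.SchurMult

open Subgroup Matrix
open scoped commutatorElement IsMulCommutative

universe u v w

theorem center_gl_pow_surjective (n : ℕ) {k : ℕ} (hk : 0 < k)
    (z : center (GL (Fin n) ℂ)) : ∃ w : center (GL (Fin n) ℂ), w ^ k = z := by
  obtain ⟨a, ha⟩ := (GeneralLinearGroup.center_eq_range_scalar (n := Fin n) (R := ℂ)).le z.2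
  obtain ⟨b, hb⟩ := IsAlgClosed.exists_pow_nat_eq ((a : ℂˣ) : ℂ) hk
  have hb0 : b ≠ 0 := by
    rintro rfl
    exact a.ne_zero (by rw [← hb, zero_pow hk.ne'])
  refine ⟨⟨GeneralLinearGroup.scalar (Fin n) (Units.mk0 b hb0),
    (GeneralLinearGroup.center_eq_range_scalar (n := Fin n) (R := ℂ)).ge ⟨_, rfl⟩⟩, Subtype.ext ?_⟩
  rw [SubgroupClass.coe_pow, ← map_pow, ← ha]
  exact congrArg _ (Units.ext hb)

theorem center_gl_baer (n : ℕ) :
    Module.Baer ℤ (Additive (center (GL (Fin n) ℂ))) := by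
  haveI : DivisibleBy (Additive (center (GL (Fin n) ℂ))) ℤ :=
    divisibleByOfSMulRightSurj _ _ fun {m} hm x => by
      obtain ⟨w, hw⟩ := center_gl_pow_surjective n (Int.natAbs_pos.mpr hm) (Additive.toMul x)
      rcases Int.natAbs_eq m with h | h
      · refine ⟨Additive.ofMul w, ?_⟩
        show m • Additive.ofMul w = x
        rw [h, natCast_zsmul, ← ofMul_pow, hw, ofMul_toMul]
      · refine ⟨-Additive.ofMul w, ?_⟩
        show m • -Additive.ofMul w = x
        rw [h, neg_zsmul, zsmul_neg, neg_neg, natCast_zsmul, ← ofMul_pow, hw, ofMul_toMul]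
  exact Module.Baer.of_divisible _

variable {X : Type u} {Q : Type u} [Group Q] (φ : FreeGroup X →* Q)
variable {Γ : Type v} [Group Γ] {σ : Γ →* Q} {η : UGrp φ →* Γ}

/-- If the lift is injective on the multiplier, projective representations lift. -/
theorem exists_gl_lift (hφ : Function.Surjective φ) (hσ : Cfsg.IsStemExtension σ)
    (hη : σ.comp η = proj φ) (hinj : ∀ m ∈ mult φ, η m = 1 → m = 1) (n : ℕ)
    (γ : Q →* (GL (Fin n) ℂ ⧸ center (GL (Fin n) ℂ))) :
    ∃ ρ : Γ →* GL (Fin n) ℂ,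
      (QuotientGroup.mk' (center (GL (Fin n) ℂ))).comp ρ = γ.comp σ := by
  set Z := center (GL (Fin n) ℂ)
  obtain ⟨ρ₀, hρ₀⟩ := exists_lift φ γ (QuotientGroup.mk' Z) (QuotientGroup.mk'_surjective Z)
    (QuotientGroup.ker_mk' Z).le
  have hρZ : ∀ z ∈ (proj φ).ker, ρ₀ z ∈ Z := by
    intro z hz
    rw [← QuotientGroup.eq_one_iff]
    show QuotientGroup.mk' Z (ρ₀ z) = 1
    rw [← MonoidHom.comp_apply, hρ₀, MonoidHom.comp_apply, MonoidHom.mem_ker.mp hz, map_one]
  haveI : IsMulCommutative η.ker := ⟨⟨fun a b => Subtype.ext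
    (mem_center_iff.mp (ker_proj_le_center φ (ker_lift_le φ hη b.2)) a)⟩⟩
  let f : Additive η.ker →+ (X →₀ ℤ) :=
    MonoidHom.toAdditiveRight ((ab φ).comp η.ker.subtype)
  have hf : Function.Injective f := by
    rw [injective_iff_map_eq_zero]
    intro y hy
    have h1 : ab φ ((Additive.toMul y : η.ker) : UGrp φ) = 1 :=
      Multiplicative.toAdd.injective hy
    have h2 : ((Additive.toMul y : η.ker) : UGrp φ) = 1 :=
      hinj _ ((mem_mult_iff φ).mpr
        ⟨MonoidHom.mem_ker.mp (ker_lift_le φ hη (Additive.toMul y).2), h1⟩) (Additive.toMul y).2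
    exact Additive.toMul.injective (Subtype.ext h2)
  let g : Additive η.ker →+ Additive Z := MonoidHom.toAdditive
    ((ρ₀.comp η.ker.subtype).codRestrict Z fun y => hρZ _ (ker_lift_le φ hη y.2))
  obtain ⟨h, hh⟩ := (center_gl_baer n).extension_property_addMonoidHom f hf g
  let μ : UGrp φ →* Z := (AddMonoidHom.toMultiplicativeLeft h).comp (ab φ)
  have hμ : ∀ y ∈ η.ker, (μ y : GL (Fin n) ℂ) = ρ₀ y := by
    intro y hy
    have := DFunLike.congr_fun hh (Additive.ofMul (⟨y, hy⟩ : η.ker))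
    exact congrArg (fun t : Additive Z => ((Additive.toMul t : Z) : GL (Fin n) ℂ)) this
  have hcz : ∀ (z : Z) (g : GL (Fin n) ℂ), g * (z : GL (Fin n) ℂ) = z * g := fun z g =>
    mem_center_iff.mp z.2 g
  let ρ₁ : UGrp φ →* GL (Fin n) ℂ :=
    { toFun := fun y => ρ₀ y * ((μ y)⁻¹ : Z)
      map_one' := by simp
      map_mul' := fun a b => by
        rw [map_mul, map_mul, _root_.mul_inv_rev, Subgroup.coe_mul, ← mul_assoc,
          mul_assoc (ρ₀ a) (ρ₀ b), hcz, hcz ((μ a)⁻¹)]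
        group }
  have hk : η.ker ≤ ρ₁.ker := fun y hy => by
    rw [MonoidHom.mem_ker]
    show ρ₀ y * ((μ y)⁻¹ : Z) = 1
    rw [Subgroup.coe_inv, hμ y hy, mul_inv_cancel]
  refine ⟨η.liftOfRightInverse (Function.surjInv (lift_surjective φ hφ hσ hη))
    (Function.rightInverse_surjInv _) ⟨ρ₁, hk⟩, MonoidHom.ext fun x => ?_⟩
  obtain ⟨y, rfl⟩ := lift_surjective φ hφ hσ hη x
  rw [MonoidHom.comp_apply, MonoidHom.liftOfRightInverse_comp_apply, MonoidHom.comp_apply,
    lift_apply φ hη, show γ (proj φ y) = QuotientGroup.mk' Z (ρ₀ y) from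
      (DFunLike.congr_fun hρ₀ y).symm]
  show QuotientGroup.mk' Z (ρ₀ y * ((μ y)⁻¹ : Z)) = QuotientGroup.mk' Z (ρ₀ y)
  rw [map_mul, show QuotientGroup.mk' Z (((μ y)⁻¹ : Z) : GL (Fin n) ℂ) = 1 from
    (QuotientGroup.eq_one_iff _).mpr (Subtype.coe_prop _), mul_one]

/-- If all projective representations lift along `σ`, the lift is injective on the multiplier. -/
theorem injective_of_gl_lift [Finite Q] [Finite X] (hφ : Function.Surjective φ)
    (hη : σ.comp η = proj φ)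
    (hlift : ∀ (n : ℕ) (γ : Q →* (GL (Fin n) ℂ ⧸ center (GL (Fin n) ℂ))),
      ∃ ρ : Γ →* GL (Fin n) ℂ, (QuotientGroup.mk' (center (GL (Fin n) ℂ))).comp ρ = γ.comp σ) :
    ∀ m ∈ mult φ, η m = 1 → m = 1 := by
  intro m hm hm1
  by_contra hne
  obtain ⟨L, hL⟩ := exists_compl_ker φ
  haveI := hL.normal
  obtain ⟨hfin, hst, -⟩ := cover_of_compl φ hφ hL
  haveI := hfin
  haveI := Fintype.ofFinite (UGrp φ ⧸ L)
  set q := QuotientGroup.mk' L with hq
  have hqm : q m ≠ 1 := fun h => hne (by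
    have h2 : m ∈ L ⊓ mult φ := ⟨(QuotientGroup.eq_one_iff _).mp h, hm⟩
    rwa [hL.inf_eq_bot, Subgroup.mem_bot] at h2)
  obtain ⟨χ, hχ⟩ : ∃ χ : Cfsg.IrrCharacter (UGrp φ ⧸ L),
      (χ : (UGrp φ ⧸ L) → ℂ) (q m) ≠ (χ : (UGrp φ ⧸ L) → ℂ) 1 := by
    by_contra h
    push Not at h
    exact hqm (Cfsg.Agent.Lib.Char.eq_one_of_forall_irr h)
  obtain ⟨χ, n, r, hr, rfl⟩ := χ
  haveI := hr
  have hne1 : r (q m) ≠ 1 := fun h => hχ (by
    show r.character _ = r.character 1
    simp only [Representation.character, h, map_one])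
  let R : UGrp φ ⧸ L →* GL (Fin n) ℂ := GeneralLinearGroup.toLin.symm.toMonoidHom.comp r.toHomUnits
  set Z := center (GL (Fin n) ℂ)
  have hRc : ∀ y ∈ center (UGrp φ ⧸ L), R y ∈ Z := by
    intro y hy
    obtain ⟨c, hc⟩ := Cfsg.Agent.Lib.Char.exists_scalar_of_mem_center r hy
    rw [mem_center_iff]
    intro g
    apply (GeneralLinearGroup.toLin (n := Fin n) (R := ℂ)).injective
    rw [map_mul, map_mul]
    show GeneralLinearGroup.toLin g * GeneralLinearGroup.toLin (GeneralLinearGroup.toLin.symm (r.toHomUnits y)) = _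
    simp only [R, MonoidHom.comp_apply, MulEquiv.coe_toMonoidHom, MulEquiv.apply_symm_apply]
    refine Units.ext ?_
    show (GeneralLinearGroup.toLin g : Module.End ℂ (Fin n → ℂ)) * r y = r y * _
    rw [hc, mul_smul_comm, smul_mul_assoc, mul_one, one_mul]
  set π := QuotientGroup.lift L (proj φ) hL.le_ker with hπ
  have hkerπ : π.ker ≤ ((QuotientGroup.mk' Z).comp R).ker := fun y hy =>
    MonoidHom.mem_ker.mpr ((QuotientGroup.eq_one_iff _).mpr (hRc y (hst.2.1 hy)))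
  obtain ⟨γ, hγ⟩ : ∃ γ : Q →* GL (Fin n) ℂ ⧸ Z, γ.comp π = (QuotientGroup.mk' Z).comp R :=
    ⟨π.liftOfRightInverse (Function.surjInv hst.1) (Function.rightInverse_surjInv _) ⟨_, hkerπ⟩,
      MonoidHom.ext fun y => π.liftOfRightInverse_comp_apply _ (Function.rightInverse_surjInv hst.1) ⟨_, hkerπ⟩ y⟩
  obtain ⟨ρ, hρ⟩ := hlift n γ
  have hcen : ∀ y, (ρ (η y))⁻¹ * R (q y) ∈ Z := by
    intro y
    rw [← QuotientGroup.eq_one_iff]
    show QuotientGroup.mk' Z ((ρ (η y))⁻¹ * R (q y)) = 1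
    rw [map_mul, map_inv, ← MonoidHom.comp_apply, hρ, ← MonoidHom.comp_apply (QuotientGroup.mk' Z) R,
      ← hγ, MonoidHom.comp_apply, MonoidHom.comp_apply, lift_apply φ hη]
    show (γ (proj φ y))⁻¹ * γ (proj φ y) = 1
    rw [inv_mul_cancel]
  let d : UGrp φ →* Z :=
    { toFun := fun y => ⟨(ρ (η y))⁻¹ * R (q y), hcen y⟩
      map_one' := Subtype.ext (by simp)
      map_mul' := fun a b => Subtype.ext (by
        show (ρ (η (a * b)))⁻¹ * R (q (a * b)) = (ρ (η a))⁻¹ * R (q a) * ((ρ (η b))⁻¹ * R (q b))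
        rw [map_mul, map_mul, map_mul, map_mul, _root_.mul_inv_rev,
          show (ρ (η b))⁻¹ * (ρ (η a))⁻¹ * (R (q a) * R (q b)) =
            (ρ (η b))⁻¹ * ((ρ (η a))⁻¹ * R (q a)) * R (q b) by group,
          mem_center_iff.mp (hcen a) (ρ (η b))⁻¹]
        group) }
  have hd : d m = 1 := Abelianization.commutator_subset_ker d hm.2
  have h2 : (ρ (η m))⁻¹ * R (q m) = 1 := congrArg Subtype.val hd
  rw [hm1, map_one, inv_one, one_mul] at h2
  refine hne1 ?_
  have h3 := congrArg GeneralLinearGroup.toLin h2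
  simp only [R, MonoidHom.comp_apply, MulEquiv.coe_toMonoidHom, MulEquiv.apply_symm_apply,
    map_one] at h3
  exact congrArg Units.val h3

/-- If the source has trivial multiplier, the lift is injective on the multiplier. -/
theorem injective_of_trivial [Finite Q] [Finite X] [Finite Γ] (hφ : Function.Surjective φ)
    (hσ : Cfsg.IsStemExtension σ) (hη : σ.comp η = proj φ)
    (hΓ : Cfsg.HasCyclicSchurMultiplier Γ 1) : ∀ m ∈ mult φ, η m = 1 → m = 1 := by
  obtain ⟨L, hLle, hL⟩ := exists_compl φ η.ker (ker_lift_le φ hη) fun z hz => by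
    obtain ⟨m, hm, e⟩ := ker_le_map_mult φ hφ hσ hη (show η z ∈ σ.ker by
      rw [MonoidHom.mem_ker, lift_apply φ hη]; exact hz)
    refine ⟨z * m⁻¹, by rw [MonoidHom.mem_ker, map_mul, map_inv, e, mul_inv_cancel], ?_⟩
    rw [map_mul, map_inv, ((mem_mult_iff φ).mp hm).2, inv_one, mul_one]
  haveI := hL.normal
  obtain ⟨hfin, hst, -⟩ := cover_of_compl φ hφ hL
  haveI := hfin
  set β := QuotientGroup.lift L η hLle with hβ
  have hkerle : β.ker ≤ (QuotientGroup.lift L (proj φ) hL.le_ker).ker := fun y hy => by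
    obtain ⟨z, rfl⟩ := QuotientGroup.mk'_surjective L y
    exact MonoidHom.mem_ker.mpr (ker_lift_le φ hη hy)
  have hβst : Cfsg.IsStemExtension β := by
    refine ⟨fun g => ?_, hkerle.trans hst.2.1, hkerle.trans hst.2.2⟩
    obtain ⟨z, rfl⟩ := lift_surjective φ hφ hσ hη g
    exact ⟨QuotientGroup.mk' L z, rfl⟩
  have hbot := stem_ker_eq_bot hΓ hβst
  intro m hm hm1
  have h1 : QuotientGroup.mk' L m ∈ β.ker := hm1
  rw [hbot, Subgroup.mem_bot] at h1
  have h2 : m ∈ L ⊓ mult φ := ⟨(QuotientGroup.eq_one_iff _).mp h1, hm⟩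
  rwa [hL.inf_eq_bot, Subgroup.mem_bot] at h2

end Cfsg.Agent.Lib.SchurMult
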