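import Cfsg.Agent.Lib.SchurMult.Basic

/-! The abelianised kernel has full rank. -/

set_option autoImplicit false

namespace Cfsg.Agent.Lib.SchurMult

universe u

variable {X : Type u} {Q : Type u} [Group Q] (φ : FreeGroup X →* Q)

theorem ab_surjective : Function.Surjective (ab φ) := by
  intro v
  obtain ⟨v, rfl⟩ := Multiplicative.ofAdd.surjective v
  induction v using Finsupp.induction_linear with
  | zero => exact ⟨1, by simp⟩
  | add a b ha hb =>
    obtain ⟨x, hx⟩ := ha
    obtain ⟨y, hy⟩ := hb
    exact ⟨x * y, by rw [map_mul, hx, hy, ofAdd_add]⟩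
  | single x c =>
    refine ⟨QuotientGroup.mk' _ (FreeGroup.of x) ^ c, ?_⟩
    rw [map_zpow, show ab φ (QuotientGroup.mk' (relCore φ) (FreeGroup.of x)) =
        Multiplicative.ofAdd (Finsupp.single x 1) from FreeGroup.lift_apply_of, ← ofAdd_zsmul]
    simp

/-- A submodule containing a nonzero multiple of everything has full rank. -/
theorem finrank_eq_of_smul_mem [Fintype X] (W : Submodule ℤ (X →₀ ℤ)) {k : ℤ} (hk : k ≠ 0)
    (h : ∀ v : X →₀ ℤ, k • v ∈ W) : Module.finrank ℤ W = Fintype.card X := by
  refine le_antisymm ((Submodule.finrank_le W).trans_eq (Module.finrank_finsupp_self ℤ)) ?_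
  have hinj : Function.Injective (LinearMap.codRestrict W (k • LinearMap.id) h) := by
    intro a b hab
    exact smul_right_injective (X →₀ ℤ) hk (congrArg Subtype.val hab)
  exact (Module.finrank_finsupp_self ℤ).symm.le.trans (LinearMap.finrank_le_finrank_of_injective hinj)

theorem ab_zpow_card_mem [Finite Q] (u : UGrp φ) :
    ∃ z ∈ (proj φ).ker, ab φ z = ab φ u ^ (Nat.card Q : ℤ) :=
  ⟨u ^ (Nat.card Q : ℤ), by rw [MonoidHom.mem_ker, map_zpow, zpow_natCast, pow_card_eq_one'],
    map_zpow _ _ _⟩

end Cfsg.Agent.Lib.SchurMult
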