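import Cfsg.Agent.Lib.SchurMult.EngineFast
import Cfsg.Agent.Lib.SchurMult.TitsData

/-! Kernel checks for the multiplier of the Tits group. -/

set_option autoImplicit false
set_option maxRecDepth 100000

namespace Cfsg.Agent.Lib.SchurMult.Tits

theorem closed0 : Engine.Data.closed₂ 11 tableTwo 0 256 = true := by decide +kernel

theorem closed1 : Engine.Data.closed₂ 11 tableTwo 256 256 = true := by decide +kernel

theorem closed2 : Engine.Data.closed₂ 11 tableTwo 512 256 = true := by decide +kernel

theorem closed3 : Engine.Data.closed₂ 11 tableTwo 768 256 = true := by decide +kernel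

theorem closed4 : Engine.Data.closed₂ 11 tableTwo 1024 256 = true := by decide +kernel

theorem closed5 : Engine.Data.closed₂ 11 tableTwo 1280 256 = true := by decide +kernel

theorem closed6 : Engine.Data.closed₂ 11 tableTwo 1536 256 = true := by decide +kernel

theorem closed7 : Engine.Data.closed₂ 11 tableTwo 1792 256 = true := by decide +kernel

theorem tabTwo : dataTwo.tabOK tableTwo = true := by decide +kernel

theorem closedTwo : dataTwo.closedOK = true := by
  refine Engine.Data.closedOK_of_parts tabTwo [(0, 256), (256, 256), (512, 256), (768, 256), (1024, 256), (1280, 256), (1536, 256), (1792, 256)] ?_ ?_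
  · simp only [List.forall_mem_cons, List.not_mem_nil, IsEmpty.forall_iff, implies_true, and_true]
    exact ⟨closed0, closed1, closed2, closed3, closed4, closed5, closed6, closed7⟩
  · intro k hk
    have hk : k < 2048 := hk
    refine ⟨(k / 256 * 256, 256), ?_, by simp only; omega, by simp only; omega⟩
    have : k / 256 < 8 := by omega
    interval_cases hq : k / 256 <;> simp

end Cfsg.Agent.Lib.SchurMult.Tits
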