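import Cfsg.Agent.Lib.SchurMult.TitsData
import Cfsg.Agent.Lib.Chev.TwistF4TwoBits
import Cfsg.Agent.Lib.Chev.TitsGroup
import Cfsg.Agent.Lib.SchurMult.GolayEngine

/-!
The basic elements of the simple group inside the twisted group of type `F₄` over two elements, and the
multiplier certificates evaluated on bit vectors.
-/

set_option autoImplicit false
set_option maxRecDepth 100000

namespace Cfsg.Agent.Lib.SchurMult.Tits

open Cfsg Cfsg.Lie Cfsg.Agent.Lib Cfsg.Agent.Lib.Chev Cfsg.Agent.Lib.Chev.F4
open scoped commutatorElement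

local notation "G₀" => twistedF4 (ZMod 2) (2 ^ 0)

/-- The elements of the basic list: conjugates of a pair element, of a central quad element, and products
of two quad elements. -/
def atomSpec (k : ℕ) : List ℕ :=
  if k < 8 then [33, 24].map sigC^[k]
  else if k < 16 then [28, 30].map sigC^[k - 8]
  else [27, 25, 28].map sigC^[k - 16] ++ [27, 25, 28]

theorem atoms_spec : ((List.range 24).all fun k => atoms.getD k [] == atomSpec k &&
    (atomSpec k).all TwoInvol.isPos) = true ∧ atoms.length = 24 := by
  decide +kernel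

theorem card_two : Fintype.card (ZMod 2) = 2 ^ (2 * 0 + 1) := by simp

/-- The root word of a basic element. -/
def atomW (k : ℕ) : List ℕ := atoms.getD k []

theorem wordP_W {K : Type} [Field K] [CharP K 2] (l : List ℕ) :
    (TwoInvol.wordP l : GL chevF4.Idx K) = F4.W l := rfl

theorem atom_mem_gen {K : Type} [Field K] [CharP K 2] [Fintype K] (hK : Fintype.card K = 2 ^ (2 * 0 + 1))
    (k : ℕ) : ∃ x : ↥(commutator ↥(twistedF4 K (2 ^ 0))),
    ((x : ↥(twistedF4 K (2 ^ 0))) : GL chevF4.Idx (K)) = TwoInvol.wordP (atomW k) := by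
  classical
  by_cases hk : k < 24
  swap
  · refine ⟨1, ?_⟩
    rw [atomW, List.getD_eq_default _ _ (by rw [atoms_spec.2]; omega)]
    simp [TwoInvol.wordP]
  obtain ⟨fq1, fq2, fp⟩ := word_forms (K := K)
  have hG := ree_gens (RingEquiv.refl (K)) F4.hθ₀ hK
  have hnG : coxN (K := K) ∈ twistedF4 K (2 ^ 0) := by
    have h := mul_mem (hG.wN_mem 0 (by rw [rank_eq']; omega)) (hG.wN_mem 1 (by rw [rank_eq']; omega))
    have e : ∀ l l' : List ℕ, F4.checked.wordN (K) (l ++ l') =
        F4.checked.wordN (K) l * F4.checked.wordN (K) l' :=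
      fun l l' => by simp [Checked.wordN]
    rw [coxN, show coxL = reeSpec.word 0 ++ reeSpec.word 1 from rfl, e]
    exact h
  let n : ↥(twistedF4 K (2 ^ 0)) := ⟨coxN, hnG⟩
  let p : ↥(twistedF4 K (2 ^ 0)) := ⟨pEl 0 1, pEl_mem hK 1⟩
  let b : ↥(twistedF4 K (2 ^ 0)) := ⟨qEl 0 1 0, qEl_mem hK 1 0⟩
  let c : ↥(twistedF4 K (2 ^ 0)) := ⟨qEl 0 0 1, qEl_mem hK 0 1⟩
  set C' := commutator ↥(twistedF4 K (2 ^ 0))
  let π := QuotientGroup.mk' C'
  have hab : ∀ x y : ↥(twistedF4 K (2 ^ 0)), π x * π y = π y * π x := fun x y => by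
    rw [← map_mul, ← map_mul]
    refine ((QuotientGroup.mk'_eq_mk' _).2 ⟨⁅x⁻¹, y⁻¹⁆, ?_, by rw [commutatorElement_def]; group⟩).symm
    exact Subgroup.commutator_mem_commutator (Subgroup.mem_top _) (Subgroup.mem_top _)
  have hconj : ∀ x y : ↥(twistedF4 K (2 ^ 0)), π (x * y * x⁻¹) = π y := fun x y => by
    rw [map_mul, map_mul, map_inv, hab x y, mul_inv_cancel_right]
  obtain ⟨b₀, hb₀, hcases⟩ := coset_cases hK
  have hsq : ∀ g : ↥(twistedF4 K (2 ^ 0)), π g * π g = 1 := fun g => by
    have h1 : ∀ x ∈ C', π x = 1 := fun x hx => (QuotientGroup.eq_one_iff x).2 hx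
    rcases hcases g with h | h
    · rw [h1 g h, one_mul]
    · have h2 := h1 _ h
      rw [map_mul, map_inv, inv_mul_eq_one] at h2
      rw [← h2, ← map_mul]
      exact h1 _ hb₀
  have hC : π c = 1 := by
    have e : c = b * b := Subtype.ext (by
      push_cast
      simp only [b, c]
      rw [qEl_mul (hper' hK)]
      simp [CharTwo.add_self_eq_zero])
    rw [e, map_mul]
    exact hsq b
  have hP : π p = 1 := by
    have e : p = n ^ 4 * (b * (n * b * n⁻¹) * b⁻¹ * (n * b * n⁻¹)⁻¹) * (n ^ 4)⁻¹ := by
      refine Subtype.ext ?_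
      push_cast
      simp only [p, b, n, fp, fq1]
      have h1 := conj_cox_word (K := K) 1 (l := [27, 25, 28]) (by decide)
      rw [pow_one, Function.iterate_one] at h1
      rw [h1, W_reverse (l := [27, 25, 28]) (by decide),
        W_reverse (l := [27, 25, 28].map sigC) (by decide +kernel), ← W_append, ← W_append, ← W_append,
        show ([27, 25, 28] ++ [27, 25, 28].map sigC ++ [27, 25, 28].reverse ++
          ([27, 25, 28].map sigC).reverse) = [27, 25, 28] ++ [13, 21, 11] ++ [28, 25, 27] ++ [11, 21, 13] by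
          decide +kernel]
      have h2 : (W ([27, 25, 28] ++ [13, 21, 11] ++ [28, 25, 27] ++ [11, 21, 13]) : GL chevF4.Idx (K)) =
          W [14, 23] := one_eq_of_sameMod (by decide) (by decide) key_word
      rw [h2, conj_cox_word 4 (by decide), show [14, 23].map sigC^[4] = [33, 24] by decide +kernel]
    rw [e, hconj, map_mul, map_mul, map_mul, map_inv, map_inv, hconj, mul_inv_cancel_right, mul_inv_cancel]
  have hmem : ∀ x, π x = 1 → x ∈ C' := fun x h => (QuotientGroup.eq_one_iff x).1 h
  have hsp := atoms_spec.1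
  simp only [List.all_eq_true, List.mem_range, Bool.and_eq_true, beq_iff_eq] at hsp
  have hw : atomW k = atomSpec k := (hsp k hk).1
  rw [hw, atomSpec, wordP_W]
  split_ifs with h1 h2
  · refine ⟨⟨n ^ k * p * (n ^ k)⁻¹, hmem _ (by rw [hconj, hP])⟩, ?_⟩
    push_cast
    simp only [n, p, fp]
    exact conj_cox_word k (by decide)
  · refine ⟨⟨n ^ (k - 8) * c * (n ^ (k - 8))⁻¹, hmem _ (by rw [hconj, hC])⟩, ?_⟩
    push_cast
    simp only [n, c, fq2]
    exact conj_cox_word (k - 8) (by decide)
  · refine ⟨⟨n ^ (k - 16) * b * (n ^ (k - 16))⁻¹ * b, hmem _ (by rw [map_mul, hconj, hsq])⟩, ?_⟩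
    push_cast
    simp only [n, b, fq1]
    rw [conj_cox_word (k - 16) (by decide), ← W_append]

theorem atom_mem (k : ℕ) : ∃ x : ↥(commutator ↥G₀),
    ((x : ↥G₀) : GL chevF4.Idx (ZMod 2)) = TwoInvol.wordP (atomW k) :=
  atom_mem_gen card_two k

/-- A basic element. -/
noncomputable def atomT (k : ℕ) : Cfsg.Lie.TitsGroup := (atom_mem k).choose

theorem atomT_spec (k : ℕ) :
    ((atomT k : ↥G₀) : GL chevF4.Idx (ZMod 2)) = TwoInvol.wordP (atomW k) :=
  (atom_mem k).choose_spec

/-- The element of a word of basic elements. -/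
noncomputable def elt (w : List ℕ) : Cfsg.Lie.TitsGroup := (w.map atomT).prod

/-- The root word of a word of basic elements. -/
def flat (w : List ℕ) : List ℕ := w.flatMap atomW

theorem coe_elt : ∀ w : List ℕ,
    ((elt w : ↥G₀) : GL chevF4.Idx (ZMod 2)) = TwoInvol.wordP (flat w)
  | [] => rfl
  | k :: w => by
    have ih := coe_elt w
    simp only [elt, flat, List.map_cons, List.prod_cons, List.flatMap_cons, TwoInvol.wordP_append] at ih ⊢
    rw [← ih, ← atomT_spec k]
    rfl

theorem elt_inj {v w : List ℕ}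
    (h : (TwoInvol.wordP (flat v) : GL chevF4.Idx (ZMod 2)) = TwoInvol.wordP (flat w)) : elt v = elt w := by
  refine Subtype.ext (Subtype.ext ?_)
  exact (coe_elt v).trans (h.trans (coe_elt w).symm)

theorem elt_append (v w : List ℕ) : elt (v ++ w) = elt v * elt w := by simp [elt]

/-- The root word of a word in given generators. -/
def gword (gens : List (List ℕ)) (w : List ℕ) : List ℕ := w.flatMap fun i => gens.getD i []

theorem flat_pos (w : List ℕ) : ∀ r ∈ flat w, TwoInvol.isPos r = true := by
  intro r hr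
  obtain ⟨k, -, hk⟩ := List.mem_flatMap.1 hr
  have hsp := atoms_spec.1
  simp only [List.all_eq_true, List.mem_range, Bool.and_eq_true, beq_iff_eq] at hsp
  rcases Nat.lt_or_ge k 24 with h | h
  · rw [atomW, (hsp k h).1] at hk
    exact (hsp k h).2 r hk
  · rw [atomW, List.getD_eq_default _ _ (by rw [atoms_spec.2]; omega)] at hk
    simp at hk

/-- Two words have the same action on all basis vectors. -/
def same (v w : List ℕ) : Bool :=
  allBelow 52 fun b => Nat.beq (TwoInvol.appW (flat v) (2 ^ b)) (TwoInvol.appW (flat w) (2 ^ b))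

/-- The key of a word. -/
def key (base : List ℕ) (w : List ℕ) : ℕ :=
  base.foldr (fun b acc => TwoInvol.appW (flat w) (2 ^ (b % 52)) + 2 ^ 52 * acc) 0

theorem same_spec {v w : List ℕ} (h : same v w = true) : elt v = elt w := by
  refine elt_inj (Units.ext ?_)
  simp only [same, allBelow_iff, Nat.beq_eq] at h
  refine ext_vecOf fun b hb => ?_
  have hb' : b < 52 := by rw [rank_eq', nroots_eq] at hb; exact hb
  have hlt : 2 ^ b < 2 ^ 52 := Nat.pow_lt_pow_right (by norm_num) hb'
  rw [← TwoInvol.val_two_pow hb, (TwoInvol.mulVec_word (flat_pos v) hlt).2,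
    (TwoInvol.mulVec_word (flat_pos w) hlt).2, h b hb']

theorem key_congr (base : List ℕ) {v w : List ℕ} (h : elt v = elt w) : key base v = key base w := by
  have h' : (TwoInvol.wordP (flat v) : GL chevF4.Idx (ZMod 2)) = TwoInvol.wordP (flat w) := by
    rw [← coe_elt v, ← coe_elt w, h]
  induction base with
  | nil => rfl
  | cons b base ih =>
    simp only [key, List.foldr_cons] at ih ⊢
    have hlt : 2 ^ (b % 52) < 2 ^ 52 := Nat.pow_lt_pow_right (by norm_num) (Nat.mod_lt _ (by norm_num))
    obtain ⟨l1, v1⟩ := TwoInvol.mulVec_word (K := ZMod 2) (flat_pos v) hlt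
    obtain ⟨l2, v2⟩ := TwoInvol.mulVec_word (K := ZMod 2) (flat_pos w) hlt
    rw [h'] at v1
    rw [TwoInvol.val_inj l1 l2 (v1.symm.trans v2), ih]

variable (D : Engine.Data) (gens conj : List (List ℕ)) (base sorted keys : List ℕ)

/-- The relation checks on a range. -/
def relOK (lo len : ℕ) : Bool :=
  (List.range len).all fun k => same (gword gens (D.lhsAt (lo + k))) (gword gens (D.rhsAt (lo + k)))

/-- The key checks on a range. -/
def keyOK (lo len : ℕ) : Bool :=
  ((sorted.drop lo).take len).map (fun k => key base (gword gens (D.word k))) == (keys.drop lo).take len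

/-- The checks of the order of the keys. -/
def sortOK : Bool :=
  decide (sorted.length = D.p ^ D.n) && sorted.all (fun k => decide (k < D.p ^ D.n)) &&
  decide (keys.length = sorted.length) && GolayEngine.increasing keys

/-- The check of an equation. -/
def eqnOK : Engine.Eqn → Bool
  | .cons _ _ => true
  | .fus k x y x' y' =>
    same (conj.getD k [] ++ gword gens x) (gword gens x' ++ conj.getD k []) &&
    same (conj.getD k [] ++ gword gens y) (gword gens y' ++ conj.getD k [])

variable {D gens conj base sorted keys}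

theorem ev_gword (w : List ℕ) : Engine.Data.ev (fun i => elt (gens.getD i [])) w = elt (gword gens w) := by
  induction w with
  | nil => rfl
  | cons i w ih =>
    simp only [Engine.Data.ev, List.map_cons, List.prod_cons, gword, List.flatMap_cons] at ih ⊢
    rw [ih, elt_append]

theorem bound {Γ : Type} [Group Γ] [Finite Γ] {σ : Γ →* Cfsg.Lie.TitsGroup}
    (hσ : Cfsg.IsStemExtension σ) {p : ℕ} [Fact p.Prime] (hp : D.p = p)
    (hall : D.allOK = true)
    (rparts : List (ℕ × ℕ)) (hrp : ∀ q ∈ rparts, relOK D gens q.1 q.2 = true)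
    (hrc : ∀ k < D.nv, ∃ q ∈ rparts, q.1 ≤ k ∧ k < q.1 + q.2)
    (hsort : sortOK D sorted keys = true)
    (kparts : List (ℕ × ℕ)) (hkp : ∀ q ∈ kparts, keyOK D gens base sorted keys q.1 q.2 = true)
    (hkc : ∀ k < D.p ^ D.n, ∃ q ∈ kparts, q.1 ≤ k ∧ k < q.1 + q.2)
    (heq : D.eqs.all (eqnOK gens conj) = true)
    (hcard : (Nat.card Cfsg.Lie.TitsGroup).factorization p = D.n) {k : ℕ} (hk : p ^ k ∣ Nat.card σ.ker) :
    p ^ k ∣ D.bound := by
  simp only [sortOK, Bool.and_eq_true, List.all_eq_true, decide_eq_true_eq] at hsort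
  obtain ⟨⟨⟨hlen, hlt⟩, hkl⟩, hinc0⟩ := hsort
  simp only [List.all_eq_true] at heq
  have hrel : ∀ j < D.nv, same (gword gens (D.lhsAt j)) (gword gens (D.rhsAt j)) = true := fun j hj => by
    obtain ⟨q, hq, h1, h2⟩ := hrc j hj
    have h := hrp q hq
    simp only [relOK, List.all_eq_true, List.mem_range] at h
    have := h (j - q.1) (by omega)
    rwa [show q.1 + (j - q.1) = j by omega] at this
  have hkeys : sorted.map (fun k => key base (gword gens (D.word k))) = keys := by
    refine List.ext_getElem (by simp [hkl]) fun j h1 h2 => ?_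
    rw [List.length_map, hlen] at h1
    obtain ⟨q, hq, g1, g2⟩ := hkc j h1
    have h := hkp q hq
    simp only [keyOK, beq_iff_eq] at h
    have he := congrArg (fun l => l[j - q.1]?) h
    simp only [List.getElem?_map, List.getElem?_take, if_pos (show j - q.1 < q.2 by omega),
      List.getElem?_drop, show q.1 + (j - q.1) = j by omega,
      List.getElem?_eq_getElem (show j < sorted.length by omega), List.getElem?_eq_getElem h2,
      Option.map_some, Option.some.injEq] at he
    simpa using he
  have hinc : GolayEngine.increasing (sorted.map fun k => key base (gword gens (D.word k))) = true := by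
    rw [hkeys]; exact hinc0
  refine Engine.bound_main D hσ hp hall (fun i => elt (gens.getD i [])) (fun i => elt (conj.getD i []))
    (fun j hj => ?_) (fun a ha b hb hab => ?_) (fun e he => ?_) hcard hk
  · rw [ev_gword, ev_gword]
    exact same_spec (hrel j hj)
  · have hpw := GolayEngine.pairwise_of_increasing _ hinc
    have hnd : sorted.Nodup := List.Nodup.of_map _ (hpw.imp fun h => h.ne)
    have hperm : ∀ c, c < D.p ^ D.n → c ∈ sorted := by
      intro c hc
      have hsub : sorted.toFinset ⊆ Finset.range (D.p ^ D.n) := fun x hx =>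
        Finset.mem_range.2 (hlt x (List.mem_toFinset.1 hx))
      have := Finset.eq_of_subset_of_card_le hsub (by
        rw [List.toFinset_card_of_nodup hnd, hlen, Finset.card_range])
      rw [← List.mem_toFinset, this, Finset.mem_range]
      exact hc
    rw [ev_gword, ev_gword] at hab
    exact List.inj_on_of_nodup_map (hpw.imp fun h => h.ne) (hperm a ha) (hperm b hb) (key_congr base hab)
  · rcases e with ⟨u, v⟩ | ⟨j, x, y, x', y'⟩
    · trivial
    · have h := heq _ he
      simp only [eqnOK, Bool.and_eq_true] at h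
      refine ⟨?_, ?_⟩ <;> rw [ev_gword, ev_gword, ← elt_append, ← elt_append]
      exacts [same_spec h.1, same_spec h.2]

end Cfsg.Agent.Lib.SchurMult.Tits
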