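import Cfsg.Agent.Lib.SchurMult.Corestriction
import Cfsg.Agent.Lib.SchurMult.Comm
import Mathlib

/-!
Lower bounds for multipliers: a central extension of a subgroup gives a central extension of the group by the
monomial representation on cosets and the product of the entries. If the commutators of lifts are constant on
the conjugates of a commuting pair (and of the bases of its subgroups), the commutator of the lifts of the pair
in the new extension is that constant raised to the index.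
-/

set_option autoImplicit false

namespace Cfsg.Agent.Lib.SchurMult.TransferExt

open Subgroup
open scoped commutatorElement

universe u v

/-- A nontrivial element of a kernel lying in the derived group gives a stem extension. -/
theorem exists_stem_of_central {G : Type u} [Group G] [Finite G] {Γ : Type v} [Group Γ] (σ : Γ →* G)
    (hs : Function.Surjective σ) (hc : σ.ker ≤ center Γ) {z : Γ} (hz : σ z = 1) (hz' : z ∈ commutator Γ) :
    ∃ (Δ : Type u) (_ : Group Δ) (_ : Finite Δ) (τ : Δ →* G),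
      Cfsg.IsStemExtension τ ∧ ∃ k ∈ τ.ker, orderOf z ∣ orderOf k := by
  have hφ := stdPres_surjective G
  obtain ⟨η, hη⟩ := exists_lift (stdPres G) (MonoidHom.id G) σ hs hc
  have hη' : ∀ w, σ (η w) = proj (stdPres G) w := DFunLike.congr_fun hη
  have hle : commutator Γ ≤ (commutator (UGrp (stdPres G))).map η := by
    rw [_root_.commutator_def, Subgroup.commutator_le]
    have dec : ∀ a : Γ, ∃ w, ∃ k ∈ center Γ, a = η w * k := fun a => by
      obtain ⟨w, hw⟩ := proj_surjective (stdPres G) hφ (σ a)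
      refine ⟨w, (η w)⁻¹ * a, hc ?_, (mul_inv_cancel_left _ _).symm⟩
      rw [MonoidHom.mem_ker, map_mul, map_inv, hη', hw, inv_mul_cancel]
    intro a _ b _
    obtain ⟨w, k, hk, rfl⟩ := dec a
    obtain ⟨w', k', hk', rfl⟩ := dec b
    rw [commutatorElement_central_mul _ _ hk hk', ← map_commutatorElement]
    exact mem_map_of_mem η (commutator_mem_commutator (mem_top _) (mem_top _))
  obtain ⟨m, hm, rfl⟩ := hle hz'
  have hmem : m ∈ mult (stdPres G) := ⟨by show proj (stdPres G) m = 1; rw [← hη']; exact hz, hm⟩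
  obtain ⟨L, hL⟩ := exists_compl_ker (stdPres G)
  haveI := hL.normal
  obtain ⟨hfin, hst, ⟨e⟩⟩ := cover_of_compl (stdPres G) hφ hL
  haveI := finite_mult (stdPres G)
  refine ⟨_, inferInstance, hfin, _, hst, (e.symm ⟨m, hmem⟩).1, (e.symm ⟨m, hmem⟩).2, ?_⟩
  rw [Subgroup.orderOf_coe, MulEquiv.orderOf_eq, Subgroup.orderOf_mk]
  exact orderOf_map_dvd η m

variable {G : Type u} [Group G] (P : Subgroup G) {E : Type v} [Group E] (π : E →* G)

/-- The component of a monomial permutation. -/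
def cmp (f : Equiv.Perm ((G ⧸ P) × E)) (i : G ⧸ P) : E := (f (i, 1)).2

/-- The monomial permutations over a group element. -/
def Spec (g : G) (f : Equiv.Perm ((G ⧸ P) × E)) : Prop :=
  ∀ i, (∀ e, f (i, e) = (g • i, cmp P f i * e)) ∧ π (cmp P f i) = (Cores.rep P (g • i))⁻¹ * g * Cores.rep P i

variable {P π}

theorem cmp_mul {g h : G} {f f' : Equiv.Perm ((G ⧸ P) × E)} (hf : Spec P π g f) (hf' : Spec P π h f')
    (i : G ⧸ P) : cmp P (f * f') i = cmp P f (h • i) * cmp P f' i := by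
  show (f (f' (i, 1))).2 = _
  rw [(hf' i).1, (hf _).1, mul_one]

theorem spec_mul {g h : G} {f f' : Equiv.Perm ((G ⧸ P) × E)} (hf : Spec P π g f) (hf' : Spec P π h f') :
    Spec P π (g * h) (f * f') := fun i => by
  constructor
  · intro e
    rw [Equiv.Perm.mul_apply, (hf' i).1, (hf _).1, cmp_mul hf hf', mul_smul, mul_assoc]
  · rw [cmp_mul hf hf', map_mul, (hf _).2, (hf' i).2, mul_smul]
    group

theorem spec_one : Spec P π 1 (1 : Equiv.Perm ((G ⧸ P) × E)) := fun i => by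
  simp [cmp]

theorem spec_inv {g : G} {f : Equiv.Perm ((G ⧸ P) × E)} (hf : Spec P π g f) : Spec P π g⁻¹ f⁻¹ := by
  have key : ∀ i e, f⁻¹ (i, e) = (g⁻¹ • i, (cmp P f (g⁻¹ • i))⁻¹ * e) := fun i e => by
    rw [Equiv.Perm.inv_eq_iff_eq, (hf _).1, smul_inv_smul, mul_inv_cancel_left]
  have hc : ∀ i, cmp P f⁻¹ i = (cmp P f (g⁻¹ • i))⁻¹ := fun i => by
    show (f⁻¹ (i, 1)).2 = _
    rw [key, mul_one]
  refine fun i => ⟨fun e => by rw [key, hc], ?_⟩
  rw [hc, map_inv, (hf _).2, smul_inv_smul]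
  group

variable (P π) in
/-- The monomial group. -/
def Mon : Subgroup (G × Equiv.Perm ((G ⧸ P) × E)) where
  carrier := {x | Spec P π x.1 x.2}
  mul_mem' hx hy := spec_mul hx hy
  one_mem' := spec_one
  inv_mem' hx := spec_inv hx

variable (P π) in
/-- The projection of the monomial group. -/
def monProj : ↥(Mon P π) →* G := (MonoidHom.fst _ _).comp (Mon P π).subtype

theorem exists_spec (hP : π.range = P) (g : G) : ∃ f, Spec P π g f := by
  have h : ∀ i, ∃ e, π e = (Cores.rep P (g • i))⁻¹ * g * Cores.rep P i := fun i => by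
    exact hP.ge (Cores.rep_spec P g i)
  choose t ht using h
  exact ⟨{ toFun := fun q => (g • q.1, t q.1 * q.2)
           invFun := fun q => (g⁻¹ • q.1, (t (g⁻¹ • q.1))⁻¹ * q.2)
           left_inv := fun q => by simp
           right_inv := fun q => by simp }, fun i => ⟨fun e => by simp [cmp], by simp [cmp, ht]⟩⟩

/-- The component over an element fixing a point. -/
theorem cmp_commutator {X Y : ↥(Mon P π)} {i : G ⧸ P} (hX : monProj P π X • i = i)
    (hY : monProj P π Y • i = i) :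
    cmp P ((⁅X, Y⁆ : ↥(Mon P π)) : G × Equiv.Perm ((G ⧸ P) × E)).2 i =
      ⁅cmp P X.1.2 i, cmp P Y.1.2 i⁆ := by
  have hfix : ∀ Z : ↥(Mon P π), monProj P π Z • i = i →
      cmp P (Z⁻¹).1.2 i = (cmp P Z.1.2 i)⁻¹ ∧ monProj P π Z⁻¹ • i = i := fun Z hZ => by
    have hinv : monProj P π Z⁻¹ • i = i := by rw [map_inv, inv_smul_eq_iff, hZ]
    refine ⟨eq_inv_of_mul_eq_one_right ?_, hinv⟩
    have h := cmp_mul Z.2 (Z⁻¹).2 i
    rw [show (Z⁻¹).1.1 • i = i from hinv] at h
    rw [← h]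
    show cmp P ((Z * Z⁻¹ : ↥(Mon P π)).1.2) i = 1
    rw [mul_inv_cancel]
    rfl
  have hmul : ∀ Z W : ↥(Mon P π), monProj P π W • i = i →
      cmp P (Z * W).1.2 i = cmp P Z.1.2 i * cmp P W.1.2 i := fun Z W hW => by
    have h := cmp_mul Z.2 W.2 i
    rw [show W.1.1 • i = i from hW] at h
    exact h
  rw [commutatorElement_def, hmul _ _ (hfix Y hY).2, hmul _ _ (hfix X hX).2, hmul _ _ hY, (hfix X hX).1,
    (hfix Y hY).1, commutatorElement_def]

/-- A central extension of a subgroup with constant commutators on the conjugates of a commuting pair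
gives a stem extension of the whole group. -/
theorem exists_stem_of_stable [Finite G] [Finite E] (hP : π.range = P) (hc : π.ker ≤ center E)
    (x y : G) (hxy : Commute x y) (c : E) (hcπ : π c = 1)
    (hst : ∀ (g : G) (a b d : ℕ) (u v : E), a ∣ orderOf x → d ∣ orderOf y → b < d →
      π u = g⁻¹ * (x ^ a * y ^ b) * g → π v = g⁻¹ * y ^ d * g → ⁅u, v⁆ = c ^ (a * d))
    (hcop : Nat.Coprime (orderOf c) P.index) :
    ∃ (Δ : Type u) (_ : Group Δ) (_ : Finite Δ) (τ : Δ →* G),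
      Cfsg.IsStemExtension τ ∧ ∃ k ∈ τ.ker, orderOf c ∣ orderOf k := by
  classical
  haveI := Fintype.ofFinite (G ⧸ P)
  letI cA : CommGroup π.ker := { (inferInstance : Group π.ker) with
    mul_comm := fun a b => Subtype.ext (mem_center_iff.1 (hc b.2) a) }
  set pr := monProj P π with hpr
  have hsurj : Function.Surjective pr := fun g => by
    obtain ⟨f, hf⟩ := exists_spec hP g
    exact ⟨⟨(g, f), hf⟩, rfl⟩
  -- entries over the identity
  have hmemk : ∀ (z : pr.ker) (i : G ⧸ P), cmp P z.1.1.2 i ∈ π.ker := fun z i => by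
    have h1 : (z.1 : G × Equiv.Perm ((G ⧸ P) × E)).1 = 1 := z.2
    rw [MonoidHom.mem_ker, (z.1.2 i).2, h1, one_smul, mul_one, inv_mul_cancel]
  let ent : pr.ker → (G ⧸ P) → π.ker := fun z i => ⟨cmp P z.1.1.2 i, hmemk z i⟩
  have ent_mul : ∀ z w i, ent (z * w) i = ent z i * ent w i := fun z w i => Subtype.ext (by
    show cmp P (z.1.1.2 * w.1.1.2) i = cmp P z.1.1.2 i * cmp P w.1.1.2 i
    rw [cmp_mul z.1.2 w.1.2, show w.1.1.1 = 1 from w.2, one_smul])
  have hconjmem : ∀ (h : ↥(Mon P π)) (z : pr.ker), h * z * h⁻¹ ∈ pr.ker := fun h z =>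
    (MonoidHom.normal_ker pr).conj_mem z.1 z.2 h
  have ent_conj : ∀ (h : ↥(Mon P π)) (z : pr.ker) i,
      ent ⟨h * z * h⁻¹, hconjmem h z⟩ i = ent z ((pr h)⁻¹ • i) := fun h z i => Subtype.ext (by
    show cmp P (h.1.2 * z.1.1.2 * (h⁻¹).1.2) i = cmp P z.1.1.2 ((pr h)⁻¹ • i)
    have e1 : (h⁻¹).1.1 = (pr h)⁻¹ := rfl
    have e2 : z.1.1.1 = 1 := z.2
    have e3 : cmp P h.1.2 ((pr h)⁻¹ • i) * cmp P (h⁻¹).1.2 i = 1 := by
      rw [← e1, ← cmp_mul h.2 (h⁻¹).2]
      show cmp P ((h * h⁻¹ : ↥(Mon P π)).1.2) i = 1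
      rw [mul_inv_cancel]
      rfl
    rw [cmp_mul (spec_mul h.2 z.1.2) (h⁻¹).2, cmp_mul h.2 z.1.2, e1, e2, one_smul,
      mul_assoc, ← mem_center_iff.1 (hc (hmemk z _)) (cmp P (h⁻¹).1.2 i), ← mul_assoc, e3, one_mul])
  let ρ : pr.ker →* π.ker := MonoidHom.mk' (fun z => ∏ i, ent z i) fun z w => by
    simp only [ent_mul, Finset.prod_mul_distrib]
  have hρconj : ∀ (h : ↥(Mon P π)) (z : pr.ker), ρ ⟨h * z * h⁻¹, hconjmem h z⟩ = ρ z := fun h z => by
    show (∏ i, _) = ∏ i, _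
    simp only [ent_conj]
    exact Fintype.prod_equiv (MulAction.toPerm (pr h)⁻¹) _ _ fun i => rfl
  -- the lifts
  obtain ⟨X, hX⟩ := hsurj x
  obtain ⟨Y, hY⟩ := hsurj y
  have hCk : ∀ m n : ℕ, ⁅X ^ m, Y ^ n⁆ ∈ pr.ker := fun m n => by
    rw [MonoidHom.mem_ker, map_commutatorElement, map_pow, map_pow, hX, hY,
      commutatorElement_eq_one_iff_commute]
    exact hxy.pow_pow m n
  let C : pr.ker := ⟨⁅X, Y⁆, by simpa using hCk 1 1⟩
  -- entries of commutators of powers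
  have hrow : ∀ (m : ℕ) (i : G ⧸ P),
      ent ⟨⁅X ^ m, Y⁆, by simpa using hCk m 1⟩ i = ∏ t ∈ Finset.range m, ent C (x⁻¹ ^ t • i) := by
    intro m
    induction m with
    | zero =>
      intro i
      refine Subtype.ext ?_
      simp only [pow_zero, commutatorElement_one_left, Finset.range_zero, Finset.prod_empty]
      rfl
    | succ m ih =>
      intro i
      have hkm : ⁅X ^ m, Y⁆ ∈ pr.ker := by simpa using hCk m 1
      have : (⟨⁅X ^ (m + 1), Y⁆, by simpa using hCk (m + 1) 1⟩ : pr.ker) =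
          ⟨X * ⁅X ^ m, Y⁆ * X⁻¹, hconjmem X ⟨_, hkm⟩⟩ * C := Subtype.ext (by
        show ⁅X ^ (m + 1), Y⁆ = X * ⁅X ^ m, Y⁆ * X⁻¹ * ⁅X, Y⁆
        simp only [commutatorElement_def, pow_succ']
        group)
      have e : (pr X)⁻¹ = x⁻¹ := by rw [hX]
      rw [this, ent_mul, ent_conj X ⟨_, hkm⟩, ih, e, Finset.prod_range_succ']
      simp only [pow_zero, one_smul, pow_succ, mul_smul]
  have hgrid : ∀ (m n : ℕ) (i : G ⧸ P), ent ⟨⁅X ^ m, Y ^ n⁆, hCk m n⟩ i =
      ∏ s ∈ Finset.range n, ∏ t ∈ Finset.range m, ent C (x⁻¹ ^ t • y⁻¹ ^ s • i) := by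
    intro m n
    induction n with
    | zero =>
      intro i
      refine Subtype.ext ?_
      simp only [pow_zero, commutatorElement_one_right, Finset.range_zero, Finset.prod_empty]
      rfl
    | succ n ih =>
      intro i
      have : (⟨⁅X ^ m, Y ^ (n + 1)⁆, hCk m (n + 1)⟩ : pr.ker) =
          ⟨⁅X ^ m, Y⁆, by simpa using hCk m 1⟩ * ⟨Y * ⁅X ^ m, Y ^ n⁆ * Y⁻¹, hconjmem Y ⟨_, hCk m n⟩⟩ :=
        Subtype.ext (by
          show ⁅X ^ m, Y ^ (n + 1)⁆ = ⁅X ^ m, Y⁆ * (Y * ⁅X ^ m, Y ^ n⁆ * Y⁻¹)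
          simp only [commutatorElement_def, pow_succ']
          group)
      have e : (pr Y)⁻¹ = y⁻¹ := by rw [hY]
      rw [this, ent_mul, ent_conj Y ⟨_, hCk m n⟩, ih, e, hrow, Finset.prod_range_succ']
      simp only [pow_zero, one_smul, pow_succ, mul_smul]
      rw [mul_comm]
  -- one orbit
  set H := Subgroup.closure ({x⁻¹, y⁻¹} : Set G) with hH
  have hx' : x⁻¹ ∈ H := subset_closure (Or.inl rfl)
  have hy' : y⁻¹ ∈ H := subset_closure (Or.inr rfl)
  have hxy' : Commute x⁻¹ y⁻¹ := hxy.inv_inv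
  have hord : 0 < orderOf x⁻¹ ∧ 0 < orderOf y⁻¹ := ⟨orderOf_pos _, orderOf_pos _⟩
  have hform : ∀ h ∈ H, ∃ m n : ℕ, h = x⁻¹ ^ m * y⁻¹ ^ n := by
    intro h hh
    rw [hH, ← Subgroup.mem_toSubmonoid, Subgroup.closure_toSubmonoid_of_finite] at hh
    induction hh using Submonoid.closure_induction with
    | mem h hh =>
      rcases hh with rfl | rfl
      · exact ⟨1, 0, by simp⟩
      · exact ⟨0, 1, by simp⟩
    | one => exact ⟨0, 0, by simp⟩
    | mul h h' _ _ ih ih' =>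
      obtain ⟨m, n, rfl⟩ := ih
      obtain ⟨m', n', rfl⟩ := ih'
      refine ⟨m + m', n + n', ?_⟩
      rw [pow_add, pow_add, mul_assoc (x⁻¹ ^ m), ← mul_assoc (y⁻¹ ^ n), ← (hxy'.pow_pow m' n).eq]
      simp only [mul_assoc]
  have horbit : ∀ q : MulAction.orbitRel.Quotient H (G ⧸ P),
      ∏ j : {j // Quotient.mk'' j = q}, ent C j.1 =
        (⟨c, MonoidHom.mem_ker.2 hcπ⟩ : π.ker) ^ Fintype.card {j // Quotient.mk'' j = q} := by
    intro q
    obtain ⟨i, rfl⟩ := Quotient.mk''_surjective q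
    have hex : ∃ a, 0 < a ∧ ∃ n : ℕ, x⁻¹ ^ a • i = y⁻¹ ^ n • i :=
      ⟨orderOf x⁻¹, hord.1, 0, by rw [pow_orderOf_eq_one, pow_zero]⟩
    set a := Nat.find hex with ha
    obtain ⟨ha0, n₀, hn₀⟩ := Nat.find_spec hex
    set d := MulAction.period y⁻¹ i with hd
    have hd0 : 0 < d := MulAction.period_pos_of_orderOf_pos hord.2 i
    have hmod : ∀ n, y⁻¹ ^ n • i = y⁻¹ ^ (n % d) • i := fun n => (MulAction.pow_mod_period_smul n).symm
    have hadd : ∀ k, ∃ n : ℕ, x⁻¹ ^ (k * a) • i = y⁻¹ ^ n • i := fun k => by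
      induction k with
      | zero => exact ⟨0, by simp⟩
      | succ k ih =>
        obtain ⟨n, hn⟩ := ih
        refine ⟨n + n₀, ?_⟩
        rw [add_mul, one_mul, add_comm, pow_add, mul_smul, hn, ← mul_smul, (hxy'.pow_pow a n).eq, mul_smul,
          hn₀, ← mul_smul, ← pow_add]
    have hreduce : ∀ m n : ℕ, ∃ t < a, ∃ s < d, x⁻¹ ^ m • y⁻¹ ^ n • i = x⁻¹ ^ t • y⁻¹ ^ s • i := by
      intro m n
      obtain ⟨k, hk⟩ := hadd (m / a)
      refine ⟨m % a, Nat.mod_lt _ ha0, (n + k) % d, Nat.mod_lt _ hd0, ?_⟩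
      rw [← hmod, pow_add, mul_smul, ← hk, ← mul_smul (y⁻¹ ^ n), ← (hxy'.pow_pow (m / a * a) n).eq,
        ← mul_smul, ← mul_smul, ← mul_assoc, ← pow_add, Nat.mod_add_div', mul_smul]
    have hmin : ∀ {t t' : ℕ} {s s' : ℕ}, t < a → t' < a → t ≤ t' →
        x⁻¹ ^ t • y⁻¹ ^ s • i = x⁻¹ ^ t' • y⁻¹ ^ s' • i → t = t' := by
      intro t t' s s' ht ht' hle h
      by_contra hne
      obtain ⟨r, rfl⟩ : ∃ r, t' = t + r := ⟨t' - t, by omega⟩
      rw [pow_add, mul_smul, smul_left_cancel_iff, ← mul_smul, (hxy'.pow_pow r s').eq, mul_smul] at h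
      refine Nat.find_min hex (show r < a by omega) ⟨by omega, s + s' * (orderOf y⁻¹ - 1), ?_⟩
      have h2 := congrArg (fun j => y⁻¹ ^ (s' * (orderOf y⁻¹ - 1)) • j) h
      simp only [← mul_smul, ← pow_add] at h2
      rw [← mul_assoc, ← pow_add] at h2
      rw [add_comm, h2, show s' * (orderOf y⁻¹ - 1) + s' = orderOf y⁻¹ * s' by
        rw [← Nat.mul_succ, Nat.succ_eq_add_one, Nat.sub_add_cancel hord.2, mul_comm],
        pow_mul, pow_orderOf_eq_one, one_pow, one_mul]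
    have hmemq : ∀ t s : ℕ, (Quotient.mk'' (x⁻¹ ^ t • y⁻¹ ^ s • i) : MulAction.orbitRel.Quotient H (G ⧸ P)) =
        Quotient.mk'' i := fun t s =>
      Quotient.sound' ⟨⟨x⁻¹ ^ t * y⁻¹ ^ s, mul_mem (pow_mem hx' _) (pow_mem hy' _)⟩, by
        show (x⁻¹ ^ t * y⁻¹ ^ s) • i = _
        rw [mul_smul]⟩
    let φ : Fin d × Fin a → {j // Quotient.mk'' j = (Quotient.mk'' i : MulAction.orbitRel.Quotient H (G ⧸ P))} :=
      fun p => ⟨x⁻¹ ^ p.2.1 • y⁻¹ ^ p.1.1 • i, hmemq _ _⟩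
    have hφ : Function.Bijective φ := by
      constructor
      · rintro ⟨s, t⟩ ⟨s', t'⟩ h
        have h' : x⁻¹ ^ t.1 • y⁻¹ ^ s.1 • i = x⁻¹ ^ t'.1 • y⁻¹ ^ s'.1 • i := congrArg Subtype.val h
        have ht : t.1 = t'.1 := by
          rcases le_total t.1 t'.1 with hle | hle
          · exact hmin t.2 t'.2 hle h'
          · exact (hmin t'.2 t.2 hle h'.symm).symm
        rw [ht, smul_left_cancel_iff] at h'
        have hs : s.1 = s'.1 := by
          rcases le_total s.1 s'.1 with hle | hle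
          · obtain ⟨r, hr⟩ := Nat.exists_eq_add_of_le hle
            rw [hr, pow_add, mul_smul, smul_left_cancel_iff, eq_comm, MulAction.pow_smul_eq_iff_period_dvd] at h'
            have := Nat.eq_zero_of_dvd_of_lt h' (by omega)
            omega
          · obtain ⟨r, hr⟩ := Nat.exists_eq_add_of_le hle
            rw [hr, pow_add, mul_smul, smul_left_cancel_iff, MulAction.pow_smul_eq_iff_period_dvd] at h'
            have := Nat.eq_zero_of_dvd_of_lt h' (by omega)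
            omega
        exact Prod.ext (Fin.ext hs) (Fin.ext ht)
      · rintro ⟨j, hj⟩
        obtain ⟨⟨h, hh⟩, rfl⟩ := Quotient.exact' hj
        obtain ⟨m, n, rfl⟩ := hform h hh
        obtain ⟨t, ht, s, hs, e⟩ := hreduce m n
        exact ⟨(⟨s, hs⟩, ⟨t, ht⟩), Subtype.ext (e.symm.trans (mul_smul _ _ _).symm)⟩
    rw [← Fintype.card_of_bijective hφ, ← Fintype.prod_bijective φ hφ (fun p => ent C (φ p).1) _ fun p => rfl,
      Fintype.card_prod, Fintype.card_fin, Fintype.card_fin, Fintype.prod_prod_type,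
      Fin.prod_univ_eq_prod_range (fun s => ∏ t : Fin a, ent C (x⁻¹ ^ t.1 • y⁻¹ ^ s • i)) d]
    rw [Finset.prod_congr rfl fun s _ =>
      Fin.prod_univ_eq_prod_range (fun t => ent C (x⁻¹ ^ t • y⁻¹ ^ s • i)) a]
    rw [← hgrid a d i]
    -- the pair attached to the orbit
    set b := (d - n₀ % d) % d with hb
    have hfix : x⁻¹ ^ a • y⁻¹ ^ b • i = i := by
      rw [← mul_smul, (hxy'.pow_pow a b).eq, mul_smul, hn₀, ← mul_smul, ← pow_add]
      refine (MulAction.pow_smul_eq_iff_period_dvd).2 ?_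
      rw [← hd, Nat.dvd_iff_mod_eq_zero, hb, Nat.mod_add_mod, Nat.add_mod]
      rcases Nat.eq_zero_or_pos (n₀ % d) with h0 | h0
      · simp [h0]
      · have : n₀ % d < d := Nat.mod_lt _ hd0
        rw [Nat.mod_eq_of_lt (show d - n₀ % d < d by omega), Nat.sub_add_cancel this.le, Nat.mod_self]
    have hU : pr (X ^ a * Y ^ b) • i = i := by
      rw [map_mul, map_pow, map_pow, hX, hY]
      have h : (x ^ a * y ^ b)⁻¹ • i = i := by
        rw [mul_inv_rev, ← inv_pow, ← inv_pow, ← (hxy'.pow_pow a b).eq, mul_smul, hfix]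
      rw [inv_smul_eq_iff] at h
      exact h.symm
    have hV : pr (Y ^ d) • i = i := by
      rw [map_pow, hY]
      have h : y⁻¹ ^ d • i = i := by rw [hd, MulAction.pow_period_smul]
      rw [inv_pow, inv_smul_eq_iff] at h
      exact h.symm
    have hda : a ∣ orderOf x := by
      rw [← orderOf_inv]
      obtain ⟨k, hk⟩ := hadd (orderOf x⁻¹ / a)
      by_contra hnd
      have hr : orderOf x⁻¹ % a ≠ 0 := fun h => hnd (Nat.dvd_of_mod_eq_zero h)
      have e1 : x⁻¹ ^ (orderOf x⁻¹ % a) • y⁻¹ ^ k • i = x⁻¹ ^ 0 • y⁻¹ ^ 0 • i := by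
        rw [← hk, ← mul_smul, ← pow_add, Nat.mod_add_div', pow_orderOf_eq_one]
        simp
      exact hr (hmin ha0 (Nat.mod_lt _ ha0) (Nat.zero_le _) e1.symm).symm
    have hdd : d ∣ orderOf y := orderOf_inv y ▸ MulAction.period_dvd_orderOf y⁻¹ i
    refine Subtype.ext ?_
    rw [SubgroupClass.coe_pow]
    show cmp P ((⁅X ^ a, Y ^ d⁆ : ↥(Mon P π)).1.2) i = c ^ (d * a)
    have hUV : (⁅X ^ a, Y ^ d⁆ : ↥(Mon P π)) = ⁅X ^ a * Y ^ b, Y ^ d⁆ := by
      simp only [commutatorElement_def]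
      group
    rw [hUV, cmp_commutator hU hV, mul_comm d a]
    refine hst (Cores.rep P i) a b d _ _ hda hdd (Nat.mod_lt _ hd0) ?_ ?_
    · have h := (((X ^ a * Y ^ b : ↥(Mon P π))).2 i).2
      rw [show (X ^ a * Y ^ b : ↥(Mon P π)).1.1 = pr (X ^ a * Y ^ b) from rfl, hU, map_mul, map_pow, map_pow,
        hX, hY] at h
      exact h
    · have h := (((Y ^ d : ↥(Mon P π))).2 i).2
      rw [show (Y ^ d : ↥(Mon P π)).1.1 = pr (Y ^ d) from rfl, hV, map_pow, hY] at h
      exact h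
  have hρC : ρ C = (⟨c, MonoidHom.mem_ker.2 hcπ⟩ : π.ker) ^ P.index := by
    show (∏ i, ent C i) = _
    rw [← Fintype.prod_fiberwise (fun i => (Quotient.mk'' i : MulAction.orbitRel.Quotient H (G ⧸ P))),
      Finset.prod_congr rfl fun q _ => horbit q, Finset.prod_pow_eq_pow_sum, ← Fintype.card_sigma,
      Fintype.card_congr (Equiv.sigmaFiberEquiv _), Subgroup.index_eq_card, Nat.card_eq_fintype_card]
  -- the quotient
  set N := ρ.ker.map pr.ker.subtype with hN
  haveI : N.Normal := ⟨fun z hz h => by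
    obtain ⟨w, hw, rfl⟩ := hz
    exact ⟨⟨h * w * h⁻¹, hconjmem h w⟩, by rw [SetLike.mem_coe, MonoidHom.mem_ker, hρconj]; exact hw, rfl⟩⟩
  have hNle : N ≤ pr.ker := Subgroup.map_subtype_le _
  let σ : ↥(Mon P π) ⧸ N →* G := QuotientGroup.lift N pr hNle
  have hq := QuotientGroup.mk'_surjective N
  have hσc : σ.ker ≤ center (↥(Mon P π) ⧸ N) := by
    intro w hw
    obtain ⟨z, rfl⟩ := hq w
    have hz : z ∈ pr.ker := hw
    refine mem_center_iff.2 fun g => ?_
    obtain ⟨h, rfl⟩ := hq g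
    rw [← map_mul, ← map_mul, ← inv_mul_eq_one, ← map_inv, ← map_mul]
    refine (QuotientGroup.eq_one_iff _).2 ?_
    refine ⟨(⟨z, hz⟩ : pr.ker)⁻¹ * ⟨h⁻¹ * z * h⁻¹⁻¹, hconjmem h⁻¹ ⟨z, hz⟩⟩, ?_, ?_⟩
    · rw [SetLike.mem_coe, MonoidHom.mem_ker, map_mul, hρconj h⁻¹ ⟨z, hz⟩, map_inv, inv_mul_cancel]
    · show z⁻¹ * (h⁻¹ * z * h⁻¹⁻¹) = _
      group
  obtain ⟨Δ, i1, i2, τ, hτ, k, hk, hdvd⟩ := exists_stem_of_central σ (fun g => by
      obtain ⟨z, rfl⟩ := hsurj g
      exact ⟨QuotientGroup.mk' N z, rfl⟩) hσc (z := QuotientGroup.mk' N (C : ↥(Mon P π)))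
    (show pr C = 1 from C.2) (by
      rw [show QuotientGroup.mk' N (C : ↥(Mon P π)) = ⁅QuotientGroup.mk' N X, QuotientGroup.mk' N Y⁆ from
        map_commutatorElement _ _ _, _root_.commutator_def]
      exact commutator_mem_commutator (mem_top _) (mem_top _))
  refine ⟨Δ, i1, i2, τ, hτ, k, hk, dvd_trans ?_ hdvd⟩
  refine orderOf_dvd_of_pow_eq_one ?_
  set o := orderOf (QuotientGroup.mk' N (C : ↥(Mon P π))) with ho
  have h1 : (C : ↥(Mon P π)) ^ o ∈ N := by
    rw [← QuotientGroup.eq_one_iff, QuotientGroup.mk_pow]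
    exact pow_orderOf_eq_one _
  obtain ⟨w, hw, e⟩ := h1
  have h2 : ρ (C ^ o) = 1 := by
    rw [show C ^ o = w from Subtype.ext (by rw [SubgroupClass.coe_pow]; exact e.symm)]
    exact hw
  rw [map_pow, hρC, ← pow_mul] at h2
  have h3 : c ^ (P.index * o) = 1 := by
    have := congrArg Subtype.val h2
    rwa [SubgroupClass.coe_pow] at this
  exact orderOf_dvd_iff_pow_eq_one.1 (hcop.dvd_of_dvd_mul_left (orderOf_dvd_of_pow_eq_one h3))

end Cfsg.Agent.Lib.SchurMult.TransferExt
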