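import Cfsg.Agent.Lib.SchurMult.TransferExtension

/-!
The transfer of a central extension of a subgroup evaluated on a commuting pair, from explicit representatives
of the cosets.
-/

set_option autoImplicit false

namespace Cfsg.Agent.Lib.SchurMult.TransferExt

open Subgroup
open scoped commutatorElement

universe u v

variable {G : Type u} [Group G] {P : Subgroup G} {E : Type v} [Group E] {π : E →* G}

/-- A pair of commuting elements whose transferred commutator is `c`. -/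
theorem exists_stem_of_sum [Finite G] [Finite E] (hP : π.range = P) (hc : π.ker ≤ center E)
    (x y : G) (hxy : Commute x y) {N : ℕ} (R : Fin N → G)
    (hR : Function.Bijective fun i => (QuotientGroup.mk (R i) : G ⧸ P)) (σx σy : Fin N → Fin N)
    (tx ty : Fin N → E) (hx : ∀ i, x * R i = R (σx i) * π (tx i)) (hy : ∀ i, y * R i = R (σy i) * π (ty i))
    (e : Fin N → E) (he : ∀ i, tx (σy i) * ty i = e i * (ty (σx i) * tx i))
    (c : E) (hprod : ((List.finRange N).map e).prod = c) :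
    ∃ (Δ : Type u) (_ : Group Δ) (_ : Finite Δ) (τ : Δ →* G),
      Cfsg.IsStemExtension τ ∧ ∃ k ∈ τ.ker, orderOf c ∣ orderOf k := by
  classical
  haveI := Fintype.ofFinite (G ⧸ P)
  letI cA : CommGroup π.ker := { (inferInstance : Group π.ker) with
    mul_comm := fun a b => Subtype.ext (mem_center_iff.1 (hc b.2) a) }
  set pr := monProj P π with hpr
  have hsurj : Function.Surjective pr := fun g => by
    obtain ⟨f, hf⟩ := exists_spec hP g
    exact ⟨⟨(g, f), hf⟩, rfl⟩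
  -- entries over the identity
  have hmemk : ∀ (z : pr.ker) (i : G ⧸ P), cmp P z.1.1.2 i ∈ π.ker := fun z i => by
    have h1 : (z.1 : G × Equiv.Perm ((G ⧸ P) × E)).1 = 1 := z.2
    rw [MonoidHom.mem_ker, (z.1.2 i).2, h1, one_smul, mul_one, inv_mul_cancel]
  let ent : pr.ker → (G ⧸ P) → π.ker := fun z i => ⟨cmp P z.1.1.2 i, hmemk z i⟩
  have ent_mul : ∀ z w i, ent (z * w) i = ent z i * ent w i := fun z w i => Subtype.ext (by
    show cmp P (z.1.1.2 * w.1.1.2) i = cmp P z.1.1.2 i * cmp P w.1.1.2 i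
    rw [cmp_mul z.1.2 w.1.2, show w.1.1.1 = 1 from w.2, one_smul])
  have hconjmem : ∀ (h : ↥(Mon P π)) (z : pr.ker), h * z * h⁻¹ ∈ pr.ker := fun h z =>
    (MonoidHom.normal_ker pr).conj_mem z.1 z.2 h
  have ent_conj : ∀ (h : ↥(Mon P π)) (z : pr.ker) i,
      ent ⟨h * z * h⁻¹, hconjmem h z⟩ i = ent z ((pr h)⁻¹ • i) := fun h z i => Subtype.ext (by
    show cmp P (h.1.2 * z.1.1.2 * (h⁻¹).1.2) i = cmp P z.1.1.2 ((pr h)⁻¹ • i)
    have e1 : (h⁻¹).1.1 = (pr h)⁻¹ := rfl
    have e2 : z.1.1.1 = 1 := z.2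
    have e3 : cmp P h.1.2 ((pr h)⁻¹ • i) * cmp P (h⁻¹).1.2 i = 1 := by
      rw [← e1, ← cmp_mul h.2 (h⁻¹).2]
      show cmp P ((h * h⁻¹ : ↥(Mon P π)).1.2) i = 1
      rw [mul_inv_cancel]
      rfl
    rw [cmp_mul (spec_mul h.2 z.1.2) (h⁻¹).2, cmp_mul h.2 z.1.2, e1, e2, one_smul,
      mul_assoc, ← mem_center_iff.1 (hc (hmemk z _)) (cmp P (h⁻¹).1.2 i), ← mul_assoc, e3, one_mul])
  let ρ : pr.ker →* π.ker := MonoidHom.mk' (fun z => ∏ i, ent z i) fun z w => by
    simp only [ent_mul, Finset.prod_mul_distrib]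
  have hρconj : ∀ (h : ↥(Mon P π)) (z : pr.ker), ρ ⟨h * z * h⁻¹, hconjmem h z⟩ = ρ z := fun h z => by
    show (∏ i, _) = ∏ i, _
    simp only [ent_conj]
    exact Fintype.prod_equiv (MulAction.toPerm (pr h)⁻¹) _ _ fun i => rfl
  -- the points
  set φ : Fin N → G ⧸ P := fun i => (QuotientGroup.mk (R i) : G ⧸ P) with hφ
  have hex : ∀ i, ∃ q, π q = (Cores.rep P (φ i))⁻¹ * R i := fun i => by
    have : (Cores.rep P (φ i))⁻¹ * R i ∈ π.range := by
      rw [hP, ← QuotientGroup.eq]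
      exact QuotientGroup.out_eq' (φ i)
    exact this
  choose q hq using hex
  have hpt : ∀ (g : G) (σ : Fin N → Fin N) (t : Fin N → E), (∀ i, g * R i = R (σ i) * π (t i)) →
      ∀ i, g • φ i = φ (σ i) := fun g σ t h i => by
    show ((g * R i : G) : G ⧸ P) = (R (σ i) : G ⧸ P)
    rw [h i]
    exact QuotientGroup.mk_mul_of_mem _ (hP ▸ ⟨t i, rfl⟩)
  have hlift : ∀ (g : G) (σ : Fin N → Fin N) (t : Fin N → E), (∀ i, g * R i = R (σ i) * π (t i)) →
      ∃ f, Spec P π g f ∧ ∀ i, cmp P f (φ i) = q (σ i) * t i * (q i)⁻¹ := by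
    intro g σ t h
    let e' := Equiv.ofBijective φ hR
    let T : G ⧸ P → E := fun j => q (σ (e'.symm j)) * t (e'.symm j) * (q (e'.symm j))⁻¹
    refine ⟨{ toFun := fun w => (g • w.1, T w.1 * w.2)
              invFun := fun w => (g⁻¹ • w.1, (T (g⁻¹ • w.1))⁻¹ * w.2)
              left_inv := fun w => by simp
              right_inv := fun w => by simp }, fun j => ⟨fun w => by simp [cmp], ?_⟩, fun i => ?_⟩
    · obtain ⟨i, rfl⟩ := hR.2 j
      simp only [cmp, Equiv.coe_fn_mk, mul_one, T, show e'.symm (φ i) = i from e'.symm_apply_apply i]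
      rw [map_mul, map_mul, map_inv, hq, hq, hpt g σ t h i, mul_inv_rev, inv_inv,
        mul_assoc (Cores.rep P (φ (σ i)))⁻¹, ← h i]
      group
    · simp only [cmp, Equiv.coe_fn_mk, mul_one, T, show e'.symm (φ i) = i from e'.symm_apply_apply i]
  obtain ⟨fx, hfx, hcx⟩ := hlift x σx tx hx
  obtain ⟨fy, hfy, hcy⟩ := hlift y σy ty hy
  let X : ↥(Mon P π) := ⟨(x, fx), hfx⟩
  let Y : ↥(Mon P π) := ⟨(y, fy), hfy⟩
  have hCk : ⁅X, Y⁆ ∈ pr.ker := by
    rw [MonoidHom.mem_ker, map_commutatorElement, commutatorElement_eq_one_iff_commute]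
    exact hxy
  let C : pr.ker := ⟨⁅X, Y⁆, hCk⟩
  have hσ : ∀ i, σx (σy i) = σy (σx i) := fun i => hR.1 (by
    show φ (σx (σy i)) = φ (σy (σx i))
    rw [← hpt x σx tx hx, ← hpt y σy ty hy, ← hpt y σy ty hy, ← hpt x σx tx hx, ← mul_smul, ← mul_smul, hxy.eq])
  have hek : ∀ i, π (e i) = 1 := fun i => by
    have h1 : x * y * R i = R (σx (σy i)) * π (tx (σy i) * ty i) := by
      rw [mul_assoc, hy i, ← mul_assoc, hx (σy i), map_mul, mul_assoc]
    have h2 : x * y * R i = R (σx (σy i)) * π (ty (σx i) * tx i) := by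
      rw [hxy.eq, hσ, mul_assoc, hx i, ← mul_assoc, hy (σx i), map_mul, mul_assoc]
    rw [h1, he i, map_mul] at h2
    exact mul_eq_right.1 (mul_left_cancel h2)
  -- the entries of the commutator
  have hent : ∀ i, (ent C (φ (σx (σy i))) : E) = e i := by
    intro i
    have h1 := cmp_mul (C : ↥(Mon P π)).2 (Y * X).2 (φ i)
    rw [show ((C : ↥(Mon P π)) : G × Equiv.Perm ((G ⧸ P) × E)).2 * (Y * X : ↥(Mon P π)).1.2 = (X * Y : ↥(Mon P π)).1.2 from
      congrArg (fun w : ↥(Mon P π) => w.1.2) (show ⁅X, Y⁆ * (Y * X) = X * Y by rw [commutatorElement_def]; group),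
      show (Y * X : ↥(Mon P π)).1.1 • φ i = φ (σx (σy i)) by
        show (y * x) • φ i = _
        rw [mul_smul, hpt x σx tx hx, hpt y σy ty hy, hσ],
      show (X * Y : ↥(Mon P π)).1.2 = fx * fy from rfl, show (Y * X : ↥(Mon P π)).1.2 = fy * fx from rfl,
      cmp_mul hfx hfy, cmp_mul hfy hfx, hpt x σx tx hx, hpt y σy ty hy, hcx, hcy, hcx, hcy, ← hσ] at h1
    show cmp P (C : ↥(Mon P π)).1.2 (φ (σx (σy i))) = e i
    set W := cmp P (C : ↥(Mon P π)).1.2 (φ (σx (σy i)))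
    have h2 : q (σx (σy i)) * (e i * (ty (σx i) * tx i)) * (q i)⁻¹ =
        W * (q (σx (σy i)) * (ty (σx i) * tx i) * (q i)⁻¹) := by
      rw [← he i]
      simpa only [mul_assoc, inv_mul_cancel_left] using h1
    rw [← mul_assoc _ (e i), mem_center_iff.1 (hc (hek i)) (q (σx (σy i)))] at h2
    simp only [mul_assoc] at h2
    exact (mul_right_cancel h2).symm
  have hρC : ((ρ C : π.ker) : E) = c := by
    have hbij : Function.Bijective fun i => φ (σx (σy i)) := by
      have : (fun i => φ (σx (σy i))) = fun i => (x * y) • φ i := funext fun i => by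
        rw [mul_smul, hpt y σy ty hy, hpt x σx tx hx]
      rw [this]
      exact (MulAction.bijective (x * y)).comp hR
    show ((∏ i, ent C i : π.ker) : E) = c
    rw [← Fintype.prod_bijective _ hbij (fun i => ent C (φ (σx (σy i)))) _ fun i => rfl, Fin.prod_univ_def,
      SubmonoidClass.coe_list_prod, List.map_map, ← hprod]
    exact congrArg List.prod (List.map_congr_left fun i _ => hent i)
  -- the quotient
  set N := ρ.ker.map pr.ker.subtype with hN
  haveI : N.Normal := ⟨fun z hz h => by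
    obtain ⟨w, hw, rfl⟩ := hz
    exact ⟨⟨h * w * h⁻¹, hconjmem h w⟩, by rw [SetLike.mem_coe, MonoidHom.mem_ker, hρconj]; exact hw, rfl⟩⟩
  have hNle : N ≤ pr.ker := Subgroup.map_subtype_le _
  let σ : ↥(Mon P π) ⧸ N →* G := QuotientGroup.lift N pr hNle
  have hq := QuotientGroup.mk'_surjective N
  have hσc : σ.ker ≤ center (↥(Mon P π) ⧸ N) := by
    intro w hw
    obtain ⟨z, rfl⟩ := hq w
    have hz : z ∈ pr.ker := hw
    refine mem_center_iff.2 fun g => ?_
    obtain ⟨h, rfl⟩ := hq g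
    rw [← map_mul, ← map_mul, ← inv_mul_eq_one, ← map_inv, ← map_mul]
    refine (QuotientGroup.eq_one_iff _).2 ?_
    refine ⟨(⟨z, hz⟩ : pr.ker)⁻¹ * ⟨h⁻¹ * z * h⁻¹⁻¹, hconjmem h⁻¹ ⟨z, hz⟩⟩, ?_, ?_⟩
    · rw [SetLike.mem_coe, MonoidHom.mem_ker, map_mul, hρconj h⁻¹ ⟨z, hz⟩, map_inv, inv_mul_cancel]
    · show z⁻¹ * (h⁻¹ * z * h⁻¹⁻¹) = _
      group
  obtain ⟨Δ, i1, i2, τ, hτ, k, hk, hdvd⟩ := exists_stem_of_central σ (fun g => by
      obtain ⟨z, rfl⟩ := hsurj g
      exact ⟨QuotientGroup.mk' N z, rfl⟩) hσc (z := QuotientGroup.mk' N (C : ↥(Mon P π)))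
    (show pr C = 1 from C.2) (by
      rw [show QuotientGroup.mk' N (C : ↥(Mon P π)) = ⁅QuotientGroup.mk' N X, QuotientGroup.mk' N Y⁆ from
        map_commutatorElement _ _ _, _root_.commutator_def]
      exact commutator_mem_commutator (mem_top _) (mem_top _))
  refine ⟨Δ, i1, i2, τ, hτ, k, hk, dvd_trans ?_ hdvd⟩
  refine orderOf_dvd_of_pow_eq_one ?_
  set o := orderOf (QuotientGroup.mk' N (C : ↥(Mon P π))) with ho
  have h1 : (C : ↥(Mon P π)) ^ o ∈ N := by
    rw [← QuotientGroup.eq_one_iff, QuotientGroup.mk_pow]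
    exact pow_orderOf_eq_one _
  obtain ⟨w, hw, e⟩ := h1
  have h2 : ρ (C ^ o) = 1 := by
    rw [show C ^ o = w from Subtype.ext (by rw [SubgroupClass.coe_pow]; exact e.symm)]
    exact hw
  rw [map_pow] at h2
  have := congrArg Subtype.val h2
  rwa [SubgroupClass.coe_pow, hρC] at this

end Cfsg.Agent.Lib.SchurMult.TransferExt
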